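import Cfsg.Agent.H8.GG

/-! H8.GO: binary codes of length 24: coset leaders, the Steiner system, uniqueness of the Golay code. -/

set_option autoImplicit false
set_option maxRecDepth 200000
open Cfsg Finset H7
open scoped Pointwise

namespace H8

section
variable {α : Type*} [Fintype α] [DecidableEq α]

def ind (s : Finset α) : α → ZMod 2 := fun a => if a ∈ s then 1 else 0

theorem supp_ind (s : Finset α) : support₂ (ind s) = s := by ext; simp [support₂, ind]
theorem ind_supp (u : α → ZMod 2) : ind (support₂ u) = u := eq_of_support_eq (supp_ind _)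
theorem norm_ind (s : Finset α) : hammingNorm (ind s) = s.card := by rw [hammingNorm_eq, supp_ind]

theorem supp_sub (u v : α → ZMod 2) : support₂ (u - v) = symmDiff (support₂ u) (support₂ v) := by
  ext a
  simp only [support₂, mem_filter, mem_univ, true_and, mem_symmDiff, Pi.sub_apply]
  generalize u a = x; generalize v a = y; revert x y; decide

theorem ind_sub (s t : Finset α) : ind s - ind t = ind (symmDiff s t) := eq_of_support_eq (by simp only [supp_sub, supp_ind])

theorem norm_sub (u v : α → ZMod 2) : hammingNorm (u - v) + 2 * #(support₂ u ∩ support₂ v) = hammingNorm u + hammingNorm v := by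
  simp only [hammingNorm_eq, supp_sub, card_symmDiff_add]

theorem card_wt (k : ℕ) : #{u : α → ZMod 2 | hammingNorm u = k} = (Fintype.card α).choose k := by
  rw [← card_univ, ← card_powersetCard]
  exact card_bij' (fun u _ => support₂ u) (fun s _ => ind s) (by simp [hammingNorm_eq]) (by simp [norm_ind]) (by simp [ind_supp]) (by simp [supp_ind])

omit [DecidableEq α] in
theorem sum_norm (u : α → ZMod 2) : ∑ a, u a = hammingNorm u := by
  rw [hammingNorm, card_filter, Nat.cast_sum]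
  refine sum_congr rfl fun a _ => ?_
  generalize u a = x; revert x; decide

variable {C : Submodule (ZMod 2) (α → ZMod 2)}

theorem leaders (hα : Fintype.card α = 24) (hc : Nat.card C = 4096) (hmin : ∀ w ∈ C, w ≠ 0 → 8 ≤ hammingNorm w) (w : α → ZMod 2) :
    (∃ u, {u | u - w ∈ C ∧ hammingNorm u ≤ 4} = {u} ∧ hammingNorm u ≤ 3) ∨ ({u | u - w ∈ C ∧ hammingNorm u ≤ 4}.ncard = 6 ∧
      ∀ u ∈ {u | u - w ∈ C ∧ hammingNorm u ≤ 4}, hammingNorm u = 4 ∧ ∀ u' ∈ {u | u - w ∈ C ∧ hammingNorm u ≤ 4}, u ≠ u' →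
        Disjoint (support₂ u) (support₂ u')) := by
  classical
  let F (w : α → ZMod 2) : Finset (α → ZMod 2) := {u | u - w ∈ C ∧ hammingNorm u ≤ 4}
  let g (k : ℕ) : ℕ := if k ≤ 3 then 6 else 1
  have pr : ∀ w, ∀ u ∈ F w, ∀ v ∈ F w, u ≠ v → hammingNorm u = 4 ∧ Disjoint (support₂ u) (support₂ v) := fun w u hu v hv e => by
    simp only [F, mem_filter_univ] at hu hv
    have := hmin _ (sub_sub_sub_cancel_right u v w ▸ C.sub_mem hu.1 hv.1) (sub_ne_zero.2 e)
    have := norm_sub u v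
    exact ⟨by omega, disjoint_iff_inter_eq_empty.2 (card_eq_zero.1 (by omega))⟩
  have di : ∀ w, (∃ u, F w = {u} ∧ hammingNorm u ≤ 3) ∨ ((∀ u ∈ F w, hammingNorm u = 4) ∧ #(F w) ≤ 6) := fun w => by
    by_cases h : ∃ u ∈ F w, hammingNorm u ≤ 3
    · obtain ⟨u, hu, h⟩ := h
      exact .inl ⟨u, eq_singleton_iff_unique_mem.2 ⟨hu, fun v hv => by_contra fun e => by have := (pr w u hu v hv (Ne.symm e)).1; omega⟩, h⟩
    have h4 : ∀ u ∈ F w, hammingNorm u = 4 := fun u hu => by
      have := (mem_filter.1 hu).2.2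
      have := mt (fun e => ⟨u, hu, e⟩) h
      omega
    have := card_le_univ ((F w).biUnion support₂)
    rw [card_biUnion fun u hu v hv e => (pr w u hu v hv e).2, sum_const_nat fun u hu => (hammingNorm_eq u).symm.trans (h4 u hu)] at this
    exact .inr ⟨h4, by omega⟩
  have s4 : ∀ w, (∀ u ∈ F w, hammingNorm u = 4) → ∑ u ∈ F w, g (hammingNorm u) = #(F w) := fun w h =>
    (sum_const_nat fun u hu => by rw [h u hu]; rfl).trans (mul_one _)
  have le : ∀ w ∈ univ, ∑ u ∈ F w, g (hammingNorm u) ≤ 6 := fun w _ => by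
    rcases di w with ⟨u, e, h⟩ | h
    · rw [e, sum_singleton]; exact (if_pos h).le
    · exact (s4 w h.1).trans_le h.2
  have tot : ∑ w, ∑ u ∈ F w, g (hammingNorm u) = ∑ _w : α → ZMod 2, 6 := by
    have c : ∀ u : α → ZMod 2, #{w | u - w ∈ C} = 4096 := fun u => by
      rw [← hc, ← Fintype.card_subtype, ← Nat.card_eq_fintype_card]
      exact Nat.card_congr ((Equiv.subLeft u).subtypeEquiv fun _ => .rfl)
    have : ∀ u : α → ZMod 2, ∑ w, (if u - w ∈ C ∧ hammingNorm u ≤ 4 then g (hammingNorm u) else 0) =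
        (fun k => if k ≤ 4 then 4096 * g k else 0) (hammingNorm u) := fun u => by
      by_cases h : hammingNorm u ≤ 4 <;> simp [h, ← sum_filter, c]
    simp only [F, sum_filter]
    rw [sum_comm, sum_congr rfl fun u _ => this u, ← sum_fiberwise_of_maps_to' (t := range 25) (g := hammingNorm) (fun u _ =>
      mem_range_succ_iff.2 (hα ▸ hammingNorm_le_card_fintype)) fun k => if k ≤ 4 then 4096 * g k else 0]
    simp only [sum_const, card_wt, card_univ, Fintype.card_fun, hα, ZMod.card]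
    decide +kernel
  have e : {u | u - w ∈ C ∧ hammingNorm u ≤ 4} = (F w : Set _) := by simp [F]
  rw [e]
  exact (di w).imp (fun ⟨u, e, h⟩ => ⟨u, by rw [e, coe_singleton], h⟩) fun h => ⟨by
    rw [Set.ncard_coe_finset, ← s4 w h.1]; exact (sum_eq_sum_iff_of_le le).1 tot w (mem_univ _), fun u hu => ⟨h.1 u hu, fun v hv e => (pr w u hu v hv e).2⟩⟩

theorem leader (hα : Fintype.card α = 24) (hc : Nat.card C = 4096) (hmin : ∀ w ∈ C, w ≠ 0 → 8 ≤ hammingNorm w) (w : α → ZMod 2) :
    ∃ u, u - w ∈ C ∧ hammingNorm u ≤ 4 :=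
  (leaders hα hc hmin w).elim (fun ⟨u, e, _⟩ => ⟨u, e.ge rfl⟩) fun h => Set.nonempty_of_ncard_ne_zero (h.1 ▸ by norm_num)

theorem steiner24 (hα : Fintype.card α = 24) (hc : Nat.card C = 4096) (hmin : ∀ w ∈ C, w ≠ 0 → 8 ≤ hammingNorm w)
    (horth : ∀ v ∈ C, ∀ w ∈ C, ∑ i, v i * w i = 0) : IsSteinerSystem 5 8 (wordsOfWeight (C : Set (α → ZMod 2)) 8) := by
  refine ⟨fun _ h => h.2, fun s hs => existsUnique_of_exists_of_unique ?_ ?_⟩
  · obtain ⟨u, h1, h2⟩ := leader hα hc hmin (ind s)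
    have h3 := norm_sub u (ind s)
    have h4 := horth _ h1 _ h1
    rw [sum_congr rfl fun i _ => (show ∀ x : ZMod 2, x * x = x by decide) _, sum_norm, ZMod.natCast_eq_zero_iff] at h4
    rw [norm_ind, supp_ind, hs] at h3
    have h5 := hmin _ h1 fun e => by rw [sub_eq_zero.1 e, norm_ind] at h2; omega
    refine ⟨_, ⟨⟨_, h1, rfl⟩, by rw [← hammingNorm_eq]; omega⟩, fun x hx => ?_⟩
    rw [supp_sub, supp_ind, mem_symmDiff]
    exact .inr ⟨hx, fun h => notMem_empty x (card_eq_zero.1 (show #(support₂ u ∩ s) = 0 by omega) ▸ mem_inter.2 ⟨h, hx⟩)⟩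
  · rintro _ _ ⟨⟨⟨u, hu, rfl⟩, h1⟩, h2⟩ ⟨⟨⟨v, hv, rfl⟩, h3⟩, h4⟩
    have := norm_sub u v
    have := card_le_card (subset_inter h2 h4)
    rw [← hammingNorm_eq] at h1 h3
    rw [show u = v from sub_eq_zero.1 (by_contra fun e => by have := hmin _ (C.sub_mem hu hv) e; omega)]

end

theorem ind_fs (a : ℕ) : ind (H7.fs a) = wd a := eq_of_support_eq (by rw [supp_ind, support_wd])

theorem ind_mem {s : Finset GolayPt} : ind s ∈ golayCode ↔ s ∈ CC := by rw [← support_mem_iff, supp_ind]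

theorem golay_le {M : Submodule (ZMod 2) (GolayPt → ZMod 2)} (h : ∀ o ∈ octads, ind o ∈ M) : golayCode ≤ M := fun w hw => by
  obtain ⟨i, -, rfl⟩ := mem_golay_iff.1 hw
  refine wd_encL_mem (fun b hb => ?_) i
  obtain ⟨o, ho, e⟩ := anyL_iff.1 (allL_iff.1 (show (allL gB fun b => anyL StB.oL fun o => memL StB.oL (Nat.xor o b)) = true by decide +kernel) b hb)
  have := M.sub_mem (h _ (GC.std.blk.le ⟨o, ho, rfl⟩)) (h _ (GC.std.blk.le ⟨_, memL_iff.1 e, rfl⟩))
  rwa [ind_sub, ← Coding.fs_xor, show Nat.xor o b = o ^^^ b from rfl, Nat.xor_xor_cancel_left, ind_fs] at this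

theorem card_golay : Nat.card golayCode = 4096 := by
  refine (Nat.card_congr (β := CC) ⟨fun w => ⟨_, support_mem_iff.2 w.2⟩, fun s => ⟨_, ind_mem.2 s.2⟩,
    fun w => Subtype.ext (ind_supp _), fun s => Subtype.ext (supp_ind _)⟩).trans ?_
  exact (ncard_supp (fun _ => true) subset_rfl fun _ _ h => by simp [h]).trans (by decide +kernel)

theorem golay_min : ∀ w ∈ golayCode, w ≠ 0 → 8 ≤ hammingNorm w := fun w hw h => by
  have := weights (support_mem_iff.2 hw)
  have := hammingNorm_eq_zero.not.2 h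
  rw [← hammingNorm_eq] at *; omega

theorem golay_uq {α : Type*} [Fintype α] [DecidableEq α] {C : Submodule (ZMod 2) (α → ZMod 2)} (hα : Fintype.card α = 24)
    (hc : Nat.card C = 4096) (hmin : ∀ w ∈ C, w ≠ 0 → 8 ≤ hammingNorm w) (horth : ∀ v ∈ C, ∀ w ∈ C, ∑ i, v i * w i = 0) :
    Submodule.span (ZMod 2) {w | w ∈ C ∧ hammingNorm w = 8} = C ∧ ∃ e : α ≃ GolayPt, ∀ w : GolayPt → ZMod 2, w ∈ golayCode ↔ (fun i => w (e i)) ∈ C := by
  obtain ⟨e, h, -⟩ := uq24 hα (steiner24 hα hc hmin horth)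
  let φ := LinearEquiv.funCongrLeft (ZMod 2) (ZMod 2) e
  have h1 : golayCode.map φ.toLinearMap ≤ Submodule.span (ZMod 2) {w | w ∈ C ∧ hammingNorm w = 8} :=
    Submodule.map_le_iff_le_comap.2 (golay_le fun o ho => by
      obtain ⟨⟨w, hw, e1⟩, e2⟩ := (h (o.image e.symm)).2 (by simpa [image_image] using ho)
      refine Submodule.subset_span (s := {w | w ∈ C ∧ hammingNorm w = 8}) (?_ : φ (ind o) ∈ _)
      rw [show φ (ind o) = w by rw [← ind_supp w, e1]; ext a; simp [φ, ind, Equiv.symm_apply_eq]]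
      exact ⟨hw, by rw [hammingNorm_eq, e1, e2]⟩)
  have h2 : Submodule.span (ZMod 2) {w | w ∈ C ∧ hammingNorm w = 8} ≤ C := Submodule.span_le.2 fun _ h => h.1
  have h3 : golayCode.map φ.toLinearMap = C := SetLike.coe_injective (Set.eq_of_subset_of_ncard_le (h1.trans h2)
    (hc.trans (card_golay.symm.trans (Nat.card_congr (φ.submoduleMap _).toEquiv))).le)
  exact ⟨h2.antisymm (h3.ge.trans h1), e, fun w => by rw [← h3, Submodule.mem_map_equiv]; exact (φ.symm_apply_apply w).symm ▸ .rfl⟩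

theorem card_of_dim {C : Submodule (ZMod 2) (Fin 24 → ZMod 2)} (h : Module.finrank (ZMod 2) C = 12) : Nat.card C = 4096 := by
  rw [Module.natCard_eq_pow_finrank (K := ZMod 2), h, Nat.card_zmod]; rfl

end H8
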