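import Cfsg.Agent.H8.LeCnt
import Mathlib.GroupTheory.IndexNSmul

/-! H8.LeCls: classes modulo `2L` in a rank 24 lattice with the vector counts of the Leech lattice.
`H8.Le.Lat` (data), `Lat.cong`, `Lat.main` (every class has a short vector, crosses have 48 members),
`leechLat`, `matLat`, `card_cross`, `exists_short`. -/

set_option autoImplicit false
set_option linter.all false

namespace H8.Le
open Cfsg Finset Matrix

/-- a lattice with minimal norm `2 * μ` -/
structure Lat {ι : Type} [Fintype ι] (L : AddSubgroup (ι → ℤ)) (b : (ι → ℤ) → (ι → ℤ) → ℤ) (μ : ℤ) : Prop where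
  card : Fintype.card ι = 24
  pos : 0 < μ
  add : ∀ x y z, b x (y + z) = b x y + b x z
  symm : ∀ x y, b x y = b y x
  min : ∀ x ∈ L, x ≠ 0 → 2 * μ ≤ b x x

namespace Lat
variable {ι : Type} [Fintype ι] {L : AddSubgroup (ι → ℤ)} {b : (ι → ℤ) → (ι → ℤ) → ℤ} {μ : ℤ} (h : Lat L b μ)
include h

def hm (x : ι → ℤ) : (ι → ℤ) →+ ℤ := AddMonoidHom.mk' (b x) (h.add x)

theorem neg (x y : ι → ℤ) : b x (-y) = -b x y := (h.hm x).map_neg y
theorem neg_neg' (x : ι → ℤ) : b (-x) (-x) = b x x := by rw [h.neg, h.symm, h.neg, neg_neg]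
theorem zero (x : ι → ℤ) : b x 0 = 0 := (h.hm x).map_zero
theorem nadd (x y : ι → ℤ) : b (x + y) (x + y) = b x x + b y y + 2 * b x y := by
  rw [h.add, h.symm (x + y), h.symm (x + y), h.add, h.add, h.symm y x]; ring

theorem cong {x y : ι → ℤ} (hy : y ∈ L) (hxy : x ≠ y) (hxn : b x x ≤ 4 * μ)
    (hyn : b y y ≤ 4 * μ) (hc : ∃ z ∈ L, x - y = 2 • z) :
    x = -y ∨ (b x x = 4 * μ ∧ b y y = 4 * μ ∧ b x y = 0) := by
  obtain ⟨z, hz, e⟩ := hc
  by_cases h' : x = -y
  · exact Or.inl h'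
  right
  have e' : x + y = 2 • (z + y) := by rw [smul_add, ← e, two_nsmul]; abel
  have a := h.min _ hz (by rintro rfl; exact hxy (sub_eq_zero.1 (by simpa using e)))
  have a' := h.min _ (L.add_mem hz hy) fun h0 => h' (eq_neg_of_add_eq_zero_left (by rw [e', h0, smul_zero]))
  have c := h.nadd x (-y)
  have d := h.nadd x y
  rw [← sub_eq_add_neg, e, two_nsmul, h.nadd, h.neg_neg', h.neg] at c
  rw [e', two_nsmul, h.nadd] at d
  omega

theorem orth_le (s : Finset (ι → ℤ)) (h1 : ∀ x ∈ s, b x x ≠ 0) (h2 : ∀ x ∈ s, ∀ y ∈ s, x ≠ y → b x y = 0) :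
    s.card ≤ 24 := by
  have : LinearIndependent ℤ (fun x : s => (x : ι → ℤ)) := linearIndependent_iff'.2 fun t g hg i hi => by
    have := congrArg (h.hm i) hg
    rw [map_sum, map_zero, sum_eq_single i (fun j _ hj => by
      rw [map_zsmul]; exact smul_eq_zero_of_right _ (h2 _ i.2 _ j.2 fun e => hj (Subtype.ext e.symm)))
      (fun h => absurd hi h), map_zsmul] at this
    exact (mul_eq_zero.1 this).resolve_right (h1 _ i.2)
  simpa [h.card] using this.fintype_card_le_finrank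

theorem main (n4 : {x | x ∈ L ∧ b x x = 2 * μ}.ncard = 196560) (n6 : {x | x ∈ L ∧ b x x = 3 * μ}.ncard = 16773120)
    (n8 : {x | x ∈ L ∧ b x x = 4 * μ}.ncard = 398034000) :
    (∀ x ∈ L, ∃ y ∈ L, b y y ≤ 4 * μ ∧ ∃ z ∈ L, x - y = 2 • z) ∧
    ∀ x ∈ L, b x x = 4 * μ → {y | y ∈ L ∧ b y y = b x x ∧ ∃ z ∈ L, x - y = 2 • z}.ncard = 48 := by
  classical
  have hμ := h.pos
  let D := L.map (nsmulAddMonoidHom (α := ι → ℤ) 2)
  let π : (ι → ℤ) →+ (ι → ℤ) ⧸ D := QuotientAddGroup.mk' D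
  have hπ : ∀ x y, π x = π y ↔ ∃ z ∈ L, x - y = 2 • z := fun x y =>
    QuotientAddGroup.eq_iff_sub_mem.trans ⟨fun ⟨z, hz, e⟩ => ⟨z, hz, e.symm⟩, fun ⟨z, hz, e⟩ => ⟨z, hz, e.symm⟩⟩
  have hU : (π '' L).ncard ≤ 2 ^ 24 ∧ (π '' L).Finite := by
    have e : D.relIndex L = Nat.card (L.map π) := by
      rw [← AddSubgroup.relIndex_ker, QuotientAddGroup.ker_mk']
    rw [AddSubgroup.relIndex_map_nsmul] at e
    have e2 : Module.finrank ℤ L ≤ 24 := by
      have := L.toIntSubmodule.finrank_le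
      rw [Module.finrank_fintype_fun_eq_card, h.card] at this
      exact this
    refine ⟨?_, ?_⟩
    · exact (le_of_eq e.symm).trans (Nat.pow_le_pow_right (by norm_num) e2)
    · exact Nat.finite_of_card_ne_zero (α := L.map π) (by rw [← e]; positivity)
  have fin : ∀ {S : Set (ι → ℤ)} {n : ℕ}, S.ncard = n + 1 → ∃ s : Finset (ι → ℤ), s.card = n + 1 ∧
      ∀ x, x ∈ s ↔ x ∈ S := fun {S n} hS => by
    have := Set.finite_of_ncard_ne_zero (s := S) (by omega)
    exact ⟨this.toFinset, by rw [← Set.ncard_eq_toFinset_card _ this, hS], fun x => this.mem_toFinset⟩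
  obtain ⟨A, a1, a2⟩ := fin n4
  obtain ⟨B, b1, b2⟩ := fin n6
  obtain ⟨C, c1, c2⟩ := fin n8
  simp only [Set.mem_setOf_eq] at a2 b2 c2
  have f2 : ∀ (s : Finset (ι → ℤ)) (k : ℤ), k < 4 * μ → (∀ x, x ∈ s ↔ x ∈ L ∧ b x x = k) →
      s.card ≤ 2 * (s.image π).card := fun s k hk hs => by
    refine card_le_mul_card_image _ _ fun q hq => ?_
    obtain ⟨x, hx, rfl⟩ := mem_image.1 hq
    refine (card_le_card (t := {x, -x}) fun y hy => ?_).trans (card_le_two)
    rw [Finset.mem_filter, hs, hπ] at hy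
    rw [hs] at hx
    by_cases e : y = x
    · simp [e]
    rcases h.cong hx.1 e (by omega) (by omega) hy.2 with h' | h'
    · simp [h']
    · omega
  have f48 : ∀ q, (C.filter fun y => π y = q).card ≤ 48 := fun q => by
    letI : LinearOrder (ι → ℤ) := linearOrderOfSTO WellOrderingRel
    set F := C.filter fun y => π y = q
    have hF : ∀ y, y ∈ F ↔ (y ∈ L ∧ b y y = 4 * μ) ∧ π y = q := fun y => by rw [Finset.mem_filter, c2]
    have key : ∀ s : Finset (ι → ℤ), s ⊆ F → (∀ x ∈ s, -x ∉ s) → s.card ≤ 24 := fun s hs hs' =>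
      h.orth_le s (fun x hx => by have := ((hF x).1 (hs hx)).1.2; omega) fun x hx y hy e => by
        have h1 := (hF x).1 (hs hx)
        have h2 := (hF y).1 (hs hy)
        rcases h.cong h2.1.1 e h1.1.2.le h2.1.2.le ((hπ _ _).1 (h1.2.trans h2.2.symm)) with h' | h'
        · exact absurd (h' ▸ hx) (hs' y hy)
        · exact h'.2.2
    have k1 := key (F.filter fun y => WellOrderingRel y (-y)) (filter_subset _ _) fun x hx hx' => by
      have := (Finset.mem_filter.1 hx').2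
      rw [neg_neg] at this
      exact asymm (Finset.mem_filter.1 hx).2 this
    have k2 := key (F.filter fun y => ¬ WellOrderingRel y (-y)) (filter_subset _ _) fun x hx hx' => by
      have := (Finset.mem_filter.1 hx').2
      rw [neg_neg] at this
      rcases trichotomous_of WellOrderingRel x (-x) with h' | h' | h'
      · exact (Finset.mem_filter.1 hx).2 h'
      · have h1 := ((hF x).1 (Finset.mem_filter.1 hx).1).1.2
        have : x = 0 := funext fun i => by have := congrFun h' i; simp only [Pi.neg_apply, Pi.zero_apply] at *; omega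
        rw [this, h.zero] at h1; omega
      · exact this h'
    have := card_filter_add_card_filter_not (s := F) fun y => WellOrderingRel y (-y)
    omega
  have g1 := f2 A _ (by omega) a2
  have g2 := f2 B _ (by omega) b2
  have g3 := card_le_mul_card_image (f := π) C 48 fun q _ => f48 q
  have dis : ∀ (s t : Finset (ι → ℤ)) (k l : ℤ), k < l → l ≤ 4 * μ → (∀ x ∈ s, x ∈ L ∧ b x x = k) →
      (∀ x ∈ t, x ∈ L ∧ b x x = l) → Disjoint (s.image π) (t.image π) := fun s t k l hk hl hs ht => by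
    rw [disjoint_left]
    intro q h1 h2
    obtain ⟨x, hx, rfl⟩ := mem_image.1 h1
    obtain ⟨y, hy, e⟩ := mem_image.1 h2
    have h3 := hs x hx
    have h4 := ht y hy
    rcases h.cong h3.1 (by rintro rfl; omega) (by omega) (by omega) ((hπ _ _).1 e) with h' | h'
    · rw [h', h.neg_neg'] at h4; omega
    · omega
  have z0 : ∀ x ∈ ({0} : Finset (ι → ℤ)), x ∈ L ∧ b x x = 0 := fun x hx => by
    rw [mem_singleton.1 hx]; exact ⟨L.zero_mem, h.zero 0⟩
  have a3 := fun x => (a2 x).1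
  have b3 := fun x => (b2 x).1
  have c3 := fun x => (c2 x).1
  let U := image π {0} ∪ image π A ∪ image π B ∪ image π C
  have u1 : U.card = 1 + (image π A).card + (image π B).card + (image π C).card := by
    rw [card_union_of_disjoint, card_union_of_disjoint, card_union_of_disjoint, image_singleton, card_singleton]
    · exact dis _ _ _ _ (by omega) (by omega) z0 a3
    · exact disjoint_union_left.2 ⟨dis _ _ _ _ (by omega) (by omega) z0 b3, dis _ _ _ _ (by omega) (by omega) a3 b3⟩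
    · exact disjoint_union_left.2 ⟨disjoint_union_left.2 ⟨dis _ _ _ _ (by omega) (by omega) z0 c3,
        dis _ _ _ _ (by omega) (by omega) a3 c3⟩, dis _ _ _ _ (by omega) (by omega) b3 c3⟩
  have u0 : ∀ q ∈ U, ∃ y ∈ L, b y y ≤ 4 * μ ∧ π y = q := fun q hq => by
    simp only [U, mem_union, mem_image] at hq
    rcases hq with ((⟨y, hy, e⟩ | ⟨y, hy, e⟩) | ⟨y, hy, e⟩) | ⟨y, hy, e⟩
    exacts [⟨y, (z0 y hy).1, by have := (z0 y hy).2; omega, e⟩, ⟨y, (a3 y hy).1, by have := (a3 y hy).2; omega, e⟩,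
      ⟨y, (b3 y hy).1, by have := (b3 y hy).2; omega, e⟩, ⟨y, (c3 y hy).1, (c3 y hy).2.le, e⟩]
  have u2 : (U : Set _) ⊆ π '' L := fun q hq => by
    obtain ⟨y, hy, -, e⟩ := u0 q hq
    exact ⟨y, hy, e⟩
  have u3 := Set.ncard_le_ncard u2 hU.2
  rw [Set.ncard_coe_finset] at u3
  have u4 := hU.1
  refine ⟨fun x hx => ?_, fun x hx hn => ?_⟩
  · have := Set.eq_of_subset_of_ncard_le u2 (by rw [Set.ncard_coe_finset]; omega) hU.2
    obtain ⟨y, hy, h1, e⟩ := u0 (π x) (by rw [← mem_coe, this]; exact ⟨x, hx, rfl⟩)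
    exact ⟨y, hy, h1, (hπ _ _).1 e.symm⟩
  · have e := card_eq_sum_card_image π C
    have := (sum_eq_sum_iff_of_le (s := image π C) (g := fun _ => 48) fun q _ => f48 q).1
      (by rw [← e, sum_const, smul_eq_mul]; omega) (π x) (mem_image_of_mem _ ((c2 x).2 ⟨hx, hn⟩))
    rw [← this, ← Set.ncard_coe_finset]
    congr 1
    ext y
    rw [mem_coe, Finset.mem_filter, c2, eq_comm (a := π y), hπ, hn, and_assoc]; rfl

end Lat

theorem leechLat : Lat Λ dotInt 16 :=
  ⟨by simp [GolayPt], by norm_num, dot_add, dot_comm, fun x hx h0 => by rw [dot_self]; exact min_norm hx h0⟩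

theorem leech_main : (∀ x ∈ Λ, ∃ y ∈ Λ, sqNorm y ≤ 64 ∧ ∃ z ∈ Λ, x - y = 2 • z) ∧
    ∀ x ∈ Λ, sqNorm x = 64 → (cross x).ncard = 48 := by
  have := leechLat.main (by simp only [dot_self]; exact n4) (by simp only [dot_self]; exact n6)
    (by simp only [dot_self]; exact n8)
  simp only [dot_self] at this
  exact this

theorem matLat (B : Matrix (Fin 24) (Fin 24) ℤ) (hsymm : B.IsSymm)
    (hpos : ∀ x : Fin 24 → ℤ, x ≠ 0 → 0 < x ⬝ᵥ (B *ᵥ x)) (heven : ∀ x : Fin 24 → ℤ, (2 : ℤ) ∣ x ⬝ᵥ (B *ᵥ x))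
    (h2 : ∀ x : Fin 24 → ℤ, x ⬝ᵥ (B *ᵥ x) ≠ 2) : Lat ⊤ (fun x y => x ⬝ᵥ (B *ᵥ y)) 2 where
  card := by simp
  pos := by norm_num
  add x y z := by rw [mulVec_add, dotProduct_add]
  symm x y := by rw [dotProduct_mulVec, dotProduct_comm, ← mulVec_transpose, hsymm.eq]
  min x _ h0 := by
    have := hpos x h0
    have := heven x
    have := h2 x
    omega

theorem two_iff (x : Fin 24 → ℤ) : (∀ i, (2 : ℤ) ∣ x i) ↔ ∃ z ∈ (⊤ : AddSubgroup (Fin 24 → ℤ)), x = 2 • z := by
  constructor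
  · intro h
    choose z hz using h
    exact ⟨z, trivial, funext fun i => by simp [hz i]⟩
  · rintro ⟨z, -, rfl⟩ i
    simp

end H8.Le
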