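import Cfsg.Agent.H8.LeHom
import Cfsg.Agent.H8.LeD1
import Cfsg.Agent.H8.LeCls

/-! H8.LeCo: the centre of `Co0` (`mem_center`, `card_center`), normal subgroups (`normal_cases`), `simple_Co1`, `perfect`,
the lattice modulo 2 (`s5392`, `s5552`), `s5546`, the cross stabiliser (`Hc`, `card_Hc`), `s1642`. -/

set_option autoImplicit false
set_option linter.all false

noncomputable section
namespace H8.Le
open Cfsg MulAction Finset
open H7 hiding band bor allL allL_iff

theorem ext32 {g h : Co0} (e : ∀ x : Λ, sqNorm (x : V) = 32 → g • x = h • x) : g = h := ext_E fun l => by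
  obtain ⟨k, hk⟩ := nf64 (norm_E l)
  rw [← hk, ← u_add, smul_add', smul_add', smul_add', e _ ((norm_smul' _ _).trans n_u), e _ ((norm_smul' _ _).trans n_u')]

theorem neg_center : neg ∈ Subgroup.center Co0 := Subgroup.mem_center_iff.2 fun g => ext_E fun l => by
  rw [mul_smul, mul_smul, neg_smul', neg_smul', smul_neg']
theorem neg_mul_neg : neg * neg = 1 := ext_E fun l => by rw [mul_smul, neg_smul', neg_smul', neg_neg, one_smul]
theorem u_ne : -u ≠ u := fun e => absurd (congrArg Subtype.val e) (by decide +kernel)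
theorem neg_ne : neg ≠ 1 := fun e => u_ne (by rw [← neg_smul', e, one_smul])

/-- all pairs with a given inner product are conjugate -/
theorem tr_dot {c : ℤ} (hc : c ∈ ({16, 8, 0, -8, -16} : Set ℤ)) {a b x y : Λ} (ha : sqNorm (a : V) = 32)
    (hb : sqNorm (b : V) = 32) (hx : sqNorm (x : V) = 32) (hy : sqNorm (y : V) = 32) (h1 : dotInt (a : V) x = c)
    (h2 : dotInt (b : V) y = c) : ∃ g : Co0, g • a = b ∧ g • x = y := by
  have n : ∀ {x0 : Λ}, orbit K2 x0 = Sq (Qa (-c)) → ∃ g : Co0, g • a = b ∧ g • x = y := fun h => by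
    obtain ⟨g, e1, e2⟩ := tr2 (nf2 (y := -x) h ha ((norm_neg _).trans hx) (by simp [dot_neg, h1]))
      (nf2 (y := -y) h hb ((norm_neg _).trans hy) (by simp [dot_neg, h2]))
    exact ⟨g, e1, by simpa [smul_neg'] using e2⟩
  rcases hc with rfl | rfl | rfl | rfl | rfl
  · exact tr2 (nf2 or_a16 ha hx h1) (nf2 or_a16 hb hy h2)
  · exact tr2 (nf2 or_a8 ha hx h1) (nf2 or_a8 hb hy h2)
  · exact n or_a0
  · exact n or_a8
  · exact n or_a16

def YZ : ℕ := nat_lit 0x800080008000800080008000800080008000800080008000800080008000800080008000800080008000c000c0008000800080008000800080008000800080008000800080008000800080008000800080004000c00080008000800080008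
def y56 : Λ := mkV YZ 0 (by decide +kernel)
def y12 : Λ := mkV YZ 1 (by decide +kernel)

theorem top_of_K2 {N : Subgroup Co0} (h1 : K2 ≤ N) (h2 : stabilizer Co0 y56 ≤ N) : N = ⊤ := by
  have n : sqNorm (y56 : V) = 32 := by decide +kernel
  have k : ∀ x : Λ, sqNorm (x : V) = 32 → dotInt (y56 : V) x = 0 → ∃ g ∈ N, g • u = x := fun x hx hd => by
    obtain ⟨g, e1, e2⟩ := tr_dot (c := 0) (by simp) n n n_u hx (by decide +kernel) hd
    exact ⟨g, h2 e1, e2⟩
  have k2 : ∀ x0 x : Λ, sqNorm (x0 : V) = 32 → dotInt (y56 : V) x0 = 0 → sqNorm (x : V) = 32 →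
      dotInt (u : V) x ∈ ({16, 8, 0, -8, -16} : Set ℤ) → dotInt (u : V) x0 = dotInt (u : V) x → ∃ g ∈ N, g • u = x :=
    fun x0 x a b c d e => by
      obtain ⟨g, hg, rfl⟩ := k x0 a b
      obtain ⟨g', e1, e2⟩ := tr_dot d n_u n_u a c e rfl
      exact ⟨g' * g, N.mul_mem (h1 e1) hg, by rw [mul_smul, e2]⟩
  refine eq_top_iff.2 fun g _ => ?_
  have hx := (norm_smul' g u).trans n_u
  obtain ⟨k, hk, e⟩ : ∃ k ∈ N, k • u = g • u := by
    rcases dot_cases n_u hx with h | h | h
    · exact ⟨1, N.one_mem, by rw [h, one_smul]⟩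
    · exact h ▸ k (-u) (by decide +kernel) (by decide +kernel)
    have h' := h
    rcases h' with h' | h' | h' | h' | h'
    · exact k2 x16 _ (by decide +kernel) (by decide +kernel) hx h (Eq.trans (by decide +kernel) h'.symm)
    · exact k2 (u + v) _ (by decide +kernel) (by decide +kernel) hx h (Eq.trans (by decide +kernel) h'.symm)
    · exact k2 u' _ (by decide +kernel) (by decide +kernel) hx h (Eq.trans (by decide +kernel) h'.symm)
    · exact k2 (-(u + v)) _ (by decide +kernel) (by decide +kernel) hx h (Eq.trans (by decide +kernel) h'.symm)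
    · exact k2 (-x16) _ (by decide +kernel) (by decide +kernel) hx h (Eq.trans (by decide +kernel) h'.symm)
  have : k⁻¹ * g ∈ N := h1 (show (k⁻¹ * g) • u = u by rw [mul_smul, ← e, inv_smul_smul])
  simpa using N.mul_mem hk this

theorem el13 : ∃ a b : Co0, a ^ 13 = 1 ∧ b ^ 13 = 1 ∧ a * b ∈ K2 ∧ a * b ≠ 1 := by
  obtain ⟨a, ha⟩ := exists_cd (G := a13) (by decide +kernel)
  obtain ⟨b, hb⟩ := exists_cd (G := b13) (by decide +kernel)
  have p : ∀ {G : ℕ} {g : Co0}, Cd G g → Nat.beq (mw (fun _ => G) (List.replicate 13 0)) IDM = true → g ^ 13 = 1 :=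
    fun {G g} hg h => by
      have := (Cd.mw (e := fun _ => g) (fun _ => hg) _).eq (Nat.eq_of_beq_eq_true h ▸ cd_one)
      simpa only [ev, List.map_replicate, List.prod_replicate] using this
  refine ⟨a, b, p ha (by decide +kernel), p hb (by decide +kernel), Subtype.ext ?_,
    (ha.mul hb).ne cd_one (j := 1) (by norm_num) (by decide +kernel)⟩
  have := Co2.xF_good.mul (ha.mul hb) 0 one_pos
  rw [vL_eq (x := u) (by decide +kernel)] at this
  exact this.trans (by decide +kernel)

theorem normal_cases (N : Subgroup Co0) [hN : N.Normal] : N ≤ Subgroup.center Co0 ∨ N = ⊤ := by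
  rcases sK2.eq_bot_or_eq_top_of_normal (N.subgroupOf K2) inferInstance with h | h
  swap
  · have h := Subgroup.subgroupOf_eq_top.1 h
    obtain ⟨g, e⟩ := nf32 (x := y56) (by decide +kernel)
    refine Or.inr (top_of_K2 h fun x hx => ?_)
    rw [← e, stab_conj] at hx
    simpa [mul_assoc] using hN.conj_mem _ (h hx) g
  have hb : ∀ n ∈ N, n • u = u → n = 1 := fun n hn e =>
    congrArg Subtype.val ((Subgroup.mem_bot (x := (⟨n, e⟩ : K2))).1 (h ▸ hn))
  have hd : Nat.card N ∣ 196560 := by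
    have h1 : N.relIndex K2 ∣ N.index := Subgroup.relIndex_dvd_index_of_normal _ _
    rw [Subgroup.relIndex, h, Subgroup.index_bot, cK2] at h1
    have h2 := N.index_mul_card
    rw [card_Co0] at h2
    obtain ⟨c, hc⟩ := h1
    rw [hc] at h2
    exact ⟨c, by nlinarith⟩
  have h13 : ¬ 13 ∣ Nat.card N := fun h13 => by
    obtain ⟨a, b, ha, hb', h1, h2⟩ := el13
    have m := fun {a : Co0} (ha : a ^ 13 = 1) => mem_of_order (by norm_num) (by rw [card_Co0]; norm_num) N h13 ha
    exact h2 (hb _ (N.mul_mem (m ha) (m hb')) h1)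
  have hle : Nat.card N ≤ 15120 := Nat.le_of_dvd (by norm_num)
    (Nat.Coprime.dvd_of_dvd_mul_left (Nat.Coprime.symm ((Nat.Prime.coprime_iff_not_dvd (by norm_num)).2 h13))
      (show _ ∣ 13 * 15120 from hd))
  have rel : ∀ {c : ℤ}, c ∈ ({16, 8, 0, -8, -16} : Set ℤ) → (∃ n ∈ N, dotInt (u : V) (n • u : Λ) = c) → ∀ a b : Λ,
      sqNorm (a : V) = 32 → sqNorm (b : V) = 32 → dotInt (a : V) b = c → ∃ n ∈ N, n • a = b := by
    rintro c hc ⟨n, hn, e⟩ a b ha hb h
    obtain ⟨g, rfl, rfl⟩ := tr_dot hc n_u ha ((norm_smul' n u).trans n_u) hb e h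
    exact ⟨g * n * g⁻¹, hN.conj_mem _ hn g, by simp [mul_smul]⟩
  have big : ∀ {c : ℤ}, c ∈ ({16, 8, 0, -8, -16} : Set ℤ) → 15120 < cq (Qa c) →
      ¬ ∃ n ∈ N, dotInt (u : V) (n • u : Λ) = c := fun hc hl h => by
    have : Sq (Qa _) ⊆ orbit N u := fun y hy => by
      obtain ⟨n, hn, e⟩ := rel hc h u y n_u (mem_Qa.1 hy).1 (mem_Qa.1 hy).2
      exact ⟨⟨n, hn⟩, e⟩
    have h1 := Set.ncard_le_ncard this (Set.finite_range _)
    have h2 := card_eq_orbit_mul N u
    have h3 : 0 < Nat.card ↥(N ⊓ stabilizer Co0 u) := Nat.card_pos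
    rw [Sq_card] at h1
    nlinarith
  have two : ∀ {c : ℤ} (x : Λ), c ∈ ({16, 8, 0, -8, -16} : Set ℤ) → sqNorm (x : V) = 32 → dotInt (u : V) x = c →
      dotInt (x : V) y12 = c → ¬ ∃ n ∈ N, dotInt (u : V) (n • u : Λ) = c := fun x hc h1 h2 h3 h => by
    obtain ⟨n, hn, e⟩ := rel hc h u x n_u h1 h2
    obtain ⟨n', hn', e'⟩ := rel hc h x y12 h1 (by decide +kernel) h3
    exact big (c := 0) (by simp) (by decide +kernel) ⟨n' * n, N.mul_mem hn' hn, by rw [mul_smul, e, e']; decide +kernel⟩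
  have pm : ∀ n ∈ N, n • u = u ∨ n • u = -u := fun n hn => by
    rcases dot_cases n_u ((norm_smul' n u).trans n_u) with h | h | h
    exacts [Or.inl h, Or.inr h, by
      have h' := h
      rcases h' with h' | h' | h' | h' | h'
      · exact absurd ⟨n, hn, h'⟩ (two x16 (by simp) (by decide +kernel) (by decide +kernel) (by decide +kernel))
      · exact absurd ⟨n, hn, h'⟩ (big (by simp) (by decide +kernel))
      · exact absurd ⟨n, hn, h'⟩ (big (by simp) (by decide +kernel))
      · exact absurd ⟨n, hn, h'⟩ (big (by simp) (by decide +kernel))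
      · exact absurd ⟨n, hn, h'⟩ (two (-x16) (by simp) (by decide +kernel) (by decide +kernel) (by decide +kernel))]
  refine Or.inl fun n hn => Subgroup.mem_center_iff.2 fun g => ?_
  rcases pm n hn with h | h
  · rw [hb n hn h, mul_one, one_mul]
  have hm := hN.conj_mem _ hn g
  rcases pm _ hm with h' | h'
  · have := hb _ hm h'
    rw [mul_inv_eq_one, mul_eq_left] at this
    rw [this, mul_one, one_mul]
  · have := hb _ (N.mul_mem (N.inv_mem hn) hm) (by rw [mul_smul, h', ← h, inv_smul_smul])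
    rw [inv_mul_eq_one, eq_mul_inv_iff_mul_eq] at this
    exact this.symm

theorem mem_center {z : Co0} : z ∈ Subgroup.center Co0 ↔ z = 1 ∨ z = neg := by
  refine ⟨fun h => ?_, by rintro (rfl | rfl); exacts [one_mem _, neg_center]⟩
  have c := Subgroup.mem_center_iff.1 h
  have hx := (norm_smul' z u).trans n_u
  have k : ∀ n : Co0, n ∈ Subgroup.center Co0 → z • u = n • u → z = n := fun n hn e => ext32 fun x hx => by
    obtain ⟨g, rfl⟩ := nf32 hx
    rw [← mul_smul, ← c, ← mul_smul, ← Subgroup.mem_center_iff.1 hn, mul_smul, mul_smul, e]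
  rcases dot_cases n_u hx with e | e | e
  · exact Or.inl (k 1 (one_mem _) (by rw [e, one_smul]))
  · exact Or.inr (k neg neg_center (by rw [e, neg_smul']))
  have : (Sq (Qa (dotInt (u : V) (z • u : Λ)))).ncard ≤ 1 := by
    rw [← Set.ncard_singleton (z • u)]
    refine Set.ncard_le_ncard (fun y hy => ?_) (Set.finite_singleton _)
    obtain ⟨g, e1, rfl⟩ := tr_dot e n_u n_u hx (mem_Qa.1 hy).1 rfl (mem_Qa.1 hy).2
    rw [← mul_smul, c, mul_smul, e1]; rfl
  rw [Sq_card] at this
  rcases e with e | e | e | e | e <;> rw [e] at this <;> exact absurd this (by decide +kernel)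

theorem card_center : Nat.card (Subgroup.center Co0) = 2 := by
  rw [← SetLike.coe_sort_coe, Nat.card_coe_set_eq, Set.ncard_eq_two]
  exact ⟨1, neg, neg_ne.symm, Set.ext fun _ => mem_center⟩

theorem card_Co1 : Nat.card Spor.Co1 = 4157776806543360000 := by
  have := (Subgroup.center Co0).index_mul_card
  rw [card_center, card_Co0] at this
  show (Subgroup.center Co0).index = _
  omega

theorem simple_Co1 : IsSimpleGroup Spor.Co1 := by
  haveI : Finite Spor.Co1 := Nat.finite_of_card_ne_zero (by rw [card_Co1]; norm_num)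
  haveI : Nontrivial Spor.Co1 := Finite.one_lt_card_iff_nontrivial.1 (by rw [card_Co1]; norm_num)
  refine ⟨fun M hM => ?_⟩
  have hs := QuotientGroup.mk'_surjective (Subgroup.center Co0)
  rcases normal_cases (M.comap (QuotientGroup.mk' _)) with h | h
  · refine Or.inl (eq_bot_iff.2 fun x hx => ?_)
    obtain ⟨g, rfl⟩ := hs x
    exact (QuotientGroup.eq_one_iff g).2 (h hx)
  · refine Or.inr (eq_top_iff.2 fun x _ => ?_)
    obtain ⟨g, rfl⟩ := hs x
    exact (h ▸ Subgroup.mem_top g : g ∈ M.comap (QuotientGroup.mk' _))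

theorem not_le_center {N : Subgroup Co0} (h : 2 < Nat.card N) : ¬ N ≤ Subgroup.center Co0 := fun h' => by
  have := Subgroup.card_le_of_le h'
  rw [card_center] at this; omega

theorem s5594 (K : Subgroup Co0) : ¬ (Subgroup.zpowers neg).IsComplement' K := fun h => by
  have o : orderOf neg = 2 := orderOf_eq_prime (by rw [sq, neg_mul_neg]) neg_ne
  have h1 := h.index_eq_card
  rw [Nat.card_zpowers, o] at h1
  haveI := Subgroup.normal_of_index_eq_two h1
  have h2 := K.index_mul_card
  rw [h1, card_Co0] at h2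
  rcases normal_cases K with h3 | h3
  · exact not_le_center (by omega) h3
  · rw [h3, Subgroup.index_top] at h1; omega

/-- every lattice vector is congruent to a short one -/
theorem short (x : Λ) : ∃ y z : Λ, x = y + (z + z) ∧
    (y = 0 ∨ sqNorm (y : V) = 32 ∨ sqNorm (y : V) = 48 ∨ sqNorm (y : V) = 64) := by
  obtain ⟨y, hy, h1, z, hz, e⟩ := leech_main.1 x x.2
  refine ⟨⟨y, hy⟩, ⟨z, hz⟩, Subtype.ext (by simp [← two_nsmul, ← e]), ?_⟩
  by_cases h0 : y = 0
  · exact Or.inl (Subtype.ext h0)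
  have := min_norm hy h0
  have := even hy
  simp only
  omega

theorem s5392a (g : Co0) (h : ∀ x : Λ, ∃ w : Λ, ((g • x : Λ) : V) - x = 2 • (w : V)) : g ∈ Subgroup.center Co0 := by
  let N : Subgroup Co0 :=
    { carrier := {g | ∀ x : Λ, ∃ w : Λ, g • x = x + 2 • w}
      one_mem' := fun x => ⟨0, by simp⟩
      mul_mem' := fun {a b} ha hb x => by
        obtain ⟨w, e⟩ := hb x
        obtain ⟨w', e'⟩ := ha (x + 2 • w)
        exact ⟨w + w', by rw [mul_smul, e, e', smul_add, add_assoc]⟩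
      inv_mem' := fun {a} ha x => by
        obtain ⟨w, e⟩ := ha (a⁻¹ • x)
        exact ⟨-w, by rw [smul_inv_smul] at e; rw [smul_neg, ← sub_eq_add_neg, eq_sub_iff_add_eq, ← e]⟩ }
  haveI : N.Normal := ⟨fun n hn k x => by
    obtain ⟨w, e⟩ := hn (k⁻¹ • x)
    exact ⟨k • w, by rw [mul_smul, mul_smul, e, smul_add', smul_inv_smul, smul_nsmul]⟩⟩
  rcases normal_cases N with h1 | h1
  · refine h1 fun x => ?_
    obtain ⟨w, e⟩ := h x
    exact ⟨w, Subtype.ext (by simpa [sub_eq_iff_eq_add'] using e)⟩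
  · obtain ⟨k, e⟩ := mp16'
    obtain ⟨w, e'⟩ := (h1 ▸ Subgroup.mem_top k : k ∈ N) u
    rw [e] at e'
    rcases cong_short (x := x16) u.2 (by decide +kernel) (by decide +kernel) (by decide +kernel)
      ⟨w, w.2, by rw [e']; simp⟩ with h | h
    · exact absurd h (by decide +kernel)
    · exact absurd h.1 (by decide +kernel)

theorem s5392b (M : AddSubgroup V) (h1 : ∀ x ∈ Λ, (2 : ℤ) • x ∈ M) (h2 : M ≤ Λ)
    (h3 : ∀ g : Co0, ∀ x : Λ, (x : V) ∈ M → ((g • x : Λ) : V) ∈ M) : (∀ x ∈ M, ∃ w ∈ Λ, x = (2 : ℤ) • w) ∨ M = Λ := by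
  by_cases h : ∀ x ∈ M, ∃ w ∈ Λ, x = (2 : ℤ) • w
  · exact Or.inl h
  push Not at h
  obtain ⟨x, hx, hw⟩ := h
  obtain ⟨y, z, e, hy⟩ := short ⟨x, h2 hx⟩
  have e : x = y + (2 : ℤ) • (z : V) := by rw [two_zsmul]; exact congrArg Subtype.val e
  have ym : (y : V) ∈ M := by simpa [e] using M.sub_mem hx (h1 z z.2)
  have k : ∀ {a b : Λ}, (∃ g : Co0, g • a = b) → (a : V) ∈ M → (b : V) ∈ M := by
    rintro a _ ⟨g, rfl⟩ h; exact h3 g a h
  have f : ∀ a : Λ, sqNorm (a : V) = 32 → (a : V) ∈ M → M = Λ := fun a ha hm => le_antisymm h2 (tri_bas.le _ fun r hr => by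
    have m : ∀ b : Λ, sqNorm (b : V) = 32 → (b : V) ∈ M := fun b hb => k (tr1 (nf32 ha) (nf32 hb)) hm
    by_cases h23 : r = 23
    · rw [h23, show bas 23 = (u : V) + u' by decide +kernel]
      exact M.add_mem (m u n_u) (m u' n_u')
    · exact m ⟨_, tri_bas.mem r hr⟩ ((show ∀ r < 24, r ≠ 23 → sqNorm (bas r) = 32 by decide +kernel) r hr h23))
  refine Or.inr ?_
  rcases hy with hy | hy | hy | hy
  · exact absurd (by rw [e, hy]; simp) (hw z z.2)
  · exact f y hy ym
  · refine f u' n_u' ?_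
    simpa using M.sub_mem (k (tr1 (nf48 hy) (nf48 (x := v + u') (by decide +kernel))) ym) (k (tr1 (nf48 hy) (nf48 n_v)) ym)
  · refine f x462 (by decide +kernel) ?_
    simpa using M.sub_mem (k (tr1 (nf64 hy) (nf64 (x := u + u') (by decide +kernel))) ym)
      (k (tr1 (nf64 hy) (nf64 (x := u + u' - x462) (by decide +kernel))) ym)

theorem s5552 (Q : Λ → ZMod 2) (hc : ∀ x w : Λ, Q (x + (w + w)) = Q x)
    (hq : ∀ a b c : Λ, Q (a + b + c) + Q a + Q b + Q c = Q (a + b) + Q (a + c) + Q (b + c))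
    (hi : ∀ (g : Co0) (x : Λ), Q (g • x) = Q x) (hne : ∃ x : Λ, Q x ≠ 0) (x : Λ) :
    Q x = ((sqNorm (x : V) / 16 : ℤ) : ZMod 2) := by
  have q0 : Q 0 = 0 := by
    have := hq 0 0 0
    simp only [add_zero] at this
    linear_combination this
  have q32 : ∀ x : Λ, sqNorm (x : V) = 32 → Q x = Q u := fun x h => by obtain ⟨g, rfl⟩ := nf32 h; exact hi g u
  have q48 : ∀ x : Λ, sqNorm (x : V) = 48 → Q x = Q v := fun x h => by obtain ⟨g, rfl⟩ := nf48 h; exact hi g v
  have q64 : ∀ x : Λ, sqNorm (x : V) = 64 → Q x = Q (E none) := fun x h => by obtain ⟨g, rfl⟩ := nf64 h; exact hi g _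
  have t : (2 : ZMod 2) = 0 := rfl
  have a : Q u = 0 := by
    have := hq u (-(u + v)) (-x22)
    rw [q32 (u + _ + _) (by decide +kernel), q32 (-(u + v)) (by decide +kernel), q32 (-x22) (by decide +kernel),
      q48 (u + -(u + v)) (by decide +kernel), q48 (u + -x22) (by decide +kernel), q32 (_ + _) (by decide +kernel)] at this
    linear_combination this + (Q v - Q u) * t
  have c : Q (E none) = 0 := by
    have := hq u u' (-x16)
    rw [q32 (u + _ + _) (by decide +kernel), q32 u' n_u', q32 (-x16) (by decide +kernel),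
      q64 (u + u') (by decide +kernel), q32 (u + -x16) (by decide +kernel), q32 (_ + _) (by decide +kernel)] at this
    linear_combination -this + Q u * t
  have b : Q v = 1 := by
    obtain ⟨x, hx⟩ := hne
    obtain ⟨y, z, rfl, hy⟩ := short x
    rw [hc] at hx
    rcases hy with hy | hy | hy | hy
    · exact absurd (hy ▸ q0) hx
    · exact absurd ((q32 y hy).trans a) hx
    · rw [q48 y hy] at hx; revert hx; generalize Q v = s; revert s; decide
    · exact absurd ((q64 y hy).trans c) hx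
  obtain ⟨y, z, rfl, hy⟩ := short x
  obtain ⟨k, hk⟩ := dot_dvd y.2 z.2
  obtain ⟨l, hl⟩ := even z.2
  have e : sqNorm ((y + (z + z) : Λ) : V) / 16 = sqNorm (y : V) / 16 + 2 * (k + 2 * l) := by
    simp only [AddSubgroup.coe_add, norm_add, dot_add, dot_self]; omega
  rw [hc, e]
  push_cast
  rw [t, zero_mul, add_zero]
  rcases hy with hy | hy | hy | hy
  · rw [hy, q0]; simp [sqNorm]
  · rw [q32 y hy, a, hy]; rfl
  · rw [q48 y hy, b, hy]; rfl
  · rw [q64 y hy, c, hy]; rfl

theorem s1642 {a b : Λ} (ha : sqNorm (a : V) = 48) (hb : sqNorm (b : V) = 48) (h : dotInt (a : V) b = -32) :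
    ∃ g : Co0, g • a = a ∧ g • b = b ∧ orderOf g = 2 ∧ ∀ x ∈ TH a b 24, g • x ≠ x := by
  obtain ⟨g, e1, e2⟩ := nf3 or_c16 (cfH ha hb h).1 (cfH ha hb h).2.1 (cfH ha hb h).2.2
  obtain ⟨z, hz, cz⟩ := fxChk_spec (G := z100) HSc.xF_good (by decide +kernel)
  have z1 : z • v = v := fixj 0 (by decide +kernel) (by norm_num) hz
  have z2 : z • u' = u' := fixj 1 (by decide +kernel) (by norm_num) hz
  obtain ⟨hg, hl⟩ := list_eq (n := 100) (H := h100) (Q := Qbc 0 (-24)) (by decide +kernel) (by decide +kernel)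
    (by decide +kernel)
  have f := fixH (g := g * z * g⁻¹) (a := a) (b := b) (by rw [← e1]; simp [mul_smul, z1]) (by rw [← e2]; simp [mul_smul, z2])
  have nf : ∀ x ∈ Sq (Qbc 0 (-24)), z • x ≠ x := fun x hx e => by
    obtain ⟨i, hi, rfl⟩ := hl x hx
    have := hg.mul cz i hi
    rw [e, vL_coe (hg i hi).1] at this
    have k := allB_iff.1 (show (allB 100 fun i => !Nat.beq (col h100 i) (col (mul 100 z100 h100) i)) = true by
      decide +kernel) i hi
    rw [col_of_vec this, Nat.beq_refl] at k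
    exact absurd k (by decide)
  refine ⟨_, f.1, f.2, ?_, fun x hx e => ?_⟩
  · rw [← MulAut.conj_apply, MulEquiv.orderOf_eq]
    exact orderOf_eq_prime (by rw [sq]; exact (cz.mul cz).eq ((show mul 24 z100 z100 = IDM by decide +kernel) ▸ cd_one))
      fun e => nf u m_H (by rw [e, one_smul])
  · rw [TH_eq, ← e1, ← e2] at hx
    refine nf (g⁻¹ • x) (mem_Qbc.2 ⟨(norm_smul' _ _).trans hx.1, (dot_inv _ _ _).trans hx.2.1,
      (dot_inv _ _ _).trans hx.2.2⟩) ?_
    rw [eq_inv_smul_iff, ← mul_smul, ← mul_smul, e]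

/-- the stabiliser of the standard cross -/
def Hc : Subgroup Co0 where
  carrier := {g | ((g • E none : Λ) : V) ∈ stdCross}
  one_mem' := by simpa using E_std none
  mul_mem' {a b} ha hb := by
    obtain ⟨i, h | h⟩ := mem_std.1 hb
    · simpa [mul_smul, Subtype.ext h] using std_of_one ha i
    · have : b • E none = -E i := Subtype.ext h
      obtain ⟨j, h | h⟩ := mem_std.1 (std_of_one ha i)
      · exact mem_std.2 ⟨j, Or.inr (by simp [mul_smul, this, smul_neg', h])⟩
      · exact mem_std.2 ⟨j, Or.inl (by simp [mul_smul, this, smul_neg', h])⟩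
  inv_mem' {a} ha := by
    obtain ⟨σ, -, c, -, h⟩ := mono_of_cross ha
    have : a • E (σ.symm none) = E none ∨ a • E (σ.symm none) = -E none := by
      by_cases hc : none ∈ c
      · refine Or.inr (Subtype.ext (funext fun i => ?_))
        by_cases hi : i = none <;> simp [h, signedPerm, E_apply, hi, hc]
      · refine Or.inl (Subtype.ext (funext fun i => ?_))
        by_cases hi : i = none <;> simp [h, signedPerm, E_apply, hi, hc]
    rcases this with e | e
    · exact mem_std.2 ⟨σ.symm none, Or.inl (by rw [← e, inv_smul_smul])⟩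
    · exact mem_std.2 ⟨σ.symm none, Or.inr (by rw [← neg_neg (E none), ← e, smul_neg', inv_smul_smul]; rfl)⟩

theorem mem_Hc {g : Co0} : g ∈ Hc ↔ ∀ x : Λ, (x : V) ∈ stdCross → ((g • x : Λ) : V) ∈ stdCross := by
  refine ⟨fun h x hx => ?_, fun h => h _ (E_std none)⟩
  obtain ⟨i, e | e⟩ := mem_std.1 hx
  · rw [show x = E i from Subtype.ext e]; exact std_of_one h i
  · rw [show x = -E i from Subtype.ext e, smul_neg']
    obtain ⟨j, h | h⟩ := mem_std.1 (std_of_one h i)
    · exact mem_std.2 ⟨j, Or.inr (by simp [h])⟩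
    · exact mem_std.2 ⟨j, Or.inl (by simp [h])⟩

theorem card_stabE : Nat.card (stabilizer Co0 (E none)) = 10200960 * 2048 := by
  have := orE.2
  rw [SN_card, n8, Subgroup.card_top, card_Co0, top_inf_eq] at this; omega

theorem card_Hc : Nat.card Hc = 4096 * 244823040 := by
  refine le_antisymm ?_ ?_
  · have := card_le_mono Hc ⊤ CC (fun g h => h) fun _ _ _ _ h _ => ⟨trivial, h⟩
    rwa [Subgroup.card_top, card_M24, ncard_supp (fun _ => true) le_rfl (fun _ _ h => by simp [h]),
      show cntB (fun _ => true) 12 = 4096 by decide +kernel, mul_comm] at this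
  have k : ∀ i, E i ∈ orbit Hc (E none) ∧ -E i ∈ orbit Hc (E none) := fun i => by
    obtain ⟨g, e⟩ := nf64 (norm_E i)
    exact ⟨⟨⟨g, by show ((g • E none : Λ) : V) ∈ stdCross; rw [e]; exact E_std i⟩, e⟩,
      ⟨⟨neg * g, mem_std.2 ⟨i, Or.inr (by rw [mul_smul, e, neg_smul']; rfl)⟩⟩, by
        show (neg * g) • E none = _; rw [mul_smul, e, neg_smul']⟩⟩
  have h1 : 48 ≤ (orbit Hc (E none)).ncard := by
    have := Set.ncard_le_ncard_of_injOn (s := (Set.univ : Set (GolayPt × Bool))) (t := orbit Hc (E none))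
      (fun p => if p.2 then E p.1 else -E p.1) (by rintro ⟨i, _ | _⟩ _; exacts [(k i).2, (k i).1]) (by
        rintro ⟨i, a⟩ _ ⟨j, b⟩ _ e
        have := congrFun (congrArg Subtype.val e) i
        cases a <;> cases b <;> by_cases h : i = j <;> simp [E_apply, h] at this ⊢) (Set.finite_range _)
    simpa [Set.ncard_univ, GolayPt] using this
  rw [card_eq_orbit_mul Hc (E none), inf_eq_right.2 fun g (h : g • E none = E none) => by
    show ((g • E none : Λ) : V) ∈ stdCross; rw [h]; exact E_std none, card_stabE]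
  omega

/-- reduction of `Co0` modulo 13 -/
def rho : Representation (ZMod 13) Co0 (GolayPt → ZMod 13) where
  toFun g := Matrix.toLin' (Matrix.of fun i l => 5 * ((((g • E l : Λ) : V) i : ℤ) : ZMod 13))
  map_one' := by
    rw [Module.End.one_eq_id, ← Matrix.toLin'_one]
    refine congrArg Matrix.toLin' (Matrix.ext fun i l => ?_)
    by_cases h : i = l <;> simp [E_apply, Matrix.one_apply, h]; rfl
  map_mul' g h := by
    rw [Module.End.mul_eq_comp, ← Matrix.toLin'_mul]
    refine congrArg Matrix.toLin' (Matrix.ext fun i l => ?_)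
    have := congrArg (Int.cast : ℤ → ZMod 13) (lin g (h • E l) i)
    push_cast at this
    simp only [Matrix.of_apply, Matrix.mul_apply, mul_smul]
    rw [sum_congr rfl (g := fun j => 25 * (((((h • E l : Λ) : V) j : ℤ) : ZMod 13) * (((g • E j : Λ) : V) i : ℤ)))
      fun j _ => by ring, ← mul_sum, ← this, ← mul_assoc]
    rfl

theorem rho_apply (g : Co0) (x : Λ) :
    rho g (fun i => (((x : V) i : ℤ) : ZMod 13)) = fun i => ((((g • x : Λ) : V) i : ℤ) : ZMod 13) := funext fun i => by
  have := congrArg (Int.cast : ℤ → ZMod 13) (lin g x i)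
  push_cast at this
  show (Matrix.toLin' _ _) i = _
  simp only [Matrix.toLin'_apply, Matrix.mulVec, dotProduct, Matrix.of_apply]
  rw [sum_congr rfl (g := fun j => 5 * ((((x : V) j : ℤ) : ZMod 13) * (((g • E j : Λ) : V) i : ℤ)))
    fun j _ => by ring, ← mul_sum, ← this, ← mul_assoc, show (5 : ZMod 13) * 8 = 1 from rfl, one_mul]

theorem z13 : (4 : ZMod 13) ≠ 0 ∧ ∀ t : ZMod 13, ¬ (t * 4 = -4 - 4 ∧ t * 4 = 4 - -4) := by decide

theorem s5546 : ∃ f : K2 →* GL (Fin 23) (ZMod 13), Function.Injective f := by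
  haveI : Fact (Nat.Prime 13) := ⟨by norm_num⟩
  let ub : GolayPt → ZMod 13 := fun i => (((u : V) i : ℤ) : ZMod 13)
  let W : Submodule (ZMod 13) (GolayPt → ZMod 13) := Submodule.span _ {ub}
  let τ := Representation.quotient (rho.comp K2.subtype) W fun g => by
    rw [Submodule.span_le, Set.singleton_subset_iff]
    show rho g.1 ub ∈ W
    rw [rho_apply, show g.1 • u = u from g.2]
    exact Submodule.subset_span rfl
  have hr : Module.finrank (ZMod 13) ((GolayPt → ZMod 13) ⧸ W) = 23 := by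
    have := W.finrank_quotient_add_finrank
    rw [finrank_span_singleton (show ub ≠ 0 from fun h => absurd (congrFun h none) z13.1), Module.finrank_fintype_fun_eq_card,
      show Fintype.card GolayPt = 24 by simp [GolayPt]] at this
    omega
  let b := Module.finBasisOfFinrankEq _ _ hr
  let f : K2 →* GL (Fin 23) (ZMod 13) := (Units.map (LinearMap.toMatrixAlgEquiv b).toMulEquiv.toMonoidHom).comp τ.asGroupHom
  refine ⟨f, ?_⟩
  rcases sK2.eq_bot_or_eq_top_of_normal f.ker inferInstance with h | h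
  · exact (MonoidHom.ker_eq_bot_iff f).1 h
  obtain ⟨g, hg, e⟩ := of_orb or_a0 (y := -u') (mem_Qa.2 (by decide +kernel))
  have h1 : f ⟨g, hg⟩ = 1 := (h ▸ Subgroup.mem_top _ : _ ∈ f.ker)
  have h2 : τ ⟨g, hg⟩ = 1 := (LinearMap.toMatrixAlgEquiv b).injective (by
    rw [map_one]; exact congrArg Units.val h1)
  have h3 := LinearMap.congr_fun h2 (W.mkQ fun i => (((u' : V) i : ℤ) : ZMod 13))
  change W.mkQ (rho g _) = W.mkQ _ at h3
  rw [rho_apply, e, Submodule.mkQ_apply, Submodule.mkQ_apply, Submodule.Quotient.eq, Submodule.mem_span_singleton] at h3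
  obtain ⟨t, ht⟩ := h3
  exact absurd ⟨congrFun ht none, congrFun ht (some 0)⟩ (z13.2 t)

end H8.Le
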