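import Cfsg.Agent.H8.MF22c3n

/-! H8.MF22c3p2: part `c3` of the multiplier computation (generated certificate) -/

set_option autoImplicit false
set_option maxRecDepth 200000

namespace H8.F22
open H7 (Net)

theorem c3a2 : covA c3N 185328 18 9 (3 ^ (0 + 1)) (catR H7.T.R_F22 c3c1) (catR H7.T.R_F22 c3c2) 2 = true := by decide +kernel
theorem c3r2_0 : covR c3N 185328 18 9 c3R0 c3E0 2 = true := by decide +kernel
theorem c3r2_1 : covR c3N 185328 18 9 c3R1 c3E1 2 = true := by decide +kernel
theorem c3r2_2 : covR c3N 185328 18 9 c3R2 c3E2 2 = true := by decide +kernel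
theorem c3r2_3 : covR c3N 185328 18 9 c3R3 c3E3 2 = true := by decide +kernel
theorem c3r2_4 : covR c3N 185328 18 9 c3R4 c3E4 2 = true := by decide +kernel
theorem c3r2 : covR c3N 185328 18 9 c3R c3E 2 = true := (covR_node (covR_node c3r2_0 c3r2_1) (covR_node c3r2_2 (covR_node c3r2_3 c3r2_4)))
theorem c3a6 : covA c3N 185328 18 9 (3 ^ (0 + 1)) (catR H7.T.R_F22 c3c1) (catR H7.T.R_F22 c3c2) 6 = true := by decide +kernel
theorem c3r6_0 : covR c3N 185328 18 9 c3R0 c3E0 6 = true := by decide +kernel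
theorem c3r6_1 : covR c3N 185328 18 9 c3R1 c3E1 6 = true := by decide +kernel
theorem c3r6_2 : covR c3N 185328 18 9 c3R2 c3E2 6 = true := by decide +kernel
theorem c3r6_3 : covR c3N 185328 18 9 c3R3 c3E3 6 = true := by decide +kernel
theorem c3r6_4 : covR c3N 185328 18 9 c3R4 c3E4 6 = true := by decide +kernel
theorem c3r6 : covR c3N 185328 18 9 c3R c3E 6 = true := (covR_node (covR_node c3r6_0 c3r6_1) (covR_node c3r6_2 (covR_node c3r6_3 c3r6_4)))
theorem c3a10 : covA c3N 185328 18 9 (3 ^ (0 + 1)) (catR H7.T.R_F22 c3c1) (catR H7.T.R_F22 c3c2) 10 = true := by decide +kernel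
theorem c3r10_0 : covR c3N 185328 18 9 c3R0 c3E0 10 = true := by decide +kernel
theorem c3r10_1 : covR c3N 185328 18 9 c3R1 c3E1 10 = true := by decide +kernel
theorem c3r10_2 : covR c3N 185328 18 9 c3R2 c3E2 10 = true := by decide +kernel
theorem c3r10_3 : covR c3N 185328 18 9 c3R3 c3E3 10 = true := by decide +kernel
theorem c3r10_4 : covR c3N 185328 18 9 c3R4 c3E4 10 = true := by decide +kernel
theorem c3r10 : covR c3N 185328 18 9 c3R c3E 10 = true := (covR_node (covR_node c3r10_0 c3r10_1) (covR_node c3r10_2 (covR_node c3r10_3 c3r10_4)))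
theorem c3a14 : covA c3N 185328 18 9 (3 ^ (0 + 1)) (catR H7.T.R_F22 c3c1) (catR H7.T.R_F22 c3c2) 14 = true := by decide +kernel
theorem c3r14_0 : covR c3N 185328 18 9 c3R0 c3E0 14 = true := by decide +kernel
theorem c3r14_1 : covR c3N 185328 18 9 c3R1 c3E1 14 = true := by decide +kernel
theorem c3r14_2 : covR c3N 185328 18 9 c3R2 c3E2 14 = true := by decide +kernel
theorem c3r14_3 : covR c3N 185328 18 9 c3R3 c3E3 14 = true := by decide +kernel
theorem c3r14_4 : covR c3N 185328 18 9 c3R4 c3E4 14 = true := by decide +kernel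
theorem c3r14 : covR c3N 185328 18 9 c3R c3E 14 = true := (covR_node (covR_node c3r14_0 c3r14_1) (covR_node c3r14_2 (covR_node c3r14_3 c3r14_4)))

end H8.F22
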