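import Cfsg.Agent.H8.MF22c3n

/-! H8.MF22c3p3: part `c3` of the multiplier computation (generated certificate) -/

set_option autoImplicit false
set_option maxRecDepth 200000

namespace H8.F22
open H7 (Net)

theorem c3a3 : covA c3N 185328 18 9 (3 ^ (0 + 1)) (catR H7.T.R_F22 c3c1) (catR H7.T.R_F22 c3c2) 3 = true := by decide +kernel
theorem c3r3_0 : covR c3N 185328 18 9 c3R0 c3E0 3 = true := by decide +kernel
theorem c3r3_1 : covR c3N 185328 18 9 c3R1 c3E1 3 = true := by decide +kernel
theorem c3r3_2 : covR c3N 185328 18 9 c3R2 c3E2 3 = true := by decide +kernel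
theorem c3r3_3 : covR c3N 185328 18 9 c3R3 c3E3 3 = true := by decide +kernel
theorem c3r3_4 : covR c3N 185328 18 9 c3R4 c3E4 3 = true := by decide +kernel
theorem c3r3 : covR c3N 185328 18 9 c3R c3E 3 = true := (covR_node (covR_node c3r3_0 c3r3_1) (covR_node c3r3_2 (covR_node c3r3_3 c3r3_4)))
theorem c3a7 : covA c3N 185328 18 9 (3 ^ (0 + 1)) (catR H7.T.R_F22 c3c1) (catR H7.T.R_F22 c3c2) 7 = true := by decide +kernel
theorem c3r7_0 : covR c3N 185328 18 9 c3R0 c3E0 7 = true := by decide +kernel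
theorem c3r7_1 : covR c3N 185328 18 9 c3R1 c3E1 7 = true := by decide +kernel
theorem c3r7_2 : covR c3N 185328 18 9 c3R2 c3E2 7 = true := by decide +kernel
theorem c3r7_3 : covR c3N 185328 18 9 c3R3 c3E3 7 = true := by decide +kernel
theorem c3r7_4 : covR c3N 185328 18 9 c3R4 c3E4 7 = true := by decide +kernel
theorem c3r7 : covR c3N 185328 18 9 c3R c3E 7 = true := (covR_node (covR_node c3r7_0 c3r7_1) (covR_node c3r7_2 (covR_node c3r7_3 c3r7_4)))
theorem c3a11 : covA c3N 185328 18 9 (3 ^ (0 + 1)) (catR H7.T.R_F22 c3c1) (catR H7.T.R_F22 c3c2) 11 = true := by decide +kernel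
theorem c3r11_0 : covR c3N 185328 18 9 c3R0 c3E0 11 = true := by decide +kernel
theorem c3r11_1 : covR c3N 185328 18 9 c3R1 c3E1 11 = true := by decide +kernel
theorem c3r11_2 : covR c3N 185328 18 9 c3R2 c3E2 11 = true := by decide +kernel
theorem c3r11_3 : covR c3N 185328 18 9 c3R3 c3E3 11 = true := by decide +kernel
theorem c3r11_4 : covR c3N 185328 18 9 c3R4 c3E4 11 = true := by decide +kernel
theorem c3r11 : covR c3N 185328 18 9 c3R c3E 11 = true := (covR_node (covR_node c3r11_0 c3r11_1) (covR_node c3r11_2 (covR_node c3r11_3 c3r11_4)))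
theorem c3a15 : covA c3N 185328 18 9 (3 ^ (0 + 1)) (catR H7.T.R_F22 c3c1) (catR H7.T.R_F22 c3c2) 15 = true := by decide +kernel
theorem c3r15_0 : covR c3N 185328 18 9 c3R0 c3E0 15 = true := by decide +kernel
theorem c3r15_1 : covR c3N 185328 18 9 c3R1 c3E1 15 = true := by decide +kernel
theorem c3r15_2 : covR c3N 185328 18 9 c3R2 c3E2 15 = true := by decide +kernel
theorem c3r15_3 : covR c3N 185328 18 9 c3R3 c3E3 15 = true := by decide +kernel
theorem c3r15_4 : covR c3N 185328 18 9 c3R4 c3E4 15 = true := by decide +kernel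
theorem c3r15 : covR c3N 185328 18 9 c3R c3E 15 = true := (covR_node (covR_node c3r15_0 c3r15_1) (covR_node c3r15_2 (covR_node c3r15_3 c3r15_4)))

end H8.F22
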