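import Cfsg.Agent.H8.MF22c3p0
import Cfsg.Agent.H8.MF22c3p1
import Cfsg.Agent.H8.MF22c3p2
import Cfsg.Agent.H8.MF22c3p3

/-! H8.MF22c3: part `c3` of the multiplier computation (generated certificate) -/

set_option autoImplicit false
set_option maxRecDepth 200000

namespace H8.F22
open H7 (Net)

theorem c3 : 3 ∣ Monoid.exponent (L.SM Cfsg.Spor.Fi22) := by
  haveI := H7.T.top_Fi22.1
  exact cover_rel (RL := c3R) (isPres_cox H7.T.hall_Fi22 H7.T.let_Fi22 H7.T.inv_F22 (by intro x; cases x <;> decide) (H7.T.R0_Fi22_eq ▸ H7.T.der0_Fi22) (by decide +kernel)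
    (by decide +kernel)) H7.T.rels_Fi22 (K := 18) (z := 9) (E := c3E) (c₁ := c3c1) (c₂ := c3c2) (by norm_num) c3ok (by norm_num)
    (fun j hj => by
    interval_cases j
    exacts [c3a0, c3a1, c3a2, c3a3, c3a4, c3a5, c3a6, c3a7, c3a8, c3a9, c3a10, c3a11, c3a12, c3a13, c3a14, c3a15, c3a16, c3a17]) (fun j hj => by
    interval_cases j
    exacts [c3r0, c3r1, c3r2, c3r3, c3r4, c3r5, c3r6, c3r7, c3r8, c3r9, c3r10, c3r11, c3r12, c3r13, c3r14, c3r15, c3r16, c3r17])
    (by decide +kernel) (by decide +kernel) (by decide +kernel)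

end H8.F22
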