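import Cfsg.Agent.H8.HoltD
import Cfsg.Agent.H8.GF22
import Cfsg.Agent.H8.MF22h2
import Cfsg.Agent.H8.MF22h3
import Cfsg.Agent.H8.MF22h5
import Cfsg.Agent.H8.XF22
import Cfsg.Agent.H8.MF22c2
import Cfsg.Agent.H8.MF22c3

/-! H8.MF22: `mult`, the Schur multiplier (generated certificate) -/

set_option autoImplicit false
set_option maxRecDepth 200000

namespace H8.F22

theorem sm_dvd : Nat.card (L.SM P) ∣ 6 :=
  SM_dvd 6 [2, 3, 5] 1001 (sqfree_of_chk (by decide +kernel)) 17 (by simp only [List.mem_cons, List.not_mem_nil, or_false, forall_eq_or_imp, forall_eq]; norm_num)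
    (by rw [card]; decide +kernel) (by
      simp only [List.mem_cons, List.not_mem_nil, or_false, forall_eq_or_imp, forall_eq]
      exact ⟨⟨1, by norm_num, h2⟩, ⟨1, by norm_num, h3⟩, ⟨0, by norm_num, h5⟩⟩)
theorem mult : Cfsg.HasCyclicSchurMultiplier Cfsg.Spor.Fi22 6 := by
  haveI : Finite Cfsg.Spor.Fi22 := Finite.of_equiv _ iso.some.symm.toEquiv
  exact hasCyclic_of_exp (by norm_num) ((Nat.card_congr (L.SM_congr iso.some).some.toEquiv).symm ▸ sm_dvd)
    (Nat.Coprime.mul_dvd_of_dvd_of_dvd (by norm_num : Nat.Coprime 2 3) c2 c3)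

end H8.F22
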