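import Cfsg.Agent.H8.Sub2

/-! H8.Cov: subgroups of a central extension that cover a given centreless group. -/

set_option autoImplicit false
set_option linter.all false
open Subgroup

namespace H8
variable {G P Q : Type*} [Group G] [Group P] [Group Q] {π : G →* P}

theorem comap_center (hs : Function.Surjective π) (hk : π.ker = center G) {A : Subgroup P} (hA : center A = ⊥) :
    center (A.comap π) = (center G).subgroupOf (A.comap π) := by
  refine le_antisymm (fun x hx => ?_) fun x hx => mem_center_iff.2 fun y => Subtype.ext (mem_center_iff.1 (mem_subgroupOf.1 hx) y)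
  have : (⟨π x, x.2⟩ : A) ∈ center A := mem_center_iff.2 fun ⟨a, ha⟩ => by
    obtain ⟨g, rfl⟩ := hs a
    exact Subtype.ext (by simpa using congrArg (fun z : A.comap π => π z) (mem_center_iff.1 hx ⟨g, ha⟩))
  rw [hA, mem_bot] at this
  exact mem_subgroupOf.2 (hk.le (congrArg Subtype.val this))

theorem quot_iso (K : Subgroup G) (h : center K = π.ker.subgroupOf K) : Nonempty (K ⧸ center K ≃* K.map π) :=
  ⟨(QuotientGroup.quotientMulEquivOfEq (h.trans (by ext x; simp [mem_subgroupOf, Subtype.ext_iff]))).trans
    (QuotientGroup.quotientKerEquivOfSurjective _ (π.subgroupMap_surjective K))⟩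

theorem map_conj_map (K : Subgroup G) (g : G) :
    (K.map (MulAut.conj g).toMonoidHom).map π = (K.map π).map (MulAut.conj (π g)).toMonoidHom := by
  rw [map_map, map_map]; congr 1; ext x; simp

theorem ker_le_conj {K : Subgroup G} (h : π.ker ≤ K) (g : G) : π.ker ≤ K.map (MulAut.conj g).toMonoidHom := fun x hx =>
  ⟨g⁻¹ * x * g, h (by simpa using (inferInstance : π.ker.Normal).conj_mem x hx g⁻¹), by simp [mul_assoc]⟩

end H8
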