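import Cfsg.Agent.H8.GA
import Cfsg.Agent.H8.Or
import Cfsg.Agent.H8.Sub3

/-! H8.FA0: table models for automorphisms acting on the group itself -/

set_option autoImplicit false
set_option linter.all false
open Subgroup

namespace H8
universe u

def Cj (G : Type u) : Type u := G
variable {G : Type u} [Group G]
instance : MulAction (MulAut G) (Cj G) := inferInstanceAs (MulAction (MulAut G) G)
instance : MulAction G (Cj G) := MulAction.compHom (Cj G) (MulAut.conj : G →* MulAut G)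

def Fx (t : MulAut G) : Subgroup G := t.toMonoidHom.eqLocus (MonoidHom.id G)
theorem mem_Fx {t : MulAut G} {g : G} : g ∈ Fx t ↔ t g = g := Iff.rfl

variable {n k m : ℕ} {pt : ℕ → Cj G} {T TH : Tr ℕ} {Ls LH : List Lev}

theorem repA {f : ℕ → ℕ} {g : G} (h : RepF n pt f g) : RepF n pt f (MulAut.conj g) := h
theorem letsA (h : Lets G n k m pt T) : Lets (MulAut.conj : G →* MulAut G).range n k m pt T :=
  fun y => ⟨⟨MulAut.conj (h.e y), _, rfl⟩, h.rep y⟩

theorem conj_sw (t : MulAut G) (g : G) : t * MulAut.conj g = MulAut.conj (t g) * t := MulEquiv.ext fun x => by simp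

theorem fx_chk (hinj : ∀ a < n, ∀ b < n, pt a = pt b → a = b) {B : List ℕ} (hB : IsB (MulAut G) n pt B)
    (hi : Function.Injective (MulAut.conj : G →* MulAut G)) {t : MulAut G} {f : ℕ → ℕ} (rt : RepF n pt f t) (g : G) (f' : ℕ → ℕ)
    (hg : RepF n pt f' g) (h : eqB B (fun a => f (f' a)) (fun a => f' (f a)) = true) : g ∈ Fx t :=
  hi (mul_right_cancel ((conj_sw t g).symm.trans ((eqB_iff hB hinj (rt.comp (repA hg)) ((repA hg).comp rt)).1 h)))

theorem Ch.fx [Finite G] (A : Ch G n k m pt T Ls) {B : List ℕ} (hB : IsB (MulAut G) n pt B)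
    (hi : Function.Injective (MulAut.conj : G →* MulAut G)) {t : MulAut G} {f : ℕ → ℕ} (rt : RepF n pt f t) (L : Lets G n k m pt TH)
    (h1 : TH.all (fun c => eqB B (fun a => f (ap k m c a)) fun a => ap k m c (f a)) = true) (tc : tchainChk n k m TH LH = true)
    {F : List (ℕ × ℕ)} (bk : Bk n k m T TH [prC B [(f, f)]] Ls LH F []) : Ch (Fx t) n k m pt TH LH :=
  A.sub _ (fun c hc => ⟨_, List.mem_cons_self,
    have h := snd_prC (G := MulAut G) A.inj hB (c := MulAut.conj c) (L := [(f, f)]) fun q hq => by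
      rw [List.mem_singleton.1 hq]; exact ⟨t, t, rt, rt, by rw [conj_sw, mem_Fx.1 hc]⟩
    ⟨h.1, fun f hf => h.2 f (by rw [← map_inv]; exact hf)⟩⟩) (lets_chk L _ _ (fx_chk A.inj hB hi rt) h1) tc bk

theorem card_Fx {s t : MulAut G} (h : IsConj s t) : Nat.card (Fx s) = Nat.card (Fx t) := by
  obtain ⟨c, rfl⟩ := isConj_iff.1 h
  exact Nat.card_congr (c.toEquiv.subtypeEquiv fun g => by simp [mem_Fx])

/-- an involutory automorphism from a permutation normalising a faithful action -/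
theorem aut_ex (ρ : G →* Equiv.Perm ℕ) (lt : ∀ g, ∀ y < n, ρ g y < n) (fa : ∀ g, (∀ y < n, ρ g y = y) → g = 1) (c : ℕ → ℕ)
    (hc : ∀ y < n, c y < n ∧ c (c y) = y) {e : ℕ → G} {N : ℕ} (gen : ∀ H : Subgroup G, (∀ a < N, e a ∈ H) → H = ⊤)
    (h : ∀ a < N, ∃ u, ∀ y < n, ρ u (c y) = c (ρ (e a) y)) :
    ∃ s : MulAut G, s * s = 1 ∧ (∀ g, ∀ y < n, ρ (s g) (c y) = c (ρ g y)) ∧ ∀ g u, (∀ y < n, ρ u (c y) = c (ρ g y)) → s g = u := by
  let H : Subgroup G :=
    { carrier := {g | ∃ u, ∀ y < n, ρ u (c y) = c (ρ g y)}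
      one_mem' := ⟨1, by simp⟩
      mul_mem' := fun {a b} ⟨u, p⟩ ⟨v, q⟩ => ⟨u * v, fun y hy => by
        rw [map_mul, map_mul, Equiv.Perm.mul_apply, Equiv.Perm.mul_apply, q y hy, p _ (lt _ y hy)]⟩
      inv_mem' := fun {a} ⟨u, p⟩ => ⟨u⁻¹, fun y hy => by
        rw [map_inv, Equiv.Perm.inv_eq_iff_eq, p _ (lt _ y hy), ← Equiv.Perm.mul_apply, ← map_mul, mul_inv_cancel, map_one]; rfl⟩ }
  choose f e using fun g => show ∃ u, ∀ y < n, ρ u (c y) = c (ρ g y) from (gen H h).ge (mem_top g)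
  have un : ∀ u v, (∀ y < n, ρ u (c y) = ρ v (c y)) → u = v := fun u v h => inv_mul_eq_one.1 (fa _ fun y hy => by
    have := h _ (hc y hy).1
    rw [(hc y hy).2] at this
    rw [map_mul, Equiv.Perm.mul_apply, ← this, map_inv]; simp)
  have ff : ∀ g, f (f g) = g := fun g => un _ _ fun y hy => by
    have := e g _ (hc y hy).1
    rw [(hc y hy).2] at this
    rw [e _ y hy, this, (hc _ (lt _ _ (hc y hy).1)).2]
  exact ⟨⟨⟨f, f, ff, ff⟩, fun a b => un _ _ fun y hy => show ρ (f _) _ = ρ (f a * f b) _ by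
    rw [e _ y hy, map_mul, map_mul, Equiv.Perm.mul_apply, Equiv.Perm.mul_apply, e _ y hy, e _ _ (lt _ y hy)]⟩, MulEquiv.ext ff, e,
    fun g u h => un _ _ fun y hy => (e g y hy).trans (h y hy).symm⟩

end H8
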