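import Cfsg.Agent.H8.FA4

/-! H8.FA5: the classes of outer involutions of a group of type M(22) -/

set_option autoImplicit false
set_option maxRecDepth 200000
set_option linter.all false
open Subgroup Cfsg

namespace H8.FA
variable {G : Type*} [Group G] [Finite G] {pt : ℕ → Cj G} {e : ℕ → G} {s : MulAut G}

theorem lets_nor {n k m : ℕ} {X : Type*} [MulAction G X] {pt : ℕ → X} {T T' : Tr ℕ} {Ls' : List Lev} {B : List ℕ} (hB : IsB G n pt B) {N : Subgroup G}
    (C' : Ch N n k m pt T' Ls') (h : Lets G n k m pt T) {M : ℕ} {W : Tr (List ℕ)} (h1 : nrmChk k m B T T' M (topN Ls') W = true)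
    (h2 : selChk T T M = true) : Lets (normalizer (N : Set G)) n k m pt T := fun y => by
  obtain ⟨j, hj, e⟩ := selChk_spec h2 y
  exact ⟨⟨_, C'.le_norm hB h h1 j hj⟩, e ▸ h.rep j⟩

theorem p4 (C : Cx pt e s) (t : MulAut G) (ht : orderOf t = 2) (hn : t ∉ (MulAut.conj : G →* MulAut G).range) :
    IsConj t s ∨ IsConj t (s * MulAut.conj (e 0)) ∨ IsConj t (s * MulAut.conj (e 0 * e 2)) := by
  haveI : Fact (Nat.Prime 2) := ⟨Nat.prime_two⟩
  haveI : Finite (MulAut G) := Nat.finite_of_card_ne_zero (by rw [C.cardA]; decide)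
  have LI := (letsA (ich C).lets).up
  have LA := letsA (lets_words (ich C).lets jE jw)
  have LN := letsA (T := lT) (lets_slp' (fun j hj => Nat.eq_of_beq_eq_true (allB_iff.1 ly j hj) ▸ lets_words (ich C).lets luE luw j) lslp (by decide +kernel))
  obtain ⟨A, SA, -⟩ := exists_std LA.up C.bA C.inj jchain jsd
  have CA := SA.ch0 jtc
  obtain ⟨U, SU, -⟩ := exists_std (lets_slp' (G := MulAut G) (fun j hj => by
    interval_cases j
    exacts [⟨_, (C.r1.comp (apL_rep LI.rep _)).congr fun y hy => Nat.eq_of_beq_eq_true (allB_iff.1 ox0 y hy)⟩, ⟨_, (C.r1.comp (apL_rep LI.rep _)).congr fun y hy => Nat.eq_of_beq_eq_true (allB_iff.1 ox1 y hy)⟩, ⟨_, (C.r1.comp (apL_rep LI.rep _)).congr fun y hy => Nat.eq_of_beq_eq_true (allB_iff.1 ox2 y hy)⟩, ⟨_, (C.r1.comp (apL_rep LI.rep _)).congr fun y hy => Nat.eq_of_beq_eq_true (allB_iff.1 ox3 y hy)⟩]) oslp (by decide +kernel)) C.bA C.inj ochain osd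
  have CU := SU.ch0 otc
  have AI := CA.le_lets C.bA LA
  have UN := CU.le_lets C.bA (lets_nor C.bA CA CU.lets.up on (by decide +kernel))
  have LM := lets_nor C.bA CA LN.up ln (by decide +kernel)
  have rB : RepF 3510 pt _ ((ev CU.lets.e tBw : U) : MulAut G) := (rep_word CU.lets tBw tBp)
  have rC : RepF 3510 pt _ ((ev CU.lets.e tCw : U) : MulAut G) := (rep_word CU.lets tCw tCp)
  have eU : ∀ u ∈ U, ∃ f, RepF 3510 pt f u ∧ lfU f = true := fun u hu => by
    obtain ⟨w, hw, e⟩ := CU.words oWc ⟨u, hu⟩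
    have r := apL_rep CU.lets.rep w
    rw [e] at r
    exact ⟨_, r, allL_iff.1 oe w hw⟩
  have cj : ∀ {f g x y Z}, RepF 3510 pt f x → RepF 3510 pt g y → anyL Z (cjB iT f g) = true → IsConj (α := MulAut G) x y := fun rf rg h => by
    obtain ⟨w, -, h⟩ := anyL_spec h
    exact isConj_iff.2 ⟨_, mul_inv_eq_iff_eq_mul.2 ((eqB_iff C.bA C.inj ((apL_rep LI.rep w).comp rf) (rg.comp (apL_rep LI.rep w))).1 h)⟩
  have one : ∀ a ∈ A, ∀ f, RepF 3510 pt f a → eqB (jL.map Lev.b) f (fun a => a) = true → a = 1 := fun a ha f r h =>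
    congrArg Subtype.val ((eqB_iff CA.base CA.inj (g := ⟨a, ha⟩) r (RepF.id _ pt)).1 h)
  have cA : Nat.card A = 2 ^ 10 := CA.card.trans (by decide +kernel)
  have cU : Nat.card U = 2 ^ 8 := CU.card.trans (by decide +kernel)
  obtain ⟨i, hi⟩ := ((IsPGroup.of_card cA).to_sup_of_normal_left' (IsPGroup.of_card cU) UN).exists_card_eq
  have le := card_mul_le A U
  rw [show U ⊓ A = ⊥ from (eq_bot_iff_forall _).2 fun u h => by
    obtain ⟨f, r, e⟩ := eU u h.1
    simp only [lfU, band_eq_true] at e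
    exact one u h.2 f r e.1.1, card_bot, mul_one, cA, cU, hi, ← pow_add, Nat.pow_le_pow_iff_right (by decide)] at le
  obtain ⟨g, hg⟩ := exists_conj_le Nat.prime_two (A ⊔ U) (fun h => by
    have := Nat.mul_dvd_mul h (hi ▸ pow_dvd_pow 2 le)
    rw [index_mul_card, C.cardA] at this
    exact absurd this (by decide)) (A := zpowers t) (IsPGroup.of_card (n := 1) (by rw [Nat.card_zpowers, ht]; rfl))
  have t2 : g * t * g⁻¹ * (g * t * g⁻¹) = 1 := by rw [← pow_two, conj_pow, ← ht, pow_orderOf_eq_one]; simp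
  have tn : g * t * g⁻¹ ∉ (MulAut.conj : G →* MulAut G).range := fun h =>
    hn (by simpa [mul_assoc] using (inferInstance : (Inn G).Normal).conj_mem' _ h g)
  have tc : IsConj t (g * t * g⁻¹) := isConj_iff.2 ⟨g, rfl⟩
  obtain ⟨a, ha, u, hu, e⟩ := (coe_mul_of_right_le_normalizer_left A U UN).le (hg t (mem_zpowers t))
  replace e : a * u = g * t * g⁻¹ := e
  rw [← e] at t2 tn tc
  obtain ⟨f, rf, h⟩ := eU u hu
  simp only [lfU, band_eq_true, bor_eq_true, bnot_eq_true] at h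
  have u2 := one (u * u) (by
    rw [show u * u = (u * a * u⁻¹)⁻¹ * a⁻¹ * (a * u * (a * u)) by group, t2, mul_one]
    exact mul_mem (inv_mem ((mem_normalizer_iff.1 (UN hu) a).1 ha)) (inv_mem ha)) _ (rf.comp rf) h.1.2
  obtain ⟨v, -, h⟩ := anyL_spec (h.2.resolve_left (not_not.2 ((eqB_iff C.bA C.inj (rf.comp rf) (RepF.id _ pt)).2 u2)))
  have rv : RepF 3510 pt _ ((ev LM.e v : normalizer (A : Set (MulAut G))) : MulAut G) := apL_rep LM.rep v
  have key : ∀ {ft τ Z1 Z2 Z3}, RepF 3510 pt ft τ → cjB lT f ft v = true → (∀ x : A, ∃ f, RepF 3510 pt f x ∧ lfA ft Z1 Z2 Z3 f = true) →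
      IsConj t s ∨ IsConj t (s * MulAut.conj (_ : G)) ∨ IsConj t (s * MulAut.conj (_ : G)) := fun {ft τ Z1 Z2 Z3} rt h en => by
    have h := (eqB_iff C.bA C.inj (rv.comp rf) (rt.comp rv)).1 h
    have m := (mem_normalizer_iff.1 (ev LM.e v).2 a).1 ha
    generalize ((ev LM.e v : normalizer (A : Set (MulAut G))) : MulAut G) = w at h m
    have q : w * (a * u) * w⁻¹ = w * a * w⁻¹ * τ := by rw [← mul_inv_eq_iff_eq_mul.2 h]; group
    have tc' := tc.trans (isConj_iff.2 ⟨w, q⟩)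
    obtain ⟨f', r', h⟩ := en ⟨_, m⟩
    have r' := (show RepF 3510 pt f' (w * a * w⁻¹) from r').comp rt
    simp only [lfA, bor_eq_true, bnot_eq_true] at h
    rcases h with h | h | h | h
    · exact absurd ((eqB_iff C.bA C.inj (r'.comp r') (RepF.id _ pt)).2 (by rw [← q, ← pow_two, conj_pow, pow_two, t2]; simp)) h
    exacts [.inl (tc'.trans (cj r' C.r1 h)), .inr (.inl (tc'.trans (cj r' C.r2 h))), .inr (.inr (tc'.trans (cj r' C.r3 h)))]
  simp only [bor_eq_true] at h
  rcases h with h | h | h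
  · have r : RepF 3510 pt _ ((ev LN.e v : (MulAut.conj : G →* MulAut G).range) : MulAut G) := apL_rep LN.rep v
    exact absurd (mul_mem (AI ha) ((eqB_iff C.bA C.inj rf r).1 h ▸ Subtype.prop _)) tn
  exacts [key rB h (CA.enum eB), key rC h (CA.enum eC)]


end H8.FA
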