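import Cfsg.Agent.H8.FAD
import Cfsg.Agent.H8.FA0

/-! H8.FAC: the table model of the automorphism group of a group of type M(22) -/

set_option autoImplicit false
set_option maxRecDepth 200000
set_option linter.all false
open Subgroup Cfsg

namespace H8.FA
open H7 H7.T
variable {G : Type*} [Group G]

structure Cx (pt : ℕ → Cj G) (e : ℕ → G) (s : MulAut G) : Prop where
  inj : ∀ a < 3510, ∀ b < 3510, pt a = pt b → a = b
  card : Nat.card G = 64561751654400
  cardA : Nat.card (MulAut G) = 2 * 64561751654400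
  rep : ∀ j < 13, Rep 3510 (nat_lit 12) (nat_lit 4095) pt (gS.get j) (e j)
  r1 : RepF 3510 pt (ap (nat_lit 12) (nat_lit 4095) s1) s
  r2 : RepF 3510 pt (ap (nat_lit 12) (nat_lit 4095) s2) (s * MulAut.conj (e 0))
  r3 : RepF 3510 pt (ap (nat_lit 12) (nat_lit 4095) s3) (s * MulAut.conj (e 0 * e 2))
  bA : IsB (MulAut G) 3510 pt lpB
  bG : IsB G 3510 pt lpB
  hi : Function.Injective (MulAut.conj : G →* MulAut G)
  ss : s * s = 1

theorem Cx.slp {pt : ℕ → Cj G} {e : ℕ → G} {s : MulAut G} (C : Cx pt e s) {T T' X : Tr ℕ} {D : Tr (List ℕ)} {N0 len : ℕ}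
    (h0 : (allB N0 fun j => band (Nat.ble (Nat.succ (X.get j)) 13) (Nat.beq (T'.get j) (gS.get (X.get j)))) = true)
    (h1 : slpChk 3510 (nat_lit 12) (nat_lit 4095) T' D N0 len = true) (h2 : selChk T T' (N0 + len) = true) :
    Lets G 3510 (nat_lit 12) (nat_lit 4095) pt T := lets_slp' (fun j hj => by
  have := allB_iff.1 h0 j hj
  rw [band_eq_true, Nat.ble_eq, Nat.beq_eq] at this
  exact ⟨_, this.2 ▸ C.rep _ this.1⟩) h1 h2

theorem cx [Finite G] (F : H7.FM P22 G) (tr : ∀ a ∈ F.D, ∀ b ∈ F.D, ∃ g : G, g * a * g⁻¹ = b) : ∃ s, Cx F.el F.gs s := by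
  let M : H7.Mdl G := ⟨P22.n, P22.Ns, F.ok, F.gs, F.ρ, F.hρ⟩
  have r : ∀ w c, repW 3510 12 (nat_lit 12) (nat_lit 4095) P22.Ns w c 0 3510 = true →
      ∀ y < 3510, F.ρ (ev F.gs w) y = ap (nat_lit 12) (nat_lit 4095) c y := fun w c h y hy =>
    (rep_of_net M (K := 12) (show 3510 ≤ 2 ^ 12 by decide) h y hy).2.symm
  have r0 : ∀ j < 13, ∀ y < 3510, F.ρ (F.gs j) y = ap (nat_lit 12) (nat_lit 4095) (gS.get j) y := fun j hj => by
    rw [← show ev F.gs [j] = F.gs j from mul_one _]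
    refine r _ _ ?_
    interval_cases j
    exacts [FA.r0, r1, r2, r3, r4, r5, r6, r7, r8, r9, r10, r11, r12]
  have hs := allB_iff.1 ss
  simp only [band_eq_true, Nat.ble_eq, Nat.beq_eq] at hs
  have fa : ∀ g, (∀ y < 3510, F.ρ g y = y) → g = 1 := fun g h => F.base g fun b hb => h b ((by decide : ∀ b ∈ P22.bs, b < 3510) b hb)
  obtain ⟨s, s2, e1, e2'⟩ := aut_ex (n := 3510) F.ρ (fun g y => F.lt g) fa _ hs (N := 13) F.gen fun j hj => by
    have : band (repW 3510 12 (nat_lit 12) (nat_lit 4095) P22.Ns (uW.get j) (uS.get j) 0 3510) (allB 3510 fun y => Nat.beq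
        (ap (nat_lit 12) (nat_lit 4095) (uS.get j) (ap (nat_lit 12) (nat_lit 4095) s1 y))
        (ap (nat_lit 12) (nat_lit 4095) s1 (ap (nat_lit 12) (nat_lit 4095) (gS.get j) y))) = true := by
      interval_cases j
      exacts [v0, v1, v2, v3, v4, v5, v6, v7, v8, v9, v10, v11, v12]
    rw [band_eq_true, allB_iff] at this
    exact ⟨_, fun y hy => by rw [r _ _ this.1 _ (hs y hy).1, r0 j hj y hy]; exact Nat.eq_of_beq_eq_true (this.2 y hy)⟩
  have e0 : F.el 0 = F.gs 0 := (F.hl 0 (by decide)).2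
  have z : s (F.gs 0) = F.gs 0 := e2' _ _ fun y hy => by
    have := v0
    rw [band_eq_true, allB_iff] at this
    rw [r0 0 (by decide) _ (hs y hy).1, r0 0 (by decide) y hy]; exact Nat.eq_of_beq_eq_true (this.2 y hy)
  have rg : ∀ j < 13, Rep (X := Cj G) 3510 (nat_lit 12) (nat_lit 4095) F.el (gS.get j) (F.gs j) := fun j hj y hy =>
    r0 j hj y hy ▸ ⟨F.lt _ hy, F.cj _ _ hy⟩
  have rs : RepF (X := Cj G) 3510 F.el (ap (nat_lit 12) (nat_lit 4095) s1) s := fun y hy => ⟨(hs y hy).1, by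
    obtain ⟨g, hg⟩ := tr _ ⟨0, by decide, rfl⟩ _ ⟨y, hy, rfl⟩
    rw [← F.cj g 0 (by decide)] at hg
    rw [← F.inj _ _ (F.lt g (by decide)) hy hg, ← e1 g 0 (by decide), show ap (nat_lit 12) (nat_lit 4095) s1 0 = 0 by decide +kernel]
    show F.el _ = s (F.el _)
    rw [F.cj _ 0 (by decide), F.cj _ 0 (by decide), e0, map_mul, map_mul, z, map_inv]⟩
  have bA : IsB (MulAut G) 3510 (X := Cj G) F.el lpB := ⟨by decide +kernel, fun t h => MulEquiv.ext fun g =>
    (F.gen (Fx t) fun a ha => (F.hl a ha).2 ▸ h _ ((by decide +kernel : ∀ a < 13, P22.lp a ∈ lpB) a ha)).ge (mem_top g)⟩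
  have hi : Function.Injective (MulAut.conj : G →* MulAut G) := (injective_iff_map_eq_one _).2 fun g h => fa g fun y hy =>
    F.inj _ _ (F.lt g hy) hy ((F.cj g y hy).trans (DFunLike.congr_fun h _))
  have cG : Nat.card G = 64561751654400 := F.card
  obtain ⟨i⟩ := iso_mdl M (n := 3510) rfl F22.gen 12 (by decide) (fun j => if j = 0 then [5, 6, 8, 4, 7] else [7, 8, 2, 3, 0, 1])
    (fun j hj => by interval_cases j; exacts [x0, x1]) (cG.trans F22.card.symm).le
  refine ⟨s, fun a ha b hb => F.inj a b ha hb, cG, ?_, rg, rs, (rs.comp (repA (rg 0 (by decide)))).congr fun y hy => (Nat.eq_of_beq_eq_true (allB_iff.1 e2 y hy)).symm,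
    (rs.comp (repA ((rg 0 (by decide)).comp (rg 2 (by decide))))).congr fun y hy => (Nat.eq_of_beq_eq_true (allB_iff.1 e3 y hy)).symm, bA,
    ⟨bA.1, fun g h => hi ((bA.2 _ h).trans (map_one _).symm)⟩, hi, s2⟩
  rw [card_eq_card_quotient_mul_card_subgroup (Inn G), ← cG]
  exact congrArg₂ _ ((out_congr i).trans F22.out) (Nat.card_congr (MonoidHom.ofInjective hi).toEquiv).symm

end H8.FA
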