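import Cfsg.Agent.H8.GO

/-! H8.GP: submodules of the permutation module of M24 (generated certificate) -/

set_option autoImplicit false
set_option maxRecDepth 200000

set_option linter.all false
open Subgroup Cfsg Pointwise

namespace H8.GP

noncomputable def a : Tr ℕ := (.node (nat_lit 1) (.leaf (nat_lit 0x2352b999507b2cea46a82c8f718820)) (.leaf (nat_lit 0x7d6e55390464236919a74d26b18820)))
theorem ae : smC [0, 1, 2, 3] [] [] a = true := by decide +kernel
theorem ac : (allB 4096 fun i => frc (H7.enc i) fun a => bor (bor (Nat.beq a 0) (Nat.beq a 16777215)) (anyB 2 fun y => frc (Nat.xor (imOn 24 (ap 5 31 (GP.a.get y)) a) a) fun b => bnot (bor (Nat.beq b 0) (Nat.beq b 16777215)))) = true := by decide +kernel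
noncomputable def b : Tr ℕ := (.node (nat_lit 1) (.leaf (nat_lit 0x5ba56455b1824c39a9e50de8723002)) (.leaf (nat_lit 0x2dab34de11450ca931cd1bd6401c22)))
theorem be : smC [] [5279] [] b = true := by decide +kernel
theorem bc : (allB 4096 fun j => bor (Nat.beq j 0) (frc (Nat.shiftLeft j 12) fun a => anyB 2 fun y => bnot (H7.isCw (Nat.xor (imOn 24 (ap 5 31 (b.get y)) a) a)))) = true := by decide +kernel
noncomputable def d : Tr ℕ := (.node (nat_lit 1) (.leaf (nat_lit 0xb2eae89aec54e4029c29a09f01a08d)) (.leaf (nat_lit 0xab8b638e809c4247dd0d5196990a0c)))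
theorem de : smC [] [340831] [] d = true := by decide +kernel
theorem dc : (allB 4096 fun j => bor (Nat.beq j 0) (frc (Nat.shiftLeft j 12) fun a => anyB 2 fun y => bnot (H7.isCw (Nat.xor (imOn 24 (ap 5 31 (d.get y)) a) a)))) = true := by decide +kernel
noncomputable def g : ℕ := (nat_lit 0xb51e1a8cb36b8cc8c00b51d0991057)
theorem ind_smul (g : M24) (s : Finset GolayPt) : (fun p => ind s (g.1.symm p)) = ind (g • s) := funext fun p =>
  if_congr (Finset.inv_smul_mem_iff (a := g.1)) rfl rfl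

theorem smd (g : M24) (s t : Finset GolayPt) : g • symmDiff s t = symmDiff (g • s) (g • t) := H7.smul_symmDiff' g s t

theorem moves {T : Tr ℕ} {m : ℕ} {C : H7.Coding GolayPt} (hC : GC C) (e : smC [] [m] [] T = true) (h : (allB 4096 fun j => bor (Nat.beq j 0)
    (frc (Nat.shiftLeft j 12) fun a => anyB 2 fun y => bnot (H7.isCw (Nat.xor (imOn 24 (ap 5 31 (T.get y)) a) a)))) = true)
    {s : Finset GolayPt} (hs : s ∉ H7.CC) : ∃ g : M24, g • C.fs m = C.fs m ∧ symmDiff (g • s) s ∉ H7.CC := by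
  obtain ⟨a, ha, rfl⟩ := exists_fs' hC.n s
  have f := H7.enc_facts (a &&& 4095) (Nat.lt_succ_of_le Nat.and_le_right)
  have c := (hC.cw f.1).2 (H7.isCw_iff.2 ⟨_, Nat.lt_succ_of_le Nat.and_le_right, rfl⟩)
  generalize H7.enc (a &&& 4095) = b at f c
  have h1 := Nat.xor_lt_two_pow ha f.1
  have h2 : (a ^^^ b) >>> 12 <<< 12 = a ^^^ b := by
    have := Nat.xor_mod_two_pow (a := a) (b := b) (n := 12)
    rw [← Nat.and_two_pow_sub_one_eq_mod a, ← Nat.and_two_pow_sub_one_eq_mod b, show b &&& 2 ^ 12 - 1 = a &&& 2 ^ 12 - 1 from f.2.1, Nat.xor_self] at this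
    rw [Nat.shiftLeft_eq, Nat.shiftRight_eq_div_pow]; omega
  have := allB_iff.1 h ((a ^^^ b) >>> 12) (by rw [Nat.shiftRight_eq_div_pow]; omega)
  rw [bor_eq_true, frc_eq, Nat.beq_eq, show Nat.shiftLeft _ 12 = _ from h2] at this
  rcases this with e | h
  · rw [e, Nat.zero_shiftLeft, eq_comm, Nat.xor_eq_zero_iff] at h2
    exact (hs (h2 ▸ c)).elim
  obtain ⟨y, -, h⟩ := anyB_spec h
  have r := (hC.sm e).rep y
  refine ⟨((hC.sm e).e y).1, ((hC.sm e).e y).2.2.1 _ (by simp), fun h' => bnot_eq_true.1 h ((hC.cw (Nat.xor_lt_two_pow (imOn_lt r _) h1)).1 ?_)⟩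
  rw [C.fs_xor, ← smul_fs' hC.n r, C.fs_xor]
  have := H7.symmDiff_mem h' (H7.symmDiff_mem (H7.smul_mem_CC ((hC.sm e).e y).1 c) c)
  rwa [symmDiff_symmDiff_symmDiff_comm, ← smd] at this

theorem dec_ind {α : Type*} [Fintype α] [DecidableEq α] (v : α → ZMod 2) (a : α) :
    v - (∑ p, v p) • ind {a} = ∑ p, v p • (ind {p} - ind {a}) := by
  simp only [smul_sub, Finset.sum_sub_distrib, Finset.sum_smul]; congr 1; ext q; simp [ind, Finset.sum_apply]

section
variable {W : Submodule (ZMod 2) (GolayPt → ZMod 2)} (hW : ∀ σ ∈ M24, ∀ w ∈ W, (fun p => w (σ.symm p)) ∈ W)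
include hW

theorem sm (g : M24) {s : Finset GolayPt} (h : ind s ∈ W) : ind (g • s) ∈ W := ind_smul g s ▸ hW g g.2 _ h
theorem sd (g : M24) {s : Finset GolayPt} (h : ind s ∈ W) : ind (symmDiff (g • s) s) ∈ W := ind_sub _ s ▸ W.sub_mem (sm hW g h) h

theorem le_of {s : Finset GolayPt} (h : ind s ∈ W) (hs : s ∈ H7.CC) (h0 : s ≠ ∅) (h1 : s ≠ Finset.univ) : golayCode ≤ W := by
  suffices ∃ o ∈ octads, ind o ∈ W by
    obtain ⟨o, ho, h⟩ := this
    exact golay_le fun o' ho' => let ⟨g, e⟩ := H7.octad_trans ho ho'; e ▸ sm hW g h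
  have k : ∀ {C : H7.Coding GolayPt} (a : ℕ), GC C → C.fs a = s → a < 2 ^ 24 → octC (imOn 24 (ap 5 31 g) a ^^^ a) = true → ∃ o ∈ octads, ind o ∈ W := by
    rintro C a hC rfl ha e
    obtain ⟨x, r⟩ := hC.ex (f := ap 5 31 g) (by decide +kernel)
    exact ⟨_, by rw [smul_fs' hC.n r, ← C.fs_xor]; exact (hC.oct' (Nat.xor_lt_two_pow (imOn_lt r _) ha)).2 e, sd hW x h⟩
  rcases H7.weights hs with e | e | e | e | e
  · exact (h0 (Finset.card_eq_zero.1 e)).elim
  · exact ⟨s, ⟨hs, e⟩, h⟩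
  · obtain ⟨C, hC, e⟩ := wD ⟨hs, e⟩
    exact k _ hC e (by norm_num) (by decide +kernel)
  · obtain ⟨C, hC, e⟩ := wO (o := sᶜ) ⟨H7.compl_mem hs, by rw [Finset.card_compl, e]; rfl⟩
    exact k 16771936 hC (Finset.ext fun p => by rw [compl_fs hC.n (a := 5279) (by decide), e]; simp) (by norm_num) (by decide +kernel)
  · exact (h1 (Finset.eq_univ_of_card _ e)).elim

theorem pairs {w : GolayPt → ZMod 2} (h : w ∈ W) (hw : w ∉ golayCode) {p q : GolayPt} (hpq : p ≠ q) : ind {p, q} ∈ W := by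
  obtain ⟨u, h1, h2⟩ := leader rfl card_golay golay_min w
  rw [← ind_supp u, ← ind_supp w, ind_sub, ind_mem] at h1
  rw [← ind_supp w] at h hw
  rw [H7.hammingNorm_eq] at h2
  generalize support₂ u = u, support₂ w = w at *
  have k : ∀ g : M24, ind (symmDiff (g • u) u) ∈ W := by
    obtain ⟨t, h3, -, h4⟩ := Finset.exists_subsuperset_card_eq (Finset.subset_univ u) h2 (show 4 ≤ _ by simp)
    obtain ⟨C, hC, rfl⟩ := wSet (s := t) 15 (by rw [h4]; decide +kernel) (by omega)
    obtain ⟨a, ha, e⟩ := exists_fs' hC.n (symmDiff u w)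
    obtain ⟨i, hi, rfl⟩ := H7.isCw_iff.1 ((hC.cw ha).1 (e ▸ h1))
    have := allB_iff.1 ac i hi
    obtain rfl : w = symmDiff u (C.fs (H7.enc i)) := by rw [e, symmDiff_symmDiff_cancel_left]
    rw [frc_eq, bor_eq_true, bor_eq_true, Nat.beq_eq, Nat.beq_eq] at this
    rcases this with (e | e) | e
    · rw [e, C.fs_zero, ← Finset.bot_eq_empty, symmDiff_bot] at h
      exact fun g => sd hW g h
    · intro g
      have := sd hW g h
      rwa [e, show C.fs 16777215 = ⊤ from fs_ones' hC.n, symmDiff_top, hnot_eq_compl, H7.smul_compl', compl_symmDiff_compl] at this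
    obtain ⟨y, -, e⟩ := anyB_spec e
    have r := (hC.sm ae).rep y
    have lt := Nat.xor_lt_two_pow (imOn_lt r (H7.enc i)) ha
    have c := (hC.cw ha).2 (H7.isCw_iff.2 ⟨i, hi, rfl⟩)
    have := sd hW ((hC.sm ae).e y).1 h
    have f : ((hC.sm ae).e y).1 • u = u := (Finset.image_congr fun p hp => (fixS_iff hC.n (a := 15) (ps := [0, 1, 2, 3]) (by decide)).2 ((hC.sm ae).e y).2 p (h3 hp)).trans Finset.image_id
    rw [smd, f, symmDiff_symmDiff_symmDiff_comm, symmDiff_self, bot_symmDiff] at this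
    rw [frc_eq, bnot_eq_true, bor_eq_true, Nat.beq_eq, Nat.beq_eq, not_or, Nat.xor_eq, ← fs_eq hC.n lt (by norm_num), ← fs_eq hC.n lt (by norm_num),
      C.fs_xor, ← smul_fs' hC.n r, C.fs_zero, show C.fs 16777215 = _ from fs_ones' hC.n] at e
    have := W.sub_mem h (le_of hW this (H7.symmDiff_mem (H7.smul_mem_CC _ c) c) e.1 e.2 (ind_mem.2 c))
    rw [ind_sub, symmDiff_symmDiff_cancel_right] at this
    exact fun g => sd hW g this
  obtain ⟨x, hx⟩ := Finset.nonempty_iff_ne_empty.2 fun e : u = ∅ => hw (ind_mem.2 (by rwa [e, ← Finset.bot_eq_empty, bot_symmDiff] at h1))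
  obtain ⟨y, -, hy⟩ := Finset.exists_mem_notMem_of_card_lt_card (s := u) (t := Finset.univ) (h2.trans_lt (by simp))
  obtain ⟨g, e⟩ := H7.set_trans (s := u) (t := insert y (u.erase x)) (by omega)
    (by rw [Finset.card_insert_of_notMem (by simp [hy]), Finset.card_erase_add_one hx])
  have hxy := ne_of_mem_of_not_mem hx hy
  obtain ⟨g', e'⟩ := H7.set_trans (s := {x, y}) (t := {p, q}) (Finset.card_le_two.trans (by norm_num)) (by rw [Finset.card_pair hxy, Finset.card_pair hpq])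
  have := k g
  rw [e, show symmDiff (insert y (u.erase x)) u = {x, y} by
    clear * - hx hy hxy; ext z; simp only [Finset.mem_symmDiff, Finset.mem_insert, Finset.mem_erase, Finset.mem_singleton]; grind] at this
  exact e' ▸ sm hW g' this

theorem five : W = ⊥ ∨ W = Submodule.span (ZMod 2) {fun _ => (1 : ZMod 2)} ∨ W = golayCode ∨ (W : Set (GolayPt → ZMod 2)) = {w | ∑ p, w p = 0} ∨ W = ⊤ := by
  have i1 : ind (Finset.univ : Finset GolayPt) = fun _ => 1 := by ext; simp [ind]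
  have i0 : ind (∅ : Finset GolayPt) = 0 := by ext; simp [ind]
  by_cases h : W ≤ golayCode
  · by_cases h' : ∃ w ∈ W, support₂ w ≠ ∅ ∧ support₂ w ≠ Finset.univ
    · obtain ⟨w, h1, h2, h3⟩ := h'
      exact .inr (.inr (.inl (h.antisymm (le_of hW ((ind_supp w).symm ▸ h1) (H7.support_mem_iff.2 (h h1)) h2 h3))))
    have k : ∀ w ∈ W, w = 0 ∨ w = fun _ => 1 := fun w hw => by
      rw [← ind_supp w, ← i1, ← i0]
      exact (not_and_or.1 fun e => h' ⟨w, hw, e⟩).imp (fun e => by rw [not_not.1 e]) fun e => by rw [not_not.1 e]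
    by_cases h1 : (fun _ => 1) ∈ W
    · exact .inr (.inl (le_antisymm (fun w hw => (k w hw).elim (· ▸ zero_mem _) (· ▸ Submodule.mem_span_singleton_self _))
        ((Submodule.span_singleton_le_iff_mem _ _).2 h1)))
    · exact .inl (eq_bot_iff.2 fun w hw => (k w hw).resolve_right fun e => h1 (e ▸ hw))
  obtain ⟨w, h1, h2⟩ := SetLike.not_le_iff_exists.1 h
  have k : ∀ v : GolayPt → ZMod 2, v - (∑ p, v p) • ind {none} ∈ W := fun v => by
    rw [dec_ind]
    refine W.sum_mem fun p _ => W.smul_mem _ ?_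
    by_cases e : p = none
    · rw [e, sub_self]; exact zero_mem _
    · rw [ind_sub, show symmDiff {p} {none} = ({p, none} : Finset GolayPt) by
        clear * - e; ext z; simp only [Finset.mem_symmDiff, Finset.mem_insert, Finset.mem_singleton]; grind]; exact pairs hW h1 h2 e
  by_cases h' : ∀ v ∈ W, ∑ p, v p = 0
  · exact .inr (.inr (.inr (.inl (Set.ext fun v => ⟨h' v, fun e => by have := k v; rwa [show ∑ p, v p = 0 from e, zero_smul, sub_zero] at this⟩))))
  simp only [not_forall] at h'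
  obtain ⟨v, h3, h4⟩ := h'
  have := W.sub_mem h3 (k v)
  rw [(H7.zmod2_cases _).resolve_left h4, one_smul, sub_sub_cancel] at this
  exact .inr (.inr (.inr (.inr (eq_top_iff.2 fun v _ => sub_add_cancel v _ ▸ W.add_mem (k v) (W.smul_mem _ this)))))
end

end H8.GP
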