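import Cfsg.Agent.H8.StC
import Cfsg.Agent.H8.SHS
import Cfsg.Agent.H8.Sub3

/-! H8.HG: the automorphism group of the Higman-Sims graph (generated certificate) -/

set_option autoImplicit false
set_option maxRecDepth 200000

set_option linter.all false
open Subgroup Cfsg Pointwise

namespace H8.HG

noncomputable def HT : Tr ℕ := (.node (nat_lit 38) (.node (nat_lit 19) (.node (nat_lit 9) (.node (nat_lit 4) (.node (nat_lit 2) (.node (nat_lit 1) (.leaf (nat_lit 1594)) (.leaf (nat_lit 4773))) (.node (nat_lit 3) (.leaf (nat_lit 12036)) (.leaf (nat_lit 16601))))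
 (.node (nat_lit 6) (.node (nat_lit 5) (.leaf (nat_lit 21574)) (.leaf (nat_lit 41666))) (.node (nat_lit 7) (.leaf (nat_lit 55680)) (.node (nat_lit 8) (.leaf (nat_lit 58401)) (.leaf (nat_lit 67881))))))
 (.node (nat_lit 14) (.node (nat_lit 11) (.node (nat_lit 10) (.leaf (nat_lit 73751)) (.leaf (nat_lit 78984))) (.node (nat_lit 12) (.leaf (nat_lit 102512)) (.node (nat_lit 13) (.leaf (nat_lit 115212)) (.leaf (nat_lit 134275)))))
 (.node (nat_lit 16) (.node (nat_lit 15) (.leaf (nat_lit 137244)) (.leaf (nat_lit 143650))) (.node (nat_lit 17) (.leaf (nat_lit 150112)) (.node (nat_lit 18) (.leaf (nat_lit 164165)) (.leaf (nat_lit 197520)))))))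
 (.node (nat_lit 28) (.node (nat_lit 23) (.node (nat_lit 21) (.node (nat_lit 20) (.leaf (nat_lit 267080)) (.leaf (nat_lit 278836))) (.node (nat_lit 22) (.leaf (nat_lit 288778)) (.leaf (nat_lit 297489))))
 (.node (nat_lit 25) (.node (nat_lit 24) (.leaf (nat_lit 329924)) (.leaf (nat_lit 361730))) (.node (nat_lit 26) (.leaf (nat_lit 402512)) (.node (nat_lit 27) (.leaf (nat_lit 426152)) (.leaf (nat_lit 479233))))))
 (.node (nat_lit 33) (.node (nat_lit 30) (.node (nat_lit 29) (.leaf (nat_lit 525792)) (.leaf (nat_lit 538689))) (.node (nat_lit 31) (.leaf (nat_lit 541443)) (.node (nat_lit 32) (.leaf (nat_lit 559142)) (.leaf (nat_lit 565528)))))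
 (.node (nat_lit 35) (.node (nat_lit 34) (.leaf (nat_lit 609296)) (.leaf (nat_lit 680068))) (.node (nat_lit 36) (.leaf (nat_lit 693760)) (.node (nat_lit 37) (.leaf (nat_lit 720970)) (.leaf (nat_lit 787469))))))))
 (.node (nat_lit 57) (.node (nat_lit 47) (.node (nat_lit 42) (.node (nat_lit 40) (.node (nat_lit 39) (.leaf (nat_lit 790674)) (.leaf (nat_lit 860704))) (.node (nat_lit 41) (.leaf (nat_lit 1048974)) (.leaf (nat_lit 1053969))))
 (.node (nat_lit 44) (.node (nat_lit 43) (.leaf (nat_lit 1058992)) (.leaf (nat_lit 1084488))) (.node (nat_lit 45) (.leaf (nat_lit 1120770)) (.node (nat_lit 46) (.leaf (nat_lit 1139008)) (.leaf (nat_lit 1188361))))))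
 (.node (nat_lit 52) (.node (nat_lit 49) (.node (nat_lit 48) (.leaf (nat_lit 1228818)) (.leaf (nat_lit 1246244))) (.node (nat_lit 50) (.leaf (nat_lit 1310819)) (.node (nat_lit 51) (.leaf (nat_lit 1328768)) (.leaf (nat_lit 1355780)))))
 (.node (nat_lit 54) (.node (nat_lit 53) (.leaf (nat_lit 1573460)) (.leaf (nat_lit 1593384))) (.node (nat_lit 55) (.leaf (nat_lit 1671297)) (.node (nat_lit 56) (.leaf (nat_lit 1968384)) (.leaf (nat_lit 2099538)))))))
 (.node (nat_lit 67) (.node (nat_lit 62) (.node (nat_lit 59) (.node (nat_lit 58) (.leaf (nat_lit 2105452)) (.leaf (nat_lit 2126352))) (.node (nat_lit 60) (.leaf (nat_lit 2131092)) (.node (nat_lit 61) (.leaf (nat_lit 2134027)) (.leaf (nat_lit 2164289)))))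
 (.node (nat_lit 64) (.node (nat_lit 63) (.leaf (nat_lit 2179234)) (.leaf (nat_lit 2245896))) (.node (nat_lit 65) (.leaf (nat_lit 2336768)) (.node (nat_lit 66) (.leaf (nat_lit 2366496)) (.leaf (nat_lit 2367873))))))
 (.node (nat_lit 72) (.node (nat_lit 69) (.node (nat_lit 68) (.leaf (nat_lit 2490886)) (.leaf (nat_lit 2624136))) (.node (nat_lit 70) (.leaf (nat_lit 2691332)) (.node (nat_lit 71) (.leaf (nat_lit 2752561)) (.leaf (nat_lit 2932800)))))
 (.node (nat_lit 74) (.node (nat_lit 73) (.leaf (nat_lit 3164165)) (.leaf (nat_lit 3179296))) (.node (nat_lit 75) (.leaf (nat_lit 3281088)) (.node (nat_lit 76) (.leaf (nat_lit 3473432)) (.leaf (nat_lit 3679234)))))))))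
noncomputable def AT : Tr ℕ := (.node (nat_lit 50) (.node (nat_lit 25) (.node (nat_lit 12) (.node (nat_lit 6) (.node (nat_lit 3) (.node (nat_lit 1) (.leaf (nat_lit 8388606)) (.node (nat_lit 2) (.leaf (nat_lit 0xa218212110342111c5000001)) (.leaf (nat_lit 0x804288148a860905118800001)))) (.node (nat_lit 4) (.leaf (nat_lit 0x94050c80924049290b000001)) (.node (nat_lit 5) (.leaf (nat_lit 0x4084910249882142a84800001)) (.leaf (nat_lit 0x42006884321812a2504800001)))))
 (.node (nat_lit 9) (.node (nat_lit 7) (.leaf (nat_lit 0x121211182404a08c4c1800001)) (.node (nat_lit 8) (.leaf (nat_lit 0x240118914081945841c000001)) (.leaf (nat_lit 0x20a242202a20a421235000001)))) (.node (nat_lit 10) (.leaf (nat_lit 0x11240c01180a88f40a2000001)) (.node (nat_lit 11) (.leaf (nat_lit 0x10c120a284420268813800001)) (.leaf (nat_lit 0x801540285150980124a800001))))))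
 (.node (nat_lit 18) (.node (nat_lit 15) (.node (nat_lit 13) (.leaf (nat_lit 0x8980c00e015070b0a2000001)) (.node (nat_lit 14) (.leaf (nat_lit 0x2110a14092414046629000001)) (.leaf (nat_lit 0x8028304324291104352000001)))) (.node (nat_lit 16) (.leaf (nat_lit 0xc0621250032418886c000001)) (.node (nat_lit 17) (.leaf (nat_lit 0x1408c244404c2a10c70000001)) (.leaf (nat_lit 0x410b020984904c20f80000001)))))
 (.node (nat_lit 21) (.node (nat_lit 19) (.leaf (nat_lit 0x224c040e00e0703f000000001)) (.node (nat_lit 20) (.leaf (nat_lit 0x4470047007007fc0000000001)) (.leaf (nat_lit 0x8780078007ff8000000000001))))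
 (.node (nat_lit 23) (.node (nat_lit 22) (.leaf (nat_lit 0xf80007fff8000000000000001)) (.leaf (nat_lit 0xfffff80000000000000000001))) (.node (nat_lit 24) (.leaf (nat_lit 0x2d28064100214410020000c74)) (.leaf (nat_lit 0xc40c0c054098190000000254a)))))))
 (.node (nat_lit 37) (.node (nat_lit 31) (.node (nat_lit 28) (.node (nat_lit 26) (.leaf (nat_lit 0x6602831402806000404005e08)) (.node (nat_lit 27) (.leaf (nat_lit 0x91580448844408040020081b2)) (.leaf (nat_lit 0x52a806022408222008000a88c)))) (.node (nat_lit 29) (.leaf (nat_lit 0x4b14050811104082080014584)) (.node (nat_lit 30) (.leaf (nat_lit 0xc241109a0580100010081b300)) (.leaf (nat_lit 0x61c00c808a80046200001c842)))))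
 (.node (nat_lit 34) (.node (nat_lit 32) (.leaf (nat_lit 0xa44060e402601000018021252)) (.node (nat_lit 33) (.leaf (nat_lit 0x349405204040a04802002402e)) (.leaf (nat_lit 0x1e400c9400060298000026910)))) (.node (nat_lit 35) (.leaf (nat_lit 0x88e40422092201010020320e0)) (.node (nat_lit 36) (.leaf (nat_lit 0xa2300c1032019005000038418)) (.leaf (nat_lit 0x550031c1040800c0c00041906))))))
 (.node (nat_lit 43) (.node (nat_lit 40) (.node (nat_lit 38) (.leaf (nat_lit 0x9423023104028800050043038)) (.node (nat_lit 39) (.leaf (nat_lit 0x4c8142a041100600804046244)) (.leaf (nat_lit 0xc120c2401b0808003000494c0)))) (.node (nat_lit 41) (.leaf (nat_lit 0xc0922120a610010020085028a)) (.node (nat_lit 42) (.leaf (nat_lit 0x8c10915041050100048060720)) (.leaf (nat_lit 0x8a0a420c20340001140082690)))))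
 (.node (nat_lit 46) (.node (nat_lit 44) (.leaf (nat_lit 0xa0898202c0c10001210088268)) (.node (nat_lit 45) (.leaf (nat_lit 0x330142881040803040108d014)) (.leaf (nat_lit 0xa106110908a08004208091422))))
 (.node (nat_lit 48) (.node (nat_lit 47) (.leaf (nat_lit 0x9204a106104a00040408a1188)) (.leaf (nat_lit 0x2a8031822021000a0050b0a04))) (.node (nat_lit 49) (.leaf (nat_lit 0x19828300880600008a10c48a0)) (.leaf (nat_lit 0x890128819013000010a0d0150))))))))
 (.node (nat_lit 75) (.node (nat_lit 62) (.node (nat_lit 56) (.node (nat_lit 53) (.node (nat_lit 51) (.leaf (nat_lit 0x90805880680c80000128ea002)) (.node (nat_lit 52) (.leaf (nat_lit 0x4848a04680004302900100bc0)) (.leaf (nat_lit 0x5046402c080028a0800907082)))) (.node (nat_lit 54) (.leaf (nat_lit 0x6018504860003402600108606)) (.node (nat_lit 55) (.leaf (nat_lit 0x602520231000506020411104c)) (.leaf (nat_lit 0x2853003880004409009114230)))))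
 (.node (nat_lit 59) (.node (nat_lit 57) (.leaf (nat_lit 0x3060905208002054011129820)) (.node (nat_lit 58) (.leaf (nat_lit 0x50118810d0000a4048094c108)) (.leaf (nat_lit 0x4822181128000580184152c00)))) (.node (nat_lit 60) (.leaf (nat_lit 0x1830606030000280063160094)) (.node (nat_lit 61) (.leaf (nat_lit 0x300a2805a000002c43018081a)) (.leaf (nat_lit 0x180d100b400000188c2182124))))))
 (.node (nat_lit 68) (.node (nat_lit 65) (.node (nat_lit 63) (.leaf (nat_lit 0x2804c8045800001302c1a4440)) (.node (nat_lit 64) (.leaf (nat_lit 0x61920000451520844020031c)) (.leaf (nat_lit 0x4ca100004a42508810202a22)))) (.node (nat_lit 66) (.leaf (nat_lit 0x545800001c24850808205160)) (.node (nat_lit 67) (.leaf (nat_lit 0x3622000062240a4101211890)) (.leaf (nat_lit 0x62450000128b090044223404)))))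
 (.node (nat_lit 71) (.node (nat_lit 69) (.leaf (nat_lit 0x2d0c00003442203001a2c280)) (.node (nat_lit 70) (.leaf (nat_lit 0x512480002148c80428244412)) (.leaf (nat_lit 0x1b1100005018440283258024))))
 (.node (nat_lit 73) (.node (nat_lit 72) (.leaf (nat_lit 0x4a0a800020b0340034260848)) (.leaf (nat_lit 0x18c600000780022a222800c6))) (.node (nat_lit 74) (.leaf (nat_lit 0x3089800008d0016580288d00)) (.leaf (nat_lit 0x287080000928029084a96008)))))))
 (.node (nat_lit 87) (.node (nat_lit 81) (.node (nat_lit 78) (.node (nat_lit 76) (.leaf (nat_lit 0x3e8000000069052e03004a8)) (.node (nat_lit 77) (.leaf (nat_lit 0x69480000001e3111230a050)) (.leaf (nat_lit 0x543800000011ce00ab30102)))) (.node (nat_lit 79) (.leaf (nat_lit 0x3f00000000000f5dbc1200)) (.node (nat_lit 80) (.leaf (nat_lit 0x36a05606000a414012a4)) (.leaf (nat_lit 0x62492524a210204040d8)))))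
 (.node (nat_lit 84) (.node (nat_lit 82) (.leaf (nat_lit 0x6184984ac1108040e420)) (.node (nat_lit 83) (.leaf (nat_lit 0x5138483414c080410928)) (.leaf (nat_lit 0x4a9243094a8002412016)))) (.node (nat_lit 85) (.leaf (nat_lit 0x5442a2c2186020420c82)) (.node (nat_lit 86) (.leaf (nat_lit 0x4c251491252002428144)) (.leaf (nat_lit 0x2d0a6050600511448a10))))))
 (.node (nat_lit 93) (.node (nat_lit 90) (.node (nat_lit 88) (.leaf (nat_lit 0x1b01b0280c000dc75000)) (.node (nat_lit 89) (.leaf (nat_lit 0x28708aa0030914483840)) (.leaf (nat_lit 0x18cc0d4000ac08c84302)))) (.node (nat_lit 91) (.leaf (nat_lit 0x301701980006e44c040c)) (.node (nat_lit 92) (.leaf (nat_lit 0x5d10005894548501510)) (.leaf (nat_lit 0x3660003309054d22208)))))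
 (.node (nat_lit 96) (.node (nat_lit 94) (.leaf (nat_lit 0x61c8000d40a3a540062)) (.node (nat_lit 95) (.leaf (nat_lit 0xab8000027383d98080)) (.leaf (nat_lit 0x6c8b864610e0900a))))
 (.node (nat_lit 98) (.node (nat_lit 97) (.leaf (nat_lit 0x3b1550330c610640)) (.leaf (nat_lit 0x51e0b809c2e42180))) (.node (nat_lit 99) (.leaf (nat_lit 0x67801d07b6a0030)) (.leaf (nat_lit 0x66faca5704804)))))))))
theorem h1 : HT.all (memL StA.hL) = true := by decide +kernel
theorem h2 : allL StA.hL (fun m => anyB 77 fun i => Nat.beq (HT.get i) m) = true := by decide +kernel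
theorem h3 : (allB 77 fun i => allB 77 fun j => bor (Nat.beq i j) (bnot (Nat.beq (HT.get i) (HT.get j)))) = true := by decide +kernel
noncomputable def relB (a b : ℕ) : Bool :=
  if a = 0 then decide (b ≠ 0 ∧ b ≤ 22) else if a ≤ 22 then decide (22 < b) && (HT.get (b - 23)).testBit (a - 1)
  else decide (22 < b) && decide (HT.get (a - 23) &&& HT.get (b - 23) = 0)
theorem h4 : ∀ a < 100, ∀ b < 100, H7.tb (AT.get a) b = (decide (a ≠ b) && (relB a b || relB b a)) := by decide +kernel
noncomputable def autB (f : ℕ → ℕ) : Bool := band (surjF 100 f)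
  (allB 100 fun a => frc (AT.get a) fun x => frc (AT.get (f a)) fun y => allB 100 fun b => ite' (H7.tb x b) (H7.tb y (f b)) (bnot (H7.tb y (f b))))
noncomputable def kt0 : ℕ := (nat_lit 0x5edcee051796ca62da6baaf08e1ea7491238d3acaa57719b5333cfc44d594c07ef9ebc5961730c56a43292d2db8c6e6ebb97320df4f0d2a4a1450a08b530d5366a3982e4049328307160e446921618a881e282840608080)
noncomputable def kt1 : ℕ := (nat_lit 0x7a8709d30e9a5c986e05844aa1b2a72a8a54cce6db734a4a45c70d29aac60d97ee31bc777a5be6ed9add9d521305f1cf17335a2284f3e848475f1203eb7046b5155df5834414161c8901414b06263c49524307040608080)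
noncomputable def kt2 : ℕ := (nat_lit 0x388af425184d2e666da2a889ddd4912d8509e766b1a529d534718f575f81bad6c85e98ab25ca982fd259b6ca65187720264b61c5facb15b58f89f203f16763b574cbc2e1c8081a3c8952438989142c6142c102860608080)
noncomputable def kt3 : ℕ := (nat_lit 0x7f2a3cbbead45c3369e2e4ae4d9841491d06d3a044c18a4c8c31a2cc870614dc6a97d94ca6b1d6f3da9f66c98317b616acbcf9d5d4eeeba4a2890d36869c17aa7add4380ca8926486851e1088c1028a0b0c1c80e2c08080)
noncomputable def kt4 : ℕ := (nat_lit 0x95330c380f595854e9a5c4c95118a66e8a13b3a462938e5cd8f1a2c1c0fe25f84faf3c636982b58bd6d95d75db96ccdab7716d3a4535eb282f5681e3e8279ca468cd44634a9328483020a38b09062860710447841640080)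
noncomputable def kt5 : ℕ := (nat_lit 0x5f8993e5d114dc3f1e6c3aeeea554281123713acaa572a449b4c18deb0b16bd798203fac9944f6e6599d6b862c6c77e0c29732eb94ee92a4a1469d2b671a1e3669b182e449892a48b0e0e4068c0418a011e28284062c400)
noncomputable def kt6 : ℕ := (nat_lit 0x438aba25c098ca1294558c2c20c21f480d028ca6be4771c1f00a5dc48752aaf41303bc8ae9cc91860b053d3aed6817c71056223284e9ad2497831bf90cc2133234db62ed48cf3848aaca6b4d371766daa7a19a1d077a8c7)
noncomputable def kT : Tr ℕ := (.node (nat_lit 3) (.node (nat_lit 1) (.leaf kt0) (.node (nat_lit 2) (.leaf kt1) (.leaf kt2)))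
 (.node (nat_lit 5) (.node (nat_lit 4) (.leaf kt3) (.leaf kt4)) (.node (nat_lit 6) (.leaf kt5) (.leaf kt6))))
noncomputable def kL0 : Lev := ⟨(nat_lit 0), (nat_lit 7), (nat_lit 0x4050404060305030406020407040402060504010402040207010107070106060602070503020506050501050506060605060105050205020205040603050705030105070607010407040107050701040701070707040203060707070703070704070700), (nat_lit 0x5050204030304030302050303040404050403030404050403040405010505040405050404050405050303040503040403030404040205040304040405040305020404050404030403050204030505050506060506050605050604050505050406040400),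
 (.leaf 0),
 (.leaf 0)⟩
noncomputable def kL1 : Lev := ⟨(nat_lit 1), (nat_lit 6), (nat_lit 0x302030602060301060303040301060504040305060000), (nat_lit 0x302020303040303040404020303010203040403030000),
 (.leaf 0),
 (.leaf 0)⟩
noncomputable def kL2 : Lev := ⟨(nat_lit 2), (nat_lit 5), (nat_lit 0x103040302040505020203050201020304040404000000), (nat_lit 0x202040404040103030304040403030304020403000000),
 (.leaf 0),
 (.leaf 0)⟩
noncomputable def kL3 : Lev := ⟨(nat_lit 3), (nat_lit 4), (nat_lit 0x403010302040101020201020201020304040300000000), (nat_lit 0x103040303030203040204040404040203030400000000),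
 (.leaf 0),
 (.leaf 0)⟩
noncomputable def kL4 : Lev := ⟨(nat_lit 4), (nat_lit 3), (nat_lit 0x301010201000302000302030103020103000000000000), (nat_lit 0x504050403000503000502030203050401000000000000),
 (.leaf 0),
 (.leaf 0)⟩
noncomputable def kL5 : Lev := ⟨(nat_lit 5), (nat_lit 2), (nat_lit 0x10000020000000000000000000000000000), (nat_lit 0x20000010000000000000000000000000000),
 (.leaf 0),
 (.leaf 0)⟩
noncomputable def kL6 : Lev := ⟨(nat_lit 6), (nat_lit 1), (nat_lit 0x100000000000000000000), (nat_lit 0x100000000000000000000),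
 (.leaf 0),
 (.leaf 0)⟩
noncomputable def kL : List Lev := [kL0, kL1, kL2, kL3, kL4, kL5, kL6]
theorem ka : kT.all (fun c => autB (ap (nat_lit 7) (nat_lit 127) c)) = true := by decide +kernel
theorem ktc : tchainChk 100 (nat_lit 7) (nat_lit 127) kT kL = true := by decide +kernel
noncomputable def nt0 : ℕ := (nat_lit 0x5edf01d50e8f5284da6de44c632da72aba338ce05633727355698fa99eaa2597ee31bc2f623b0426d254937663e7b2da3b736e0984f568484b4712034cb0c3b51575f584048b281828d2444b072630415143c7040608080)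
noncomputable def nt1 : ℕ := (nat_lit 0x7a84ee1316194a546e03aa331334a7711258726cb15d499a47354d41396d4cd7ec17bc59795bec56a42d9c7ab38c666a178f0a25f4f191b5a15dba08b7704f6c7e5a87634413163c7160c1480a281ca8918488840608080)
noncomputable def nt2 : ℕ := (nat_lit 0x58e0ea7bf396aeb0d9a5baf0a19f48960999f7994956e66354718f44ab5a89a36f9ebc5ec6562616a4595535d377772ee396cd128c0729538ea50a0a9170a67f028182e3079328408922a38416081838d122828b0608080)
noncomputable def nt3 : ℕ := (nat_lit 0x4c8ac4c30aa05c3a6da6142ea1b2a6968ca7accfe057413c88e5cf3eaac60dd6d127a85f58ca96efdad99d5213076b8d1c9779c3c938e924478aba09b16dacb4b5cdf8c343090e2c8841438b08243ca0c26542900608080)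
noncomputable def nt4 : ℕ := (nat_lit 0x2f2d4d15a8e2aab768c194ee8e546b2703e8694d37c4ae920611aea29ee20c07b41fbc77598c298b299f42a1cc736bafb695730b2ae9a724bd119c86878ed55f36c59c628284064838f201848c16586882238a942608080)
noncomputable def nt5 : ℕ := (nat_lit 0xaf6b0d6bb62fcfb78acdec782ad3a94a851b9392274ac18b28d1e2a676e9ca852b172d870a0b632e0fb43b224ca5ef5e3e56a9fc099125cd2e6ce206a799a14461b9a465890c265410b0c3839420104881a3c18a0a44080)
noncomputable def nt6 : ℕ := (nat_lit 0x84c2a33377912838b954877113e1692cd509ebdd1ea4f24d88ee10d6498cbc032c56caaf351c66ed8ed3c0c9f629d69eac57654dcaa7d04373762a54d31adbbf45f98821c59026449141e100822a2048a2c1828e0630680)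
noncomputable def nt7 : ℕ := (nat_lit 0x17f0e0c57ae5db7429d8ab5abd2b3527daa3326ce972214a8f11fc683261c08ad9a3c72cddb86af9bbd742829b3c2492c104498c02988211a112200ebc19c6018b8f3258a9452b552530091a816c972b3e698a23a393e3)
noncomputable def nT : Tr ℕ := (.node (nat_lit 4) (.node (nat_lit 2) (.node (nat_lit 1) (.leaf nt0) (.leaf nt1)) (.node (nat_lit 3) (.leaf nt2) (.leaf nt3)))
 (.node (nat_lit 6) (.node (nat_lit 5) (.leaf nt4) (.leaf nt5)) (.node (nat_lit 7) (.leaf nt6) (.leaf nt7))))
noncomputable def nL0 : Lev := ⟨(nat_lit 0), (nat_lit 8), (nat_lit 0x8040505050303060107030506030201070501050407040802010806060108060107070405060106030608050605060802020408020607030302060705040508060204070708040405040806050701040808080301070801040808020808080808060800), (nat_lit 0x1040504040404040304040402030304040403040303040404050305040304030402030503030204030304030403040304040304020303020503040503020404030303050303040303040305020505050504040505050405050504050405040405050400),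
 (.leaf 0),
 (.leaf 0)⟩
noncomputable def nL1 : Lev := ⟨(nat_lit 1), (nat_lit 7), (nat_lit 0x202070403050105070703060505030602050405070000), (nat_lit 0x203030303030203040103030302020204040304040000),
 (.leaf 0),
 (.leaf 0)⟩
noncomputable def nL2 : Lev := ⟨(nat_lit 2), (nat_lit 6), (nat_lit 0x305060401060102010601010203010505020606000000), (nat_lit 0x403040304010404020303040303040203020403000000),
 (.leaf 0),
 (.leaf 0)⟩
noncomputable def nL3 : Lev := ⟨(nat_lit 3), (nat_lit 5), (nat_lit 0x301020504050401010501010204020402020300000000), (nat_lit 0x404020103030404040403020303040204040300000000),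
 (.leaf 0),
 (.leaf 0)⟩
noncomputable def nL4 : Lev := ⟨(nat_lit 4), (nat_lit 4), (nat_lit 0x101010204000401000203030204030402000000000000), (nat_lit 0x204020202000103000203010403030303000000000000),
 (.leaf 0),
 (.leaf 0)⟩
noncomputable def nL5 : Lev := ⟨(nat_lit 5), (nat_lit 2), (nat_lit 0x10000020000000000000000000000000000), (nat_lit 0x10000010000000000000000000000000000),
 (.leaf 0),
 (.leaf 0)⟩
noncomputable def nL : List Lev := [nL0, nL1, nL2, nL3, nL4, nL5]
theorem na : nT.all (fun c => autB (ap (nat_lit 7) (nat_lit 127) c)) = true := by decide +kernel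
noncomputable def eI : Tr (List ℕ) := (.node (nat_lit 3) (.node (nat_lit 1) (.leaf [nat_lit 7, nat_lit 0, nat_lit 7, nat_lit 0, nat_lit 7, nat_lit 2, nat_lit 1, nat_lit 6, nat_lit 2, nat_lit 1, nat_lit 4, nat_lit 5, nat_lit 3, nat_lit 1, nat_lit 4, nat_lit 0, nat_lit 3]) (.node (nat_lit 2) (.leaf [nat_lit 7, nat_lit 4, nat_lit 5, nat_lit 7, nat_lit 0, nat_lit 2, nat_lit 6, nat_lit 2, nat_lit 1, nat_lit 4, nat_lit 5, nat_lit 2, nat_lit 1, nat_lit 3, nat_lit 4]) (.leaf [nat_lit 7, nat_lit 6, nat_lit 3, nat_lit 7, nat_lit 6, nat_lit 3, nat_lit 1, nat_lit 6, nat_lit 0, nat_lit 4, nat_lit 1, nat_lit 5, nat_lit 1, nat_lit 4, nat_lit 3, nat_lit 4, nat_lit 0, nat_lit 3, nat_lit 0, nat_lit 2, nat_lit 1])))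
 (.node (nat_lit 5) (.node (nat_lit 4) (.leaf [nat_lit 7, nat_lit 3, nat_lit 5, nat_lit 6, nat_lit 2, nat_lit 4, nat_lit 5, nat_lit 3, nat_lit 0, nat_lit 4, nat_lit 2, nat_lit 1]) (.leaf [nat_lit 5, nat_lit 7, nat_lit 0, nat_lit 6, nat_lit 7, nat_lit 4, nat_lit 5, nat_lit 6, nat_lit 1, nat_lit 3, nat_lit 4, nat_lit 5, nat_lit 0, nat_lit 3, nat_lit 0, nat_lit 4, nat_lit 0, nat_lit 3, nat_lit 2, nat_lit 1])) (.node (nat_lit 6) (.leaf [nat_lit 3, nat_lit 2, nat_lit 7, nat_lit 1, nat_lit 6, nat_lit 1, nat_lit 4, nat_lit 1, nat_lit 5, nat_lit 1, nat_lit 4, nat_lit 3, nat_lit 4, nat_lit 3, nat_lit 1, nat_lit 2, nat_lit 1]) (.leaf [nat_lit 5, nat_lit 6, nat_lit 1, nat_lit 7, nat_lit 6, nat_lit 1, nat_lit 6, nat_lit 4, nat_lit 1, nat_lit 5, nat_lit 0, nat_lit 4, nat_lit 3, nat_lit 0, nat_lit 2, nat_lit 1]))))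
theorem eh : HS.RL.all (fun w => eqB (kL.map Lev.b) (apF (fun y => apL (nat_lit 7) (nat_lit 127) nT (eI.get y)) w) fun a => a) = true := by decide +kernel
noncomputable def eD : Tr (List ℕ) := (.node (nat_lit 4) (.node (nat_lit 2) (.node (nat_lit 1) (.leaf [nat_lit 1, nat_lit 5, nat_lit 6, nat_lit 4, nat_lit 1, nat_lit 5, nat_lit 4, nat_lit 1, nat_lit 5, nat_lit 2, nat_lit 3, nat_lit 4, nat_lit 0, nat_lit 4, nat_lit 3, nat_lit 0]) (.leaf [nat_lit 5, nat_lit 3, nat_lit 5, nat_lit 6, nat_lit 4, nat_lit 1, nat_lit 1, nat_lit 5, nat_lit 0, nat_lit 4, nat_lit 2, nat_lit 3, nat_lit 4, nat_lit 3, nat_lit 2, nat_lit 1])) (.node (nat_lit 3) (.leaf [nat_lit 4, nat_lit 5, nat_lit 6, nat_lit 1, nat_lit 6, nat_lit 3, nat_lit 2, nat_lit 4, nat_lit 2, nat_lit 5, nat_lit 4, nat_lit 3, nat_lit 1, nat_lit 4, nat_lit 3, nat_lit 2, nat_lit 1, nat_lit 1]) (.leaf [nat_lit 2, nat_lit 4, nat_lit 1, nat_lit 6, nat_lit 0, nat_lit 4, nat_lit 2])))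
 (.node (nat_lit 6) (.node (nat_lit 5) (.leaf [nat_lit 6, nat_lit 3, nat_lit 0, nat_lit 6, nat_lit 4, nat_lit 2, nat_lit 5, nat_lit 1, nat_lit 5, nat_lit 3, nat_lit 4, nat_lit 3, nat_lit 0, nat_lit 4, nat_lit 2, nat_lit 1]) (.leaf [nat_lit 1, nat_lit 5, nat_lit 2, nat_lit 4, nat_lit 6, nat_lit 4, nat_lit 1, nat_lit 5, nat_lit 4, nat_lit 1, nat_lit 5, nat_lit 2, nat_lit 1, nat_lit 4, nat_lit 1, nat_lit 4, nat_lit 3, nat_lit 2])) (.node (nat_lit 7) (.leaf [nat_lit 5, nat_lit 4, nat_lit 3, nat_lit 0, nat_lit 6, nat_lit 5, nat_lit 0, nat_lit 5, nat_lit 4, nat_lit 0, nat_lit 4, nat_lit 1, nat_lit 4, nat_lit 3, nat_lit 2, nat_lit 0]) (.leaf [nat_lit 4, nat_lit 6, nat_lit 4, nat_lit 0, nat_lit 6, nat_lit 2, nat_lit 5, nat_lit 4, nat_lit 0, nat_lit 5, nat_lit 3, nat_lit 4, nat_lit 1, nat_lit 4, nat_lit 3, nat_lit 0]))))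
theorem es : band (surChk (nat_lit 7) (nat_lit 127) (kL.map Lev.b) nT eI (topN HS.L) eD (topN nL)) (band (tchainChk 100 (nat_lit 7) (nat_lit 127) nT nL) (Nat.ble (chainOrd 176 HS.L) (chainOrd 100 nL))) = true := by decide +kernel

variable {X : Type*} [Fintype X] [DecidableEq X] {C : H7.Coding X}

theorem hmem (i : ℕ) : HT.get i ∈ StA.hL := memL_spec (Tr.all_get h1 i)
theorem hlt (i : ℕ) : HT.get i < 2 ^ 22 := msk_lt StC.hm _ (hmem i)

noncomputable def vt (C : H7.Coding X) (a : ℕ) : Option (X ⊕ blk C StA.hL) :=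
  if a = 0 then none else if a ≤ 22 then some (.inl (C.dec (a - 1))) else some (.inr ⟨C.fs (HT.get (a - 23)), _, hmem _, rfl⟩)

theorem rel_iff (hn : C.n = 22) (a b : ℕ) : pointBlockRel _ (vt C a) (vt C b) ↔ relB a b = true := by
  unfold vt relB
  split_ifs with a0 b0 b1 a1 b0 b1 b0 b1 <;> simp only [pointBlockRel, Bool.and_eq_true, decide_eq_true_eq]
  · simp [b0]
  · simp [b0, b1]
  · simp [b1]
  · simp [b0]
  · simp; omega
  · rw [dec_mem hn (by omega)]; simp; omega
  · simp [b0]
  · simp; omega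
  · rw [disj_fs hn _ (hlt _)]; simp; omega

theorem vt_inj (hn : C.n = 22) : ∀ a < 100, ∀ b < 100, vt C a = vt C b → a = b := fun a ha b hb e => by
  unfold vt at e
  split_ifs at e with a0 b0 b1 a1 b0 b1 b0 b1
  · omega
  · have := dec_inj hn _ (by omega) _ (by omega) (Sum.inl.inj (Option.some.inj e)); omega
  · cases Option.some.inj e
  · cases Option.some.inj e
  · have e1 := (fs_eq hn (hlt _) (hlt _)).1 (congrArg Subtype.val (Sum.inr.inj (Option.some.inj e)))
    have := allB_iff.1 (allB_iff.1 h3 (a - 23) (by omega)) (b - 23) (by omega)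
    rw [bor_eq_true, bnot_eq_true, Nat.beq_eq, Nat.beq_eq] at this
    have := this.resolve_right (not_not.2 e1)
    omega

theorem vt_sur (hn : C.n = 22) (v : Option (X ⊕ blk C StA.hL)) : ∃ a < 100, vt C a = v := by
  rcases v with _ | x | ⟨_, m, hm, rfl⟩
  · exact ⟨0, by norm_num, rfl⟩
  · obtain ⟨i, hi, rfl⟩ := exists_dec hn x
    exact ⟨i + 1, by omega, by rw [vt, if_neg (by omega), if_pos (by omega)]; rfl⟩
  · obtain ⟨i, hi, e⟩ := anyB_spec (allL_iff.1 h2 m hm)
    obtain rfl := Nat.eq_of_beq_eq_true e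
    exact ⟨i + 23, by omega, by rw [vt, if_neg (by omega), if_neg (by omega)]; rfl⟩

noncomputable def cod (hn : C.n = 22) : H7.Coding (Option (X ⊕ blk C StA.hL)) where
  n := 100
  dec := vt C
  code v := (vt_sur hn v).choose
  code_lt v := (vt_sur hn v).choose_spec.1
  dec_code v := (vt_sur hn v).choose_spec.2
  code_dec i hi := vt_inj hn _ (vt_sur hn _).choose_spec.1 _ hi (vt_sur hn _).choose_spec.2

theorem adj_iff (hn : C.n = 22) {a b : ℕ} (ha : a < 100) (hb : b < 100) :
    (pointBlockGraph (blk C StA.hL)).Adj (vt C a) (vt C b) ↔ H7.tb (AT.get a) b = true := by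
  rw [pointBlockGraph, SimpleGraph.fromRel_adj, rel_iff hn, rel_iff hn, h4 a ha b hb]
  simp only [Bool.and_eq_true, decide_eq_true_eq, Bool.or_eq_true]
  exact and_congr_left fun _ => not_congr ⟨vt_inj hn a ha b hb, congrArg _⟩

abbrev Au (C : H7.Coding X) := pointBlockGraph (blk C StA.hL) ≃g pointBlockGraph (blk C StA.hL)

theorem exists_aut (hn : C.n = 22) {f : ℕ → ℕ} (h : autB f = true) : ∃ g : Au C, RepF 100 (vt C) f g := by
  rw [autB, band_eq_true] at h
  obtain ⟨σ, r⟩ := exists_perm_coding (cod hn) h.1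
  refine ⟨⟨σ, fun {v w} => ?_⟩, r⟩
  obtain ⟨a, ha, rfl⟩ := vt_sur hn v
  obtain ⟨b, hb, rfl⟩ := vt_sur hn w
  have e := allB_iff.1 h.2 a ha
  rw [frc_eq, frc_eq] at e
  have e := allB_iff.1 e b hb
  have ra : σ (vt C a) = vt C (f a) := (r a ha).2.symm
  have rb : σ (vt C b) = vt C (f b) := (r b hb).2.symm
  rw [ra, rb, adj_iff hn (r a ha).1 (r b hb).1, adj_iff hn ha hb]
  revert e
  cases H7.tb (AT.get a) b <;> cases H7.tb (AT.get (f a)) (f b) <;> decide

theorem lets (hn : C.n = 22) {T : Tr ℕ} (h : T.all (fun c => autB (ap (nat_lit 7) (nat_lit 127) c)) = true) :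
    Lets (Au C) 100 (nat_lit 7) (nat_lit 127) (vt C) T := fun y => exists_aut hn (Tr.all_get h y)

instance {V : Type*} [Finite V] (Γ : SimpleGraph V) : Finite (Γ ≃g Γ) :=
  Finite.of_injective (fun g : Γ ≃g Γ => (g : V → V)) DFunLike.coe_injective

theorem res {B : Set (Finset X)} (g : pointBlockGraph B ≃g pointBlockGraph B) (hg : g none = none) :
    ∃ σ : setSystemAut B, (∀ x, g (some (.inl x)) = some (.inl (σ.1 x))) ∧
      ∀ b : B, ∃ c : B, g (some (.inr b)) = some (.inr c) ∧ c.1 = σ.1 • b.1 := by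
  have a1 : ∀ x, ∃ y, g (some (.inl x)) = some (.inl y) := fun x => by
    have : (pointBlockGraph B).Adj none (some (.inl x)) := by simp [pointBlockGraph, pointBlockRel]
    rw [← g.map_adj_iff, hg] at this
    rcases e : g (some (.inl x)) with _ | y | y
    · rw [e] at this; exact absurd this (SimpleGraph.irrefl _)
    · exact ⟨y, rfl⟩
    · rw [e] at this; simp [pointBlockGraph, pointBlockRel] at this
  choose f hf using a1
  have fi : Function.Injective f := fun x y e => by
    have := g.injective ((hf x).trans (e ▸ (hf y).symm)); simpa using this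
  let σ := Equiv.ofBijective f (Finite.injective_iff_bijective.1 fi)
  have a2 : ∀ b : B, ∃ c : B, g (some (.inr b)) = some (.inr c) ∧ c.1 = σ • b.1 := fun b => by
    rcases e : g (some (.inr b)) with _ | y | c
    · have := g.injective (e.trans hg.symm); simp at this
    · obtain ⟨x, rfl⟩ := σ.surjective y
      have := g.injective (e.trans (hf x).symm); simp at this
    · refine ⟨c, rfl, Finset.ext fun y => ?_⟩
      obtain ⟨x, rfl⟩ := σ.surjective y
      have := g.map_adj_iff (v := some (.inl x)) (w := some (.inr b))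
      rw [hf, e] at this
      simp only [pointBlockGraph, SimpleGraph.fromRel_adj, pointBlockRel] at this
      refine Iff.trans ?_ (Finset.smul_mem_smul_finset_iff σ).symm
      show f x ∈ c.1 ↔ _
      simpa using this
  refine ⟨⟨σ, ?_⟩, hf, a2⟩
  refine Set.eq_of_subset_of_ncard_le ?_ (Set.ncard_smul_set _ _).ge
  rintro _ ⟨b, hb, rfl⟩
  obtain ⟨c, -, e⟩ := a2 ⟨b, hb⟩
  show σ • b ∈ B
  rw [show σ • b = c.1 from e.symm]
  exact c.2

theorem card_le (hn : C.n = 22) : Nat.card (Au C) ≤ 88704000 := by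
  let K := MulAction.stabilizer (Au C) (none : Option (X ⊕ blk C StA.hL))
  have k : ∀ g : K, g.1 none = none := fun g => g.2
  choose f h1 h2 using fun g : K => res g.1 (k g)
  have fi : Function.Injective f := fun g g' e => Subtype.ext (RelIso.ext fun v => by
    rcases v with _ | x | b
    · rw [k, k]
    · rw [h1, h1, e]
    · obtain ⟨c, e1, e2⟩ := h2 g b
      obtain ⟨c', e3, e4⟩ := h2 g' b
      rw [e1, e3, Subtype.ext (e2.trans (e ▸ e4.symm))])
  have c1 := Nat.card_le_card_of_injective f fi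
  rw [(StC.hch hn).card, show chainOrd 22 StC.hbL = 887040 by decide +kernel] at c1
  have c2 : K.index ≤ 100 := by
    rw [MulAction.index_stabilizer]
    refine (Set.ncard_le_card _).trans ?_
    classical
    rw [Nat.card_eq_fintype_card, card_coding (cod hn)]; rfl
  rw [← K.card_mul_index]
  exact (Nat.mul_le_mul c1 c2).trans (by norm_num)

theorem ch (hn : C.n = 22) : Ch (Au C) 100 (nat_lit 7) (nat_lit 127) (vt C) kT kL :=
  ⟨lets hn ka, vt_inj hn, ktc, (card_le hn).trans (by decide +kernel)⟩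

theorem card (hn : C.n = 22) : Nat.card (Au C) = 88704000 := (ch hn).card.trans (by decide +kernel)

theorem hs (hn : C.n = 22) : ∃ H : Subgroup (Au C), IsHS H := by
  obtain ⟨N, h1, ⟨e⟩, -⟩ := (HS.std.emb (lets hn na) (ch hn).base (ch hn).inj (by decide +kernel) eh es)
  haveI := HS.simple
  exact ⟨N, e.symm.isSimpleGroup, h1.card.trans (by decide +kernel)⟩

end H8.HG
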