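import Cfsg.Agent.H8.SrgU
import Cfsg.Agent.H8.XHS
open Finset MulAction
namespace H8.HSR
open Cfsg Classical
set_option linter.unusedSectionVars false
set_option linter.unusedVariables false

theorem tri3 {V : Type*} [Fintype V] [DecidableEq V] {Γ : SimpleGraph V} [DecidableRel Γ.Adj] {l m : ℕ} (h : Γ.IsSRGWith 100 22 l m) : 3 ∣ l := by
  haveI : Fact (Nat.Prime 3) := ⟨by norm_num⟩
  have h1 := ZMod.trace_pow_card (Γ.adjMatrix (ZMod 3))
  have h2 := h.matrix_eq (α := ZMod 3)
  have h3 : Matrix.trace (Γᶜ.adjMatrix (ZMod 3) * Γ.adjMatrix (ZMod 3)) = 0 := by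
    refine sum_eq_zero fun u _ => ?_
    rw [Matrix.diag_apply, Matrix.mul_apply]
    refine sum_eq_zero fun v _ => ?_
    by_cases c : Γ.Adj v u
    · simp [c.symm]
    · simp [c]
  have h4 : Matrix.trace (Γ.adjMatrix (ZMod 3) * Γ.adjMatrix (ZMod 3)) = 1 := by
    rw [← sq, h2]
    simp only [Matrix.trace_add, Matrix.trace_smul, SimpleGraph.trace_adjMatrix, Matrix.trace_one, h.card, smul_zero, add_zero]
    rw [nsmul_eq_mul, ← Nat.cast_mul, ← Nat.cast_one (R := ZMod 3), ZMod.natCast_eq_natCast_iff]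
    decide
  rw [pow_succ, h2, add_mul, add_mul, smul_mul_assoc, smul_mul_assoc, smul_mul_assoc, one_mul] at h1
  simp only [Matrix.trace_add, Matrix.trace_smul, SimpleGraph.trace_adjMatrix, h3, h4, smul_zero, add_zero, zero_add] at h1
  rw [← ZMod.natCast_eq_zero_iff]
  simpa using h1

theorem mu0 {V : Type*} [Fintype V] [DecidableEq V] {Γ : SimpleGraph V} [DecidableRel Γ.Adj] {l : ℕ} (h : Γ.IsSRGWith 100 22 l 0) : False := by
  let f : V → Finset V := fun u => insert u (Γ.neighborFinset u)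
  have cf : ∀ u, (f u).card = 23 := fun u => by
    simp only [f]
    rw [card_insert_of_notMem (by simp), Γ.card_neighborFinset_eq_degree, h.regular.degree_eq]
  have tr : ∀ u v w, v ∈ f u → w ∈ f v → w ∈ f u := fun u v w h1 h2 => by
    simp only [f, mem_insert, SimpleGraph.mem_neighborFinset] at h1 h2 ⊢
    rcases h1 with rfl | h1
    · exact h2
    rcases h2 with rfl | h2
    · exact .inr h1
    by_contra n
    rw [not_or] at n
    have := h.of_not_adj (Ne.symm n.1) n.2
    rw [Fintype.card_eq_zero_iff] at this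
    exact this.false ⟨v, h1, h2.symm⟩
  have e : ∀ u v, f v = f u ↔ v ∈ f u := fun u v => ⟨fun e => e ▸ mem_insert_self _ _, fun hv =>
    eq_of_subset_of_card_le (fun w hw => tr u v w hv hw) (by rw [cf, cf])⟩
  have s := card_eq_sum_card_image f univ
  rw [card_univ, h.card, sum_congr rfl (g := fun _ => 23), sum_const, smul_eq_mul] at s
  · omega
  · intro t ht
    obtain ⟨u, -, rfl⟩ := mem_image.1 ht
    rw [← cf u]; congr 1; ext v; simp [e]

theorem par {V : Type*} [Fintype V] [DecidableEq V] {Γ : SimpleGraph V} [DecidableRel Γ.Adj] {l m : ℕ} (h : Γ.IsSRGWith 100 22 l m) :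
    Γ.IsSRGWith 100 22 0 6 := by
  have h1 := h.param_eq Γ (by norm_num)
  have h2 := tri3 h
  have h3 : m ≠ 0 := by rintro rfl; exact mu0 h
  obtain rfl : l = 0 := by omega
  obtain rfl : m = 6 := by omega
  exact h

theorem fin {G : Type*} [Group G] {V : Type*} [Fintype V] {Γ : SimpleGraph V} [DecidableRel Γ.Adj] (h : Γ.IsSRGWith 100 22 0 6)
    (φ : G →* (Γ ≃g Γ)) (hφ : Function.Injective φ) (hG : Nat.card G = 44352000) : Spor.IsoHS G := by
  obtain ⟨o⟩ : Nonempty V := Fintype.card_pos_iff.1 (by rw [h.card]; norm_num)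
  have e : ∃ B : Set (Finset {x // Γ.Adj o x}), IsSteinerSystem 3 6 B ∧ Nonempty (Γ ≃g pointBlockGraph B) :=
    ⟨SrgU.BB Γ o, SrgU.steiner h o, ⟨⟨Equiv.ofBijective _ (SrgU.ψ_bij h o), fun {v w} => SrgU.ψ_adj h o v w⟩⟩⟩
  obtain ⟨B, hB, ⟨e⟩⟩ := e
  obtain ⟨C, hn, rfl⟩ := StA.huq (SrgU.cardX h o) hB
  let ψ : G →* HG.Au C := MonoidHom.mk' (fun g => (e.symm.trans (φ g)).trans e) fun g g' => by
    ext v; simp [RelIso.mul_apply]
  have hψ : Function.Injective ψ := fun g g' h => hφ (RelIso.ext fun v => by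
    have := congrArg (fun x : HG.Au C => x (e v)) h
    simpa [ψ] using this)
  obtain ⟨N, h1, ⟨eN⟩, -⟩ := (HS.std.emb (HG.lets hn HG.na) (HG.ch hn).base (HG.ch hn).inj (by decide +kernel) HG.eh HG.es)
  haveI := HS.simple
  haveI : IsSimpleGroup N := eN.symm.isSimpleGroup
  have cN : Nat.card N = 44352000 := h1.card.trans (by decide +kernel)
  have cR : Nat.card ψ.range = 44352000 := (Nat.card_congr (MonoidHom.ofInjective hψ).toEquiv).symm.trans hG
  have iR : ψ.range.index = 2 := by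
    have := ψ.range.card_mul_index
    rw [cR, HG.card hn] at this; omega
  haveI : ψ.range.Normal := Subgroup.normal_of_index_eq_two iR
  have le : N ≤ ψ.range := by
    rcases (Subgroup.normal_subgroupOf (H := N) (N := ψ.range)).eq_bot_or_eq_top with hb | hb
    · have h2 : ψ.range.relIndex N ∣ 2 := iR ▸ Subgroup.relIndex_dvd_index_of_normal _ _
      rw [Subgroup.relIndex, hb, Subgroup.index_bot, cN] at h2
      omega
    · exact Subgroup.subgroupOf_eq_top.1 hb
  have eq : N = ψ.range := Subgroup.eq_of_le_of_card_ge le (by rw [cN, cR])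
  exact ⟨((MonoidHom.ofInjective hψ).trans (MulEquiv.subgroupCongr eq.symm)).trans (eN.symm.trans HS.iso.some.symm)⟩

theorem main {Ω : Type*} [Fintype Ω] [DecidableEq Ω] (hΩ : Fintype.card Ω = 100) {G : Type*} [Group G] [Finite G] [MulAction G Ω]
    [FaithfulSMul G Ω] [IsPretransitive G Ω] (a : Ω) (hK : Nat.card (stabilizer G a) = 443520) (b c : Ω)
    (hb : (orbit (stabilizer G a) b).ncard = 22) (hc : (orbit (stabilizer G a) c).ncard = 77) : Spor.IsoHS G := by
  have hG : Nat.card G = 44352000 := by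
    rw [← (stabilizer G a).card_mul_index, index_stabilizer_of_transitive, hK, Nat.card_eq_fintype_card, hΩ]
  have na : ∀ x, a ∈ orbit (stabilizer G a) x → (orbit (stabilizer G a) x).ncard = 1 := fun x hx => by
    rw [← orbit_eq_iff.2 hx, Set.ncard_eq_one]
    refine ⟨a, Set.eq_singleton_iff_unique_mem.2 ⟨mem_orbit_self _, ?_⟩⟩
    rintro _ ⟨k, rfl⟩; exact k.2
  have nb : a ∉ orbit (stabilizer G a) b := fun h => by have := na b h; omega
  have nc : a ∉ orbit (stabilizer G a) c := fun h => by have := na c h; omega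
  have dj : Disjoint (orbit (stabilizer G a) b) (orbit (stabilizer G a) c) := Set.disjoint_left.2 fun x h1 h2 => by
    rw [← orbit_eq_iff.2 h1, orbit_eq_iff.2 h2] at hb; omega
  have cov : ∀ x, x = a ∨ x ∈ orbit (stabilizer G a) b ∨ x ∈ orbit (stabilizer G a) c := fun x => by
    have : insert a (orbit (stabilizer G a) b ∪ orbit (stabilizer G a) c) = Set.univ := by
      refine (Set.eq_univ_iff_ncard _).2 ?_
      rw [Set.ncard_insert_of_notMem (by simp [nb, nc]), Set.ncard_union_eq dj, hb, hc, Nat.card_eq_fintype_card, hΩ]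
    have h : x ∈ insert a (orbit (stabilizer G a) b ∪ orbit (stabilizer G a) c) := this ▸ Set.mem_univ x
    exact h
  obtain ⟨g, hg⟩ := exists_smul_eq G b a
  have hg' : g⁻¹ • a = b := by rw [← hg, inv_smul_smul]
  have hu : g • a ∈ orbit (stabilizer G a) b := by
    rcases cov (g • a) with h | h | h
    · exact absurd (smul_left_cancel g (h.trans hg.symm) ▸ mem_orbit_self _) nb
    · exact h
    exfalso
    let f : stabilizer (stabilizer G a) b → stabilizer (stabilizer G a) (g • a) := fun y =>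
      ⟨⟨g * y.1.1 * g⁻¹, by
        have : y.1.1 • b = b := y.2
        rw [mem_stabilizer_iff, mul_smul, mul_smul, hg', this, hg]⟩, by
        have : y.1.1 • a = a := y.1.2
        show (g * y.1.1 * g⁻¹) • g • a = g • a
        rw [mul_smul, mul_smul, inv_smul_smul, this]⟩
    have fi : Function.Injective f := fun y z e => by
      have : g * y.1.1 * g⁻¹ = g * z.1.1 * g⁻¹ := congrArg (fun t => t.1.1) e
      exact Subtype.ext (Subtype.ext (by simpa using this))
    have h1 := Nat.card_le_card_of_injective f fi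
    have h2 := (stabilizer (stabilizer G a) b).card_mul_index
    have h3 := (stabilizer (stabilizer G a) (g • a)).card_mul_index
    rw [index_stabilizer, hb, hK] at h2
    rw [index_stabilizer, orbit_eq_iff.2 h, hc, hK] at h3
    omega
  obtain ⟨k, hk⟩ := hu
  have hk1 : k.1⁻¹ • g • a = b := by rw [← hk]; exact inv_smul_smul k.1 b
  have hk2 : k.1⁻¹ • a = a := (k⁻¹).2
  let Γ : SimpleGraph Ω :=
    { Adj := fun u v => ∃ h : G, h • a = u ∧ h • b = v
      symm := ⟨by
        rintro _ _ ⟨h, rfl, rfl⟩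
        exact ⟨h * k.1⁻¹ * g, by rw [mul_smul, mul_smul, hk1], by rw [mul_smul, mul_smul, hg, hk2]⟩⟩
      loopless := ⟨by
        rintro _ ⟨h, rfl, e⟩
        exact nb (smul_left_cancel h e ▸ mem_orbit_self _)⟩ }
  have inv : ∀ (h : G) u v, Γ.Adj (h • u) (h • v) ↔ Γ.Adj u v := fun h u v =>
    ⟨fun ⟨x, e1, e2⟩ => ⟨h⁻¹ * x, by rw [mul_smul, e1, inv_smul_smul], by rw [mul_smul, e2, inv_smul_smul]⟩,
     fun ⟨x, e1, e2⟩ => ⟨h * x, by rw [mul_smul, e1], by rw [mul_smul, e2]⟩⟩
  let φ : G →* (Γ ≃g Γ) := MonoidHom.mk' (fun h => ⟨toPerm h, fun {u v} => inv h u v⟩) fun h h' => by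
    ext v; exact mul_smul h h' v
  have hφ : Function.Injective φ := fun h h' e => eq_of_smul_eq_smul (α := Ω) fun v => congrArg (fun x : Γ ≃g Γ => x v) e
  have cn : ∀ (h : G) u v, Fintype.card (Γ.commonNeighbors (h • u) (h • v)) = Fintype.card (Γ.commonNeighbors u v) := fun h u v =>
    (Fintype.card_congr (Equiv.subtypeEquiv (toPerm h) fun w => by
      simp only [SimpleGraph.mem_commonNeighbors, toPerm_apply, inv])).symm
  have ada : ∀ v, Γ.Adj a v ↔ v ∈ orbit (stabilizer G a) b := fun v =>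
    ⟨fun ⟨x, e1, e2⟩ => ⟨⟨x, e1⟩, e2⟩, fun ⟨x, e⟩ => ⟨x.1, x.2, e⟩⟩
  have srg : Γ.IsSRGWith 100 22 (Fintype.card (Γ.commonNeighbors a b)) (Fintype.card (Γ.commonNeighbors a c)) := by
    refine ⟨hΩ, fun u => ?_, ?_, fun u v h1 h2 => ?_⟩
    · obtain ⟨h, rfl⟩ := exists_smul_eq G a u
      have e1 : Γ.degree (h • a) = Γ.degree a := (φ h).degree_eq a
      rw [e1, ← hb, ← SimpleGraph.card_neighborSet_eq_degree, ← Nat.card_eq_fintype_card, Nat.card_coe_set_eq]
      congr 1; ext v; exact ada v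
    · rintro _ _ ⟨h, rfl, rfl⟩; exact cn h a b
    · obtain ⟨h, rfl⟩ := exists_smul_eq G a u
      obtain ⟨w, rfl⟩ : ∃ w, h • w = v := ⟨h⁻¹ • v, smul_inv_smul _ _⟩
      rw [inv, ada] at h2
      rcases cov w with rfl | h3 | ⟨x, rfl⟩
      · exact absurd rfl h1
      · exact absurd h3 h2
      · rw [cn, ← cn x.1 a c, show x.1 • a = a from x.2]; rfl
  exact fin (par srg) φ hφ hG

end H8.HSR
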