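import Cfsg.Agent.H8.StC

/-! H8.Hyp: hyperovals of the plane of order 4 -/

set_option autoImplicit false
set_option maxRecDepth 200000
set_option linter.all false
open Subgroup Cfsg Pointwise

namespace H8.Hyp

noncomputable def arc (Y : ℕ) : Bool := allL StA.pL fun m => Nat.ble (H7.pc24 (Nat.land m Y)) 2
noncomputable def HL : List ℕ := [nat_lit 797, nat_lit 1319, nat_lit 1594, nat_lit 4536, nat_lit 4773, nat_lit 6018, nat_lit 10787, nat_lit 11289, nat_lit 12036, nat_lit 14470, nat_lit 16601, nat_lit 17348, nat_lit 20833, nat_lit 21574, nat_lit 27840, nat_lit 35041, nat_lit 39492, nat_lit 41666, nat_lit 46400, nat_lit 51256, nat_lit 52738, nat_lit 55680, nat_lit 57606, nat_lit 58401, nat_lit 67881, nat_lit 68148, nat_lit 68622, nat_lit 71825, nat_lit 73751, nat_lit 74506, nat_lit 75056, nat_lit 78984, nat_lit 88136, nat_lit 98760, nat_lit 102512, nat_lit 114961, nat_lit 115212, nat_lit 133540, nat_lit 134275, nat_lit 137244, nat_lit 137985,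 nat_lit 139418, nat_lit 140960, nat_lit 143650, nat_lit 144389, nat_lit 150112, nat_lit 155715, nat_lit 164165, nat_lit 164440, nat_lit 164962, nat_lit 180865, nat_lit 184356, nat_lit 196749, nat_lit 197520, nat_lit 201256, nat_lit 201746, nat_lit 213076, nat_lit 262896, nat_lit 263370, nat_lit 266325, nat_lit 267080, nat_lit 278836, nat_lit 279081, nat_lit 279571, nat_lit 282764, nat_lit 288778, nat_lit 297228, nat_lit 297489, nat_lit 303154, nat_lit 304648, nat_lit 329924, nat_lit 340034, nat_lit 346880, nat_lit 353284, nat_lit 360485, nat_lit 361730, nat_lit 365184, nat_lit 395337, nat_lit 402512, nat_lit 411792, nat_lit 426152, nat_lit 430352, nat_lit 459104, nat_lit 479233, nat_lit 524487, nat_lit 525792, nat_lit 528994, nat_lit 529496, nat_lit 538689, nat_lit 540702, nat_lit 541443, nat_lit 542244, nat_lit 545921, nat_lit 551200, nat_lit 559142, nat_lit 560385, nat_lit 565528, nat_lit 565765, nat_lit 569504, nat_lit 598224, nat_lit 609296,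 nat_lit 614409, nat_lit 623122, nat_lit 623656, nat_lit 658500, nat_lit 664384, nat_lit 677890, nat_lit 680068, nat_lit 688514, nat_lit 693760, nat_lit 720970, nat_lit 786730, nat_lit 787469, nat_lit 788240, nat_lit 790674, nat_lit 796692, nat_lit 854019, nat_lit 860704, nat_lit 929800, nat_lit 984192, nat_lit 1048974, nat_lit 1049235, nat_lit 1049769, nat_lit 1052726, nat_lit 1053969, nat_lit 1054220, nat_lit 1058992, nat_lit 1063176, nat_lit 1065546, nat_lit 1066096, nat_lit 1084488, nat_lit 1089617, nat_lit 1106056, nat_lit 1117568, nat_lit 1120770, nat_lit 1122948, nat_lit 1126433, nat_lit 1139008, nat_lit 1146950, nat_lit 1168384, nat_lit 1181738, nat_lit 1183248, nat_lit 1188116, nat_lit 1188361, nat_lit 1228818, nat_lit 1245443, nat_lit 1246244, nat_lit 1310819, nat_lit 1312068, nat_lit 1321536, nat_lit 1328768, nat_lit 1331458, nat_lit 1345666, nat_lit 1355780, nat_lit 1466400, nat_lit 1475585, nat_lit 1573193, nat_lit 1573460, nat_lit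 1589648, nat_lit 1593384, nat_lit 1611792, nat_lit 1640544, nat_lit 1671297, nat_lit 1736716, nat_lit 1786368, nat_lit 1835172, nat_lit 1839617, nat_lit 1968384]
theorem hm : mskC 21 HL = true := by decide +kernel
theorem c4 : cnS (H7.ones 21) arc 21 4 0 = 2520 := by decide +kernel
theorem e6 : enS (H7.ones 21) (fun Y => bor (bnot (arc Y)) (memL HL Y)) 21 6 0 = true := by decide +kernel
theorem h6 : allL HL (fun m => band (Nat.beq (H7.pc24 m) 6) (arc m)) = true := by decide +kernel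
theorem e4 : enS (H7.ones 21) (fun Y => bor (bnot (arc Y)) (Nat.beq (cntL HL fun m => Nat.beq (Nat.land m Y) Y) 1)) 21 4 0 = true := by
  decide +kernel
theorem sec : allL HL (fun m => allB 21 fun p => bor (H7.tb m p) (anyL StA.pL fun a => band (H7.tb a p) (band (Nat.beq (H7.pc24 (Nat.land a m)) 2)
    (anyL StA.pL fun b => band (Nat.beq (Nat.land a b) (H7.bit p)) (Nat.beq (H7.pc24 (Nat.land b m)) 2))))) = true := by decide +kernel

variable {X : Type*} [Fintype X] [DecidableEq X] {C : H7.Coding X}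

theorem arc_iff (hn : C.n = 21) {Y : ℕ} (hY : Y < 2 ^ 21) : (∀ l ∈ blk C StA.pL, (l ∩ C.fs Y).card ≤ 2) ↔ arc Y = true := by
  rw [forall_blk, arc, allL_iff]
  refine forall₂_congr fun m _ => ?_
  rw [card_inter' hn (by norm_num) m hY, Nat.ble_eq]; rfl

theorem hyp_iff (hn : C.n = 21) (H : Finset X) : (H.card = 6 ∧ ∀ l ∈ blk C StA.pL, (l ∩ H).card ≤ 2) ↔ H ∈ blk C HL := by
  refine ⟨fun h => ?_, ?_⟩
  · obtain ⟨Y, hY, rfl, e⟩ := enS_all hn e6 h.1
    rw [bor_eq_true, bnot_eq_true, (arc_iff hn hY).1 h.2, memL_iff] at e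
    exact ⟨Y, e.resolve_left (by simp), rfl⟩
  · rintro ⟨m, h, rfl⟩
    have := allL_iff.1 h6 m h
    rw [band_eq_true, Nat.beq_eq] at this
    have hm' := msk_lt hm m h
    exact ⟨(card_fs' hn (by norm_num) hm').trans this.1, (arc_iff hn hm').2 this.2⟩

theorem card6 (hn : C.n = 21) : {H : Finset X | H.card = 6 ∧ ∀ l ∈ blk C StA.pL, (l ∩ H).card ≤ 2}.ncard = 168 := by
  rw [show {H : Finset X | H.card = 6 ∧ ∀ l ∈ blk C StA.pL, (l ∩ H).card ≤ 2} = blk C HL from Set.ext (hyp_iff hn),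
    ncard_blk (hn ▸ msk_lt hm) (msk_nodup hm)]
  decide +kernel

theorem card4 (hn : C.n = 21) : {H : Finset X | H.card = 4 ∧ ∀ l ∈ blk C StA.pL, (l ∩ H).card ≤ 2}.ncard = 2520 :=
  (ncard_cnS hn (H7.ones 21) 4 arc fun Y hY => by
    rw [Set.mem_setOf_eq, arc_iff hn hY, fs_ones' hn]; simp).trans c4

theorem ext4 (hn : C.n = 21) (S : Finset X) (h : S.card = 4 ∧ ∀ l ∈ blk C StA.pL, (l ∩ S).card ≤ 2) :
    ∃! H : Finset X, (H.card = 6 ∧ ∀ l ∈ blk C StA.pL, (l ∩ H).card ≤ 2) ∧ S ⊆ H := by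
  obtain ⟨Y, hY, rfl, e⟩ := enS_all hn e4 h.1
  rw [bor_eq_true, bnot_eq_true, (arc_iff hn hY).1 h.2, Nat.beq_eq, cntL_eq, List.length_eq_one_iff] at e
  obtain ⟨a, ha⟩ := e.resolve_left (by simp)
  have k : ∀ m, m ∈ HL ∧ C.fs Y ⊆ C.fs m ↔ m = a := fun m => by
    rw [← List.mem_singleton, ← ha, List.mem_filter, sub_fs hn hY, Nat.beq_eq]; rfl
  have k1 := (k a).2 rfl
  refine ⟨C.fs a, ⟨(hyp_iff hn _).2 ⟨a, k1.1, rfl⟩, k1.2⟩, fun H hH => ?_⟩
  obtain ⟨m, h1, rfl⟩ := (hyp_iff hn _).1 hH.1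
  rw [(k m).1 ⟨h1, hH.2⟩]

theorem fix_line {L : Set (Finset X)} (hL : IsSteinerSystem 2 5 L) {g : Equiv.Perm X} (hg : g • L = L) {H l : Finset X} (hl : l ∈ L)
    (h : ∀ x ∈ H, g x = x) (c : (l ∩ H).card = 2) : g • l = l := by
  refine (hL.2 _ c).unique ⟨hg ▸ Set.smul_mem_smul_set hl, fun x hx => ?_⟩ ⟨hl, Finset.inter_subset_left⟩
  rw [Finset.mem_inter] at hx
  rw [← h x hx.2]
  exact Finset.smul_mem_smul_finset hx.1

theorem rigid (hn : C.n = 21) (hL : IsSteinerSystem 2 5 (blk C StA.pL)) {g : Equiv.Perm X} (hg : g • blk C StA.pL = blk C StA.pL)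
    {H : Finset X} (hH : H ∈ blk C HL) (h : ∀ x ∈ H, g x = x) : g = 1 := by
  obtain ⟨m, hm', rfl⟩ := hH
  have lt := msk_lt hm m hm'
  ext x
  obtain ⟨p, hp, rfl⟩ := exists_dec hn x
  have := allB_iff.1 (allL_iff.1 sec m hm') p hp
  simp only [bor_eq_true, anyL_iff, band_eq_true, Nat.beq_eq, H7.tb_eq] at this
  rcases this with e | ⟨a, ha, -, a2, b, hb, e, b2⟩
  · exact h _ ((dec_mem hn hp).2 e)
  have fa := fix_line hL hg ⟨a, ha, rfl⟩ h ((card_inter' hn (by norm_num) a lt).trans a2)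
  have fb := fix_line hL hg ⟨b, hb, rfl⟩ h ((card_inter' hn (by norm_num) b lt).trans b2)
  have e1 : C.fs a ∩ C.fs b = {C.dec p} := by
    rw [← fs_bit' hn hp, ← H7.Coding.fs_and]
    exact congrArg C.fs (e.trans (by simp [H7.bit, Nat.shiftLeft_eq]))
  have e2 : g • (C.fs a ∩ C.fs b) = C.fs a ∩ C.fs b := by rw [Finset.smul_finset_inter, fa, fb]
  rw [e1, Finset.smul_finset_singleton, Finset.singleton_inj] at e2
  exact e2

theorem extend (hn : C.n = 21) (hL : IsSteinerSystem 2 5 (blk C StA.pL)) (H : Finset X)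
    (hH : H.card = 6 ∧ ∀ l ∈ blk C StA.pL, (l ∩ H).card ≤ 2) (σ : Equiv.Perm H) :
    ∃! g : Equiv.Perm X, g ∈ setSystemAut (blk C StA.pL) ∧ ∀ p : H, g p = σ p := by
  have un : ∀ g ∈ setSystemAut (blk C StA.pL), ∀ g' ∈ setSystemAut (blk C StA.pL), (∀ x ∈ H, g x = g' x) → g = g' := fun g hg g' hg' h =>
    (inv_mul_eq_one.1 (rigid hn hL (mul_mem (inv_mem hg') hg) ((hyp_iff hn H).1 hH) fun x hx => by
      rw [Equiv.Perm.mul_apply, h x hx]; simp)).symm
  let K := MulAction.stabilizer (setSystemAut (blk C StA.pL)) H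
  have hk : ∀ g : K, ∀ x, (g.1.1 : Equiv.Perm X) x ∈ H ↔ x ∈ H := fun g x => by
    have e : (g.1.1 : Equiv.Perm X) • H = H := g.2
    conv_lhs => rw [← e]
    exact Finset.smul_mem_smul_finset_iff _
  let f : K → Equiv.Perm H := fun g => g.1.1.subtypePerm (hk g)
  have fi : Function.Injective f := fun g g' e => Subtype.ext (Subtype.ext (un _ g.1.2 _ g'.1.2 fun x hx =>
    congrArg Subtype.val (Equiv.congr_fun e ⟨x, hx⟩)))
  have c1 : Nat.card (setSystemAut (blk C StA.pL)) = 120960 := (StC.pch hn).card.trans (by decide +kernel)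
  have c2 : (MulAction.orbit (setSystemAut (blk C StA.pL)) H).ncard ≤ 168 := by
    rw [← card6 hn]
    refine Set.ncard_le_ncard ?_ (Set.toFinite _)
    rintro _ ⟨g, rfl⟩
    refine ⟨(Finset.card_smul_finset _ _).trans hH.1, fun l hl => ?_⟩
    have e : (g.1 : Equiv.Perm X) • blk C StA.pL = blk C StA.pL := g.2
    rw [← e] at hl
    obtain ⟨l', hl', rfl⟩ := hl
    show (g.1 • l' ∩ g.1 • H).card ≤ 2
    rw [← Finset.smul_finset_inter, Finset.card_smul_finset]
    exact hH.2 l' hl'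
  have c3 := K.card_mul_index
  rw [MulAction.index_stabilizer, c1] at c3
  have c4 : Nat.card (Equiv.Perm H) ≤ Nat.card K := by
    rw [Nat.card_perm, Nat.card_eq_fintype_card, Fintype.card_coe, hH.1]
    by_contra! hc
    have : Nat.card K ≤ 719 := Nat.le_of_lt_succ hc
    have := Nat.mul_le_mul this c2
    omega
  obtain ⟨g, hg⟩ := (fi.bijective_of_nat_card_le c4).2 σ
  have k : ∀ p : H, g.1.1 p = σ p := fun p => congrArg Subtype.val (Equiv.congr_fun hg p)
  exact ⟨g.1.1, ⟨g.1.2, k⟩, fun g' h => un _ h.1 _ g.1.2 fun x hx => (h.2 ⟨x, hx⟩).trans (k ⟨x, hx⟩).symm⟩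

end H8.Hyp
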