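import Cfsg.Agent.H8.LeSt

/-! H8.LeHom: words in packed matrices (`mw`, `Cd.mw`), `iso_hom` (a simple permutation model with matrices satisfying its
relators is a vector stabiliser), `list_eq`, orders `cU62, cU43, cU35`. -/

set_option autoImplicit false
set_option linter.all false

noncomputable section
namespace H8.Le
open Cfsg MulAction Finset
open H7 hiding band bor allL allL_iff

def mw (T : ℕ → ℕ) (w : List ℕ) : ℕ := List.rec IDM (fun y _ r => frc r fun r => mul 24 (T y) r) w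

theorem Cd.mw {T : ℕ → ℕ} {e : ℕ → Co0} (h : ∀ y, Cd (T y) (e y)) (w : List ℕ) : Cd (mw T w) (ev e w) := by
  induction w with
  | nil => exact cd_one
  | cons y w ih =>
    have : Le.mw T (y :: w) = frc (Le.mw T w) fun r => Le.mul 24 (T y) r := rfl
    rw [this, frc_eq, ev_cons]
    exact (h y).mul ih

theorem Cd.ne {G H j : ℕ} {g h : Co0} (hg : Cd G g) (hh : Cd H h) (hj : j < 24)
    (e : Nat.beq (col G j) (col H j) = false) : g ≠ h := by
  rintro rfl
  have := (hg (pt j)).symm.trans (hh (pt j))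
  rw [code_pt hj] at this
  rw [col_of_vec this, Nat.beq_refl] at e
  exact absurd e (by decide)

theorem hom_of_mats {P : Type*} [Group P] [Finite P] {X : Type*} [MulAction P X] {n k m : ℕ} {pt : ℕ → X} {T : Tr ℕ}
    {RL : Tr (List ℕ)} {Ls : List Lev} (S : Std P n k m pt T RL Ls) {c F : ℕ} (hF : Good c F)
    (MS : Tr ℕ) (h1 : MS.all (fxChk c F) = true) (h2 : RL.all (fun r => Nat.beq (mw MS.get r) IDM) = true)
    (K : Subgroup Co0) (hK : Fix c F ≤ K) : ∃ φ : P →* K, ∀ y < topN Ls, Cd (MS.get y) (φ (S.lets.e y)) := by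
  choose e he hc using fun y => fxChk_spec hF (Tr.all_get h1 y)
  obtain ⟨φ, hφ⟩ := S.hom (W := K) (fun y => ⟨e y, hK (he y)⟩) fun i => Subtype.ext (by
    rw [← K.coe_subtype, map_ev]
    exact (Cd.mw hc _).eq (by rw [Nat.eq_of_beq_eq_true (Tr.all_get h2 i)]; exact cd_one))
  exact ⟨φ, fun y hy => by rw [hφ y hy]; exact hc y⟩

theorem iso_hom {P : Type*} [Group P] [Finite P] {X : Type*} [MulAction P X] {n k m : ℕ} {pt : ℕ → X} {T : Tr ℕ}
    {RL : Tr (List ℕ)} {Ls : List Lev} (S : Std P n k m pt T RL Ls) (hs : IsSimpleGroup P) {c F : ℕ} (hF : Good c F)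
    (MS : Tr ℕ) (j : ℕ) (h1 : MS.all (fxChk c F) = true) (h2 : RL.all (fun r => Nat.beq (mw MS.get r) IDM) = true)
    (h3 : 0 < topN Ls ∧ j < 24 ∧ Nat.beq (col (MS.get 0) j) (col IDM j) = false)
    (K : Subgroup Co0) (hK : Fix c F ≤ K) (hc : Nat.card K ≤ Nat.card P) : Nonempty (K ≃* P) := by
  obtain ⟨φ, hφ⟩ := hom_of_mats S hF MS h1 h2 K hK
  have hi : Function.Injective φ := by
    rcases hs.eq_bot_or_eq_top_of_normal φ.ker inferInstance with h | h
    · exact (MonoidHom.ker_eq_bot_iff φ).1 h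
    · have : φ (S.lets.e 0) = 1 := (h ▸ Subgroup.mem_top _ : _ ∈ φ.ker)
      exact absurd (congrArg Subtype.val this) ((hφ 0 h3.1).ne cd_one h3.2.1 h3.2.2)
  exact ⟨(MulEquiv.ofBijective φ (hi.bijective_of_nat_card_le hc)).symm⟩

theorem list_eq {n H : ℕ} {Q : ℤ → ℤ → ℤ → Bool}
    (h1 : allR 0 n (vchk H 32 fun a b s => Q (4 * (a + b)) (4 * (a - b)) (-4 * a - s)) = true)
    (h2 : srtR n H 0 n = true) (h3 : cq Q = n) : Good n H ∧ ∀ x ∈ Sq Q, ∃ a < n, vL H a = x := by
  have g := good_of (by norm_num) h1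
  refine ⟨g, ?_⟩
  have s : (((range n).image (vL H) : Finset Λ) : Set Λ) ⊆ Sq Q := fun x hx => by
    obtain ⟨a, ha, rfl⟩ := mem_image.1 (mem_coe.1 hx)
    have := vchk_spec (by norm_num) (allR_iff.1 h1 a (Nat.zero_le _) (by simpa using ha))
    rw [Sq, Set.mem_setOf_eq, dot_u, dot_u', dot_v, vL_coe this.1]
    exact this.2
  have := Set.eq_of_subset_of_ncard_le s (by
    rw [Sq_card, h3, Set.ncard_coe_finset, card_image_of_injOn, card_range]
    intro a ha b hb e
    have ha := mem_range.1 (mem_coe.1 ha)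
    have hb := mem_range.1 (mem_coe.1 hb)
    exact srt_inj h2 ha hb (by rw [← vL_coe (g a ha).1, e, vL_coe (g b hb).1])) (Sq_fin _)
  intro x hx
  rw [← this] at hx
  simpa using hx

theorem cU62 : Nat.card ↥(K2 ⊓ stabilizer Co0 x16) = 9196830720 := by
  have := card_eq_orbit_mul K2 x16
  rw [or_a16, c_a16, cK2] at this; omega
theorem cU43 : Nat.card ↥(KM ⊓ stabilizer Co0 x16) = 3265920 := by
  have := card_eq_orbit_mul KM x16
  rw [or_275, c_275, cKM] at this; omega
theorem cU35 : Nat.card ↥(KH ⊓ stabilizer Co0 x352) = 126000 := by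
  have := card_eq_orbit_mul KH x352
  rw [or_352, c_352, cKH] at this; omega

end H8.Le
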