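import Cfsg.Prelude.Def_Sporadic
import Cfsg.Agent.H8.LeNF
import Cfsg.Agent.H8.SCo2
import Cfsg.Agent.H8.SCo3
import Cfsg.Agent.H8.SMcL
import Cfsg.Agent.H8.SHS
import Cfsg.Agent.H8.XHS

/-! H8.LeSt: counting and transitivity statements for configurations of short vectors of the Leech lattice
(`D1, D2, D3`, `s0402 … s1641`). -/

set_option autoImplicit false
set_option linter.all false

noncomputable section
namespace H8.Le
open Cfsg MulAction Finset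
open H7 hiding band bor allL allL_iff

def D1 (a : Λ) (c : ℤ) : Set Λ := {x | sqNorm (x : V) = 32 ∧ dotInt (a : V) x = c}
def D2 (a b : Λ) (c d : ℤ) : Set Λ := {x | sqNorm (x : V) = 32 ∧ dotInt (a : V) x = c ∧ dotInt (b : V) x = d}
def D3 (a b s : Λ) (c d e : ℤ) : Set Λ :=
  {x | sqNorm (x : V) = 32 ∧ dotInt (a : V) x = c ∧ dotInt (b : V) x = d ∧ dotInt (s : V) x = e}

theorem D1u (g : Co0) (c : ℤ) : (D1 (g • u) c).ncard = (Sq (Qa c)).ncard :=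
  ncard_conj g fun x => by simp only [D1, Set.mem_setOf_eq, mem_Qa, norm_smul', dot_smul]
theorem D1v (g : Co0) (c : ℤ) : (D1 (g • v) c).ncard = (Sq (Qc c)).ncard :=
  ncard_conj g fun x => by simp only [D1, Set.mem_setOf_eq, mem_Qc, norm_smul', dot_smul]
theorem D2M (g : Co0) (c d : ℤ) : (D2 (g • u) (g • v) c d).ncard = (Sq (Qac c d)).ncard :=
  ncard_conj g fun x => by simp only [D2, Set.mem_setOf_eq, mem_Qac, norm_smul', dot_smul]
theorem D2H (g : Co0) (c d : ℤ) : (D2 (g • u') (g • v) c d).ncard = (Sq (Qbc c d)).ncard :=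
  ncard_conj g fun x => by simp only [D2, Set.mem_setOf_eq, mem_Qbc, norm_smul', dot_smul]
theorem D3S (g : Co0) (c d e : ℤ) : (D3 (g • u) (g • u') (g • v) c d e).ncard = (Sq (Qabc c d e)).ncard :=
  ncard_conj g fun x => by simp only [D3, Set.mem_setOf_eq, mem_Qabc, norm_smul', dot_smul]

theorem cardV (P : V → Prop) : {x : V | x ∈ Λ ∧ P x}.ncard = {x : Λ | P x}.ncard := by
  rw [← Set.ncard_image_of_injective _ Subtype.val_injective]
  congr 1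
  ext x
  exact ⟨fun h => ⟨⟨x, h.1⟩, h.2, rfl⟩, by rintro ⟨y, hy, rfl⟩; exact ⟨y.2, hy⟩⟩

theorem stab_neg (a : Λ) : stabilizer Co0 (-a) = stabilizer Co0 a := Subgroup.ext fun g => by
  simp only [mem_stabilizer_iff, smul_neg', neg_inj]
theorem stab_add (a b : Λ) : stabilizer Co0 a ⊓ stabilizer Co0 (a + b) = stabilizer Co0 a ⊓ stabilizer Co0 b :=
  Subgroup.ext fun g => by
    simp only [Subgroup.mem_inf, mem_stabilizer_iff, smul_add']
    exact ⟨fun h => ⟨h.1, by simpa [h.1] using h.2⟩, fun h => ⟨h.1, by rw [h.1, h.2]⟩⟩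

theorem ci2 (g : Co0) (a b : Λ) : Nonempty (↥(stabilizer Co0 (g • a) ⊓ stabilizer Co0 (g • b)) ≃*
    ↥(stabilizer Co0 a ⊓ stabilizer Co0 b)) :=
  conj_iso g _ _ fun x => by simp only [Subgroup.mem_inf, stab_conj]
theorem ci3 (g : Co0) (a b c : Λ) : Nonempty (↥(stabilizer Co0 (g • a) ⊓ stabilizer Co0 (g • b) ⊓
    stabilizer Co0 (g • c)) ≃* ↥(stabilizer Co0 a ⊓ stabilizer Co0 b ⊓ stabilizer Co0 c)) :=
  conj_iso g _ _ fun x => by simp only [Subgroup.mem_inf, stab_conj]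

theorem simple_of {A B : Type*} [Group A] [Group B] (e : Nonempty (A ≃* B)) (h : IsSimpleGroup B) {n : ℕ}
    (hn : Nat.card B = n) : IsSimpleGroup A ∧ Nat.card A = n :=
  ⟨e.some.isSimpleGroup, (Nat.card_congr e.some.toEquiv).trans hn⟩

theorem sK2 : IsSimpleGroup K2 := (simple_of Co2.isoK Co2.simple rfl).1
theorem sK3 : IsSimpleGroup K3 := (simple_of Co3.isoK Co3.simple rfl).1
theorem sKM : IsSimpleGroup KM := (simple_of McL.isoK McL.simple rfl).1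
theorem sKH : IsSimpleGroup KH := (simple_of HS.isoK HS.simple rfl).1

variable {a b x y : Λ}

theorem s0402 (h : sqNorm (a : V) = 32) : IsCo2 (stabilizer Co0 a) := by
  obtain ⟨g, rfl⟩ := nf32 h
  exact simple_of (conj_iso g K2 _ fun x => stab_conj g x u) sK2 cK2
theorem s0403 (h : sqNorm (a : V) = 48) : IsCo3 (stabilizer Co0 a) := by
  obtain ⟨g, rfl⟩ := nf48 h
  exact simple_of (conj_iso g K3 _ fun x => stab_conj g x v) sK3 cK3

/-- McLaughlin configuration given by two minimal vectors -/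
theorem cfM (ha : sqNorm (a : V) = 32) (hb : sqNorm (b : V) = 32) (h : dotInt (a : V) b = -8) :
    sqNorm ((-(a + b) : Λ) : V) = 48 ∧ dotInt ((-(a + b) : Λ) : V) a = -24 := by
  have := dot_comm (a : V) b
  simp only [AddSubgroup.coe_neg, AddSubgroup.coe_add, norm_neg, norm_add, neg_dot, add_dot, dot_self]
  omega
/-- Higman-Sims configuration -/
theorem cfH (ha : sqNorm (a : V) = 48) (hb : sqNorm (b : V) = 48) (h : dotInt (a : V) b = -32) :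
    sqNorm ((-a : Λ) : V) = 48 ∧ sqNorm ((a + b : Λ) : V) = 32 ∧ dotInt ((-a : Λ) : V) (a + b : Λ) = -16 := by
  simp only [AddSubgroup.coe_neg, AddSubgroup.coe_add, norm_neg, norm_add, neg_dot, dot_add, dot_self]
  omega
/-- McLaughlin configuration given by a decomposition -/
theorem cfN (ha : sqNorm (a : V) = 48) (hb : sqNorm (b : V) = 32 ∧ sqNorm ((a : V) - (b : V)) = 32) :
    sqNorm ((-a : Λ) : V) = 48 ∧ dotInt ((-a : Λ) : V) b = -24 := by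
  simp only [AddSubgroup.coe_neg, norm_neg, neg_dot, norm_sub] at *
  omega

theorem s0404 (ha : sqNorm (a : V) = 32) (hb : sqNorm (b : V) = 32) (h : dotInt (a : V) b = -8) :
    IsMcL ↥(stabilizer Co0 a ⊓ stabilizer Co0 b) := by
  obtain ⟨g, e1, e2⟩ := nf3 or_c24 (cfM ha hb h).1 ha (cfM ha hb h).2
  rw [← stab_add, ← stab_neg (a + b), ← e1, ← e2, inf_comm]
  exact simple_of (ci2 g v u) sKM cKM
theorem s0405 (ha : sqNorm (a : V) = 48) (hb : sqNorm (b : V) = 48) (h : dotInt (a : V) b = -32) :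
    IsHS ↥(stabilizer Co0 a ⊓ stabilizer Co0 b) := by
  obtain ⟨g, e1, e2⟩ := nf3 or_c16 (cfH ha hb h).1 (cfH ha hb h).2.1 (cfH ha hb h).2.2
  rw [← stab_add, ← stab_neg a, ← e1, ← e2]
  exact simple_of (ci2 g v u') sKH cKH

theorem s1573 (w : V) (hw : w ∈ Λ) (hn : sqNorm w = 32) :
    {y : V | y ∈ Λ ∧ sqNorm y = 32 ∧ dotInt w y = -16}.ncard = 4600 ∧
    {y : V | y ∈ Λ ∧ sqNorm y = 32 ∧ dotInt w y = -8}.ncard = 47104 ∧
    {y : V | y ∈ Λ ∧ sqNorm y = 32 ∧ dotInt w y = 0}.ncard = 93150 := by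
  obtain ⟨g, e⟩ := nf32 (x := ⟨w, hw⟩) hn
  have k : ∀ c, {y : V | y ∈ Λ ∧ sqNorm y = 32 ∧ dotInt w y = c}.ncard = cq (Qa c) := fun c => by
    rw [cardV, ← Sq_card, ← D1u g, e]; rfl
  simp only [k]
  decide +kernel

theorem trN {x0 : Λ} {c : ℤ} (h : orbit K2 x0 = Sq (Qa c)) (ha : sqNorm (a : V) = 32) (hx : sqNorm (x : V) = 32)
    (hy : sqNorm (y : V) = 32) (h1 : dotInt (a : V) x = -c) (h2 : dotInt (a : V) y = -c) :
    ∃ g : Co0, g • a = a ∧ g • x = y := by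
  obtain ⟨g, e1, e2⟩ := tr2 (nf2 (y := -x) h ha ((norm_neg _).trans hx) (by simp [dot_neg, h1]))
    (nf2 (y := -y) h ha ((norm_neg _).trans hy) (by simp [dot_neg, h2]))
  exact ⟨g, e1, by simpa [smul_neg'] using e2⟩

theorem s1578 (ha : sqNorm (a : V) = 48) :
    {x : Λ | sqNorm (x : V) = 32 ∧ sqNorm ((a : V) - (x : V)) = 32}.ncard = 552 := by
  obtain ⟨g, e⟩ := nf48 (x := -a) ((norm_neg _).trans ha)
  rw [← c_c24, ← D1v g, e]
  congr 1
  ext x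
  simp only [D1, Set.mem_setOf_eq, AddSubgroup.coe_neg, neg_dot, norm_sub]
  omega

theorem s1579 (ha : sqNorm (a : V) = 48) (hx : sqNorm (x : V) = 32 ∧ sqNorm ((a : V) - (x : V)) = 32)
    (hy : sqNorm (y : V) = 32 ∧ sqNorm ((a : V) - (y : V)) = 32) : ∃ g : Co0, g • a = a ∧ g • x = y := by
  obtain ⟨g, e1, e2⟩ := tr2 (nf3 or_c24 (cfN ha hx).1 hx.1 (cfN ha hx).2) (nf3 or_c24 (cfN ha hy).1 hy.1 (cfN ha hy).2)
  exact ⟨g, by simpa [smul_neg'] using e1, e2⟩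

def TM (a b : Λ) : Set Λ := {x | sqNorm (x : V) = 32 ∧ sqNorm ((a : V) - (x : V)) = 32 ∧ dotInt (b : V) x = 16}
theorem TM_eq (ha : sqNorm (a : V) = 48) : TM a b = D2 b (-a) 16 (-24) := by
  ext x
  simp only [TM, D2, Set.mem_setOf_eq, AddSubgroup.coe_neg, neg_dot, norm_sub]
  omega
theorem nfTM (ha : sqNorm (a : V) = 48) (hb : sqNorm (b : V) = 32 ∧ sqNorm ((a : V) - (b : V)) = 32) (hx : x ∈ TM a b) :
    ∃ g : Co0, g • v = -a ∧ g • u = b ∧ g • x16 = x := by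
  rw [TM_eq ha] at hx
  exact nfM or_275 (cfN ha hb).1 hb.1 (cfN ha hb).2 hx.1 hx.2.1 hx.2.2

theorem s1580 (ha : sqNorm (a : V) = 48) (hb : sqNorm (b : V) = 32 ∧ sqNorm ((a : V) - (b : V)) = 32) :
    (TM a b).ncard = 275 ∧ ∀ x ∈ TM a b, ∀ y ∈ TM a b, ∃ g : Co0, g • a = a ∧ g • b = b ∧ g • x = y := by
  refine ⟨?_, fun x hx y hy => ?_⟩
  · obtain ⟨g, e1, e2⟩ := nf3 or_c24 (cfN ha hb).1 hb.1 (cfN ha hb).2
    rw [TM_eq ha, ← e1, ← e2, D2M, c_275]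
  · obtain ⟨g, e1, e2⟩ := tr3 (nfTM ha hb hx) (nfTM ha hb hy)
    exact ⟨g, by simpa [smul_neg'] using e1, e2⟩

def TH (a b : Λ) (c : ℤ) : Set Λ := {x | sqNorm (x : V) = 32 ∧ dotInt (a : V) x = c ∧ dotInt (b : V) x = -24}
theorem TH_eq (c : ℤ) : TH a b c = D2 (a + b) (-a) (c - 24) (-c) := by
  ext x
  simp only [TH, D2, Set.mem_setOf_eq, AddSubgroup.coe_neg, AddSubgroup.coe_add, neg_dot, add_dot]
  omega
theorem nfTH {x0 : Λ} {c : ℤ} (h0 : orbit KH x0 = Sq (Qbc (c - 24) (-c))) (ha : sqNorm (a : V) = 48)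
    (hb : sqNorm (b : V) = 48) (h : dotInt (a : V) b = -32) (hx : x ∈ TH a b c) :
    ∃ g : Co0, g • v = -a ∧ g • u' = a + b ∧ g • x0 = x := by
  rw [TH_eq] at hx
  exact nfH h0 (cfH ha hb h).1 (cfH ha hb h).2.1 (cfH ha hb h).2.2 hx.1 hx.2.1 hx.2.2
theorem fixH {g : Co0} (e1 : g • (-a) = -a) (e2 : g • (a + b) = a + b) : g • a = a ∧ g • b = b := by
  have : g • a = a := by simpa [smul_neg'] using e1
  exact ⟨this, by simpa [smul_add', this] using e2⟩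
theorem trTH {x0 : Λ} {c : ℤ} (h0 : orbit KH x0 = Sq (Qbc (c - 24) (-c))) (ha : sqNorm (a : V) = 48)
    (hb : sqNorm (b : V) = 48) (h : dotInt (a : V) b = -32) : (TH a b c).ncard = (Sq (Qbc (c - 24) (-c))).ncard ∧
    ∀ x ∈ TH a b c, ∀ y ∈ TH a b c, ∃ g : Co0, g • a = a ∧ g • b = b ∧ g • x = y := by
  refine ⟨?_, fun x hx y hy => ?_⟩
  · obtain ⟨g, e1, e2⟩ := nf3 or_c16 (cfH ha hb h).1 (cfH ha hb h).2.1 (cfH ha hb h).2.2
    rw [TH_eq, ← e1, ← e2, D2H]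
  · obtain ⟨g, e1, e2, e3⟩ := tr3 (nfTH h0 ha hb h hx) (nfTH h0 ha hb h hy)
    exact ⟨g, (fixH e1 e2).1, (fixH e1 e2).2, e3⟩

theorem s1583 (ha : sqNorm (a : V) = 48) (hb : sqNorm (b : V) = 48) (h : dotInt (a : V) b = -32) :
    (TH a b 24).ncard = 100 ∧ ∀ x ∈ TH a b 24, ∀ y ∈ TH a b 24, ∃ g : Co0, g • a = a ∧ g • b = b ∧ g • x = y :=
  ⟨(trTH or_H ha hb h).1.trans c_H, (trTH or_H ha hb h).2⟩

theorem s1585 (ha : sqNorm (a : V) = 48) (hb : sqNorm (b : V) = 48) (h : dotInt (a : V) b = -32) :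
    ∃ g : Co0, g • a = b ∧ g • b = a := by
  have h' := (dot_comm _ _).trans h
  obtain ⟨g, e1, e2⟩ := tr2 (nf3 or_c16 (cfH ha hb h).1 (cfH ha hb h).2.1 (cfH ha hb h).2.2)
    (nf3 or_c16 (cfH hb ha h').1 (cfH hb ha h').2.1 (cfH hb ha h').2.2)
  have : g • a = b := by simpa [smul_neg'] using e1
  exact ⟨g, this, by simpa [smul_add', this] using e2⟩

theorem s1640 (ha : sqNorm (a : V) = 48) : (D1 a (-16)).ncard = 11178 ∧
    ∀ x ∈ D1 a (-16), ∀ y ∈ D1 a (-16), ∃ g : Co0, g • a = a ∧ g • x = y := by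
  refine ⟨?_, fun x hx y hy => tr2 (nf3 or_c16 ha hx.1 hx.2) (nf3 or_c16 ha hy.1 hy.2)⟩
  obtain ⟨g, rfl⟩ := nf48 ha
  rw [D1v, c_c16]

theorem orb_conj (g : Co0) {K K' : Subgroup Co0} (h : ∀ k, k ∈ K' ↔ g⁻¹ * k * g ∈ K) (x y : Λ) :
    g • y ∈ orbit K' (g • x) ↔ y ∈ orbit K x :=
  ⟨fun ⟨k, e⟩ => ⟨⟨_, (h k).1 k.2⟩, by
    have : k.1 • g • x = g • y := e
    show (g⁻¹ * k.1 * g) • x = y
    rw [mul_smul, mul_smul, this, inv_smul_smul]⟩,
   fun ⟨k, e⟩ => ⟨⟨g * k * g⁻¹, (h _).2 (by simpa [mul_assoc] using k.2)⟩, by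
    have : k.1 • x = y := e
    show (g * k.1 * g⁻¹) • g • x = g • y
    rw [mul_smul, mul_smul, inv_smul_smul, this]⟩⟩

theorem eq_of_dot (hx : sqNorm (x : V) = 32) (hy : sqNorm (y : V) = 32) (h : dotInt (x : V) y = 32) : y = x :=
  Subtype.ext (sub_eq_zero.1 (eq_zero_of_norm (by rw [norm_sub, dot_comm]; omega)))

theorem Sq_empty {Q : ℤ → ℤ → ℤ → Bool} (h : cq Q = 0) (x : Λ) : x ∉ Sq Q := fun hx => by
  rw [← Sq_card, Set.ncard_eq_zero (Sq_fin Q)] at h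
  exact (h ▸ hx : x ∈ (∅ : Set Λ))

theorem s1641 (ha : sqNorm (a : V) = 48) (hx : x ∈ D1 a (-16)) :
    ∃ y₁ ∈ D1 a (-16), ∃ y₂ ∈ D1 a (-16), ∃ y₃ ∈ D1 a (-16), ∃ y₄ ∈ D1 a (-16),
      (orbit ↥(stabilizer Co0 a ⊓ stabilizer Co0 x) y₁).ncard = 352 ∧
      (orbit ↥(stabilizer Co0 a ⊓ stabilizer Co0 x) y₂).ncard = 1100 ∧
      (orbit ↥(stabilizer Co0 a ⊓ stabilizer Co0 x) y₃).ncard = 4125 ∧
      (orbit ↥(stabilizer Co0 a ⊓ stabilizer Co0 x) y₄).ncard = 5600 ∧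
      D1 a (-16) = {x} ∪ orbit ↥(stabilizer Co0 a ⊓ stabilizer Co0 x) y₁ ∪
        orbit ↥(stabilizer Co0 a ⊓ stabilizer Co0 x) y₂ ∪ orbit ↥(stabilizer Co0 a ⊓ stabilizer Co0 x) y₃ ∪
        orbit ↥(stabilizer Co0 a ⊓ stabilizer Co0 x) y₄ := by
  obtain ⟨g, rfl, rfl⟩ := nf3 or_c16 ha hx.1 hx.2
  have k := orb_conj g (K := KH) (K' := stabilizer Co0 (g • v) ⊓ stabilizer Co0 (g • u'))
    fun x => by simp only [Subgroup.mem_inf, stab_conj]
  have m : ∀ {y : Λ} {c : ℤ}, orbit KH y = Sq (Qbc c (-16)) → g • y ∈ D1 (g • v) (-16) := fun {y c} h => by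
    have := mem_Qbc.1 (h ▸ mem_orbit_self y : y ∈ Sq _)
    exact ⟨(norm_smul' _ _).trans this.1, (dot_smul _ _ _).trans this.2.2⟩
  refine ⟨_, m or_352, _, m or_1100, _, m or_4125, _, m or_5600, (ncard_conj g (k _)).trans (or_352 ▸ c_352),
    (ncard_conj g (k _)).trans (or_1100 ▸ c_1100), (ncard_conj g (k _)).trans (or_4125 ▸ c_4125),
    (ncard_conj g (k _)).trans (or_5600 ▸ c_5600), Set.ext fun y => ?_⟩
  obtain ⟨y, rfl⟩ := MulAction.surjective g y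
  simp only [Set.mem_union, k, or_352, or_1100, or_4125, or_5600, mem_Qbc, D1, Set.mem_setOf_eq, norm_smul', dot_smul,
    Set.mem_singleton_iff, smul_left_cancel_iff]
  constructor
  · rintro ⟨h1, h2⟩
    have e := Sq_empty (Q := Qbc (-16) (-16)) (by decide +kernel) y
    rw [mem_Qbc] at e
    rcases dot_cases n_u' h1 with h | h | h | h | h | h | h
    · simp [h]
    · rw [h, AddSubgroup.coe_neg, dot_neg, d_vu'] at h2; omega
    all_goals tauto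
  · rintro ((((rfl | h) | h) | h) | h)
    exacts [⟨n_u', d_vu'⟩, ⟨h.1, h.2.2⟩, ⟨h.1, h.2.2⟩, ⟨h.1, h.2.2⟩, ⟨h.1, h.2.2⟩]

def TD (a b : Λ) : Set Λ := {x | sqNorm (x : V) = 32 ∧ dotInt (a : V) x = 0 ∧ dotInt (b : V) x = 16}
theorem TD_eq : TD a b = D2 a (-(a + b)) 0 (-16) := by
  ext x
  simp only [TD, D2, Set.mem_setOf_eq, AddSubgroup.coe_neg, AddSubgroup.coe_add, neg_dot, add_dot]
  omega

theorem s1634 (ha : sqNorm (a : V) = 32) (hb : sqNorm (b : V) = 32) (h : dotInt (a : V) b = -8) :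
    (TD a b).ncard = 2025 ∧ (∀ x ∈ TD a b, ∀ y ∈ TD a b, ∃ g : Co0, g • a = a ∧ g • b = b ∧ g • x = y) ∧
    ∀ x ∈ TD a b, ∃ y₁ ∈ TD a b, ∃ y₂ ∈ TD a b, ∃ y₃ ∈ TD a b,
      (orbit ↥(stabilizer Co0 a ⊓ stabilizer Co0 b ⊓ stabilizer Co0 x) y₁).ncard = 330 ∧
      (orbit ↥(stabilizer Co0 a ⊓ stabilizer Co0 b ⊓ stabilizer Co0 x) y₂).ncard = 462 ∧
      (orbit ↥(stabilizer Co0 a ⊓ stabilizer Co0 b ⊓ stabilizer Co0 x) y₃).ncard = 1232 := by
  have nf : ∀ x ∈ TD a b, ∃ g : Co0, g • v = -(a + b) ∧ g • u = a ∧ g • u' = x := fun x hx => by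
    rw [TD_eq] at hx
    exact nfM or_M (cfM ha hb h).1 ha (cfM ha hb h).2 hx.1 hx.2.1 hx.2.2
  refine ⟨?_, fun x hx y hy => ?_, fun x hx => ?_⟩
  · obtain ⟨g, e1, e2⟩ := nf3 or_c24 (cfM ha hb h).1 ha (cfM ha hb h).2
    rw [TD_eq, ← e1, ← e2, D2M, c_M]
  · obtain ⟨g, e1, e2, e3⟩ := tr3 (nf x hx) (nf y hy)
    exact ⟨g, e2, by simpa [smul_neg', smul_add', e2] using e1, e3⟩
  · obtain ⟨g, e1, e2, rfl⟩ := nf x hx
    rw [← stab_add, ← stab_neg (a + b), TD_eq, ← e1, ← e2]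
    have k := orb_conj g (K := K22) (K' := stabilizer Co0 (g • u) ⊓ stabilizer Co0 (g • v) ⊓ stabilizer Co0 (g • u'))
      fun x => by simp only [Subgroup.mem_inf, stab_conj]; tauto
    have m : ∀ {y : Λ} {c : ℤ}, orbit K22 y = Sq (Qabc 0 c (-16)) → g • y ∈ D2 (g • u) (g • v) 0 (-16) :=
      fun {y c} h => by
        have := mem_Qabc.1 (h ▸ mem_orbit_self y : y ∈ Sq _)
        exact ⟨(norm_smul' _ _).trans this.1, (dot_smul _ _ _).trans this.2.1, (dot_smul _ _ _).trans this.2.2.2⟩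
    exact ⟨_, m or_330, _, m or_462, _, m or_1232, (ncard_conj g (k _)).trans (or_330 ▸ c_330),
      (ncard_conj g (k _)).trans (or_462 ▸ c_462), (ncard_conj g (k _)).trans (or_1232 ▸ c_1232)⟩

theorem s1584 (ha : sqNorm (a : V) = 48) (hb : sqNorm (b : V) = 48) (h : dotInt (a : V) b = -32)
    (hx : x ∈ TH a b 24) : {y | y ∈ TH a b 24 ∧ dotInt (x : V) y = 8}.ncard = 22 ∧
    {y | y ∈ TH a b 24 ∧ y ≠ x ∧ dotInt (x : V) y ≠ 8}.ncard = 77 ∧ ∀ y ∈ TH a b 24, ∀ y' ∈ TH a b 24, y ≠ x → y' ≠ x →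
      (dotInt (x : V) y = 8 ↔ dotInt (x : V) y' = 8) → ∃ g : Co0, g • a = a ∧ g • b = b ∧ g • x = x ∧ g • y = y' := by
  obtain ⟨g, e1, e2, rfl⟩ := nfTH or_H ha hb h hx
  have k : ∀ y ∈ TH a b 24, y ≠ g • u → dotInt ((g • u : Λ) : V) y ≠ 8 → dotInt ((g • u : Λ) : V) y = 16 := by
    intro y hy h1 h2
    obtain ⟨y, rfl⟩ := MulAction.surjective g y
    rw [TH_eq, ← e1, ← e2] at hy
    simp only [D2, Set.mem_setOf_eq, norm_smul', dot_smul, ne_eq, smul_left_cancel_iff] at *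
    have z := fun c (h : cq (Qabc c 0 (-24)) = 0) => Sq_empty h y
    simp only [mem_Qabc] at z
    have := z 0 (by decide +kernel)
    have := z (-8) (by decide +kernel)
    have := z (-16) (by decide +kernel)
    rcases dot_cases n_u hy.1 with h | h | h | h | h | h | h
    · exact absurd h h1
    · rw [h, AddSubgroup.coe_neg, dot_neg, dot_neg, d_vu] at hy; omega
    all_goals tauto
  have hT : ∀ y, y ∈ TH a b 24 ↔ sqNorm (y : V) = 32 ∧ dotInt ((g • u' : Λ) : V) y = 0 ∧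
      dotInt ((g • v : Λ) : V) y = -24 := fun y => by rw [TH_eq, ← e1, ← e2]; rfl
  refine ⟨?_, ?_, fun y hy y' hy' h1 h2 h3 => ?_⟩
  · refine Eq.trans ?_ ((D3S g _ _ _).trans c_22)
    congr 1
    ext y
    simp only [D3, Set.mem_setOf_eq, hT]; tauto
  · rw [← c_77, ← D3S g]
    congr 1
    ext y
    refine ⟨fun h => ⟨((hT y).1 h.1).1, k y h.1 h.2.1 h.2.2, ((hT y).1 h.1).2⟩, fun h => ⟨(hT y).2 ⟨h.1, h.2.2⟩, ?_, ?_⟩⟩
    · rintro rfl
      have := h.2.1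
      rw [dot_self, norm_smul', n_u] at this; omega
    · rw [h.2.1]; omega
  · have f : ∀ {x0 : Λ} {c : ℤ}, orbit K22 x0 = Sq (Qabc c 0 (-24)) → dotInt ((g • u : Λ) : V) y = c →
        dotInt ((g • u : Λ) : V) y' = c → ∃ k : Co0, k • a = a ∧ k • b = b ∧ k • g • u = g • u ∧ k • y = y' :=
      fun h0 d d' => by
        obtain ⟨k, a1, a2, a3, a4⟩ := tr4 (nf22 h0 g hy.1 d ((hT y).1 hy).2.1 ((hT y).1 hy).2.2)
          (nf22 h0 g hy'.1 d' ((hT y').1 hy').2.1 ((hT y').1 hy').2.2)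
        rw [e1] at a1
        rw [e2] at a3
        exact ⟨k, (fixH a1 a3).1, (fixH a1 a3).2, a2, a4⟩
    by_cases d : dotInt ((g • u : Λ) : V) y = 8
    · exact f or_22 d (h3.1 d)
    · exact f or_77 (k y hy h1 d) (k y' hy' h2 fun d' => d (h3.2 d'))

abbrev K43 : Subgroup Co0 := KM ⊓ stabilizer Co0 x16
def T8 : Set Λ := {y | y ∈ Sq (Qac 16 (-24)) ∧ dotInt (x16 : V) y = 8}
def T16 : Set Λ := {y | y ∈ Sq (Qac 16 (-24)) ∧ y ≠ x16 ∧ dotInt (x16 : V) y = 16}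

theorem or43 : orbit K43 x112 = T8 ∧ orbit K43 x162 = T16 ∧ T8.ncard = 112 ∧ T16.ncard = 162 ∧
    ∀ y ∈ Sq (Qac 16 (-24)), y ≠ x16 → y ∈ T8 ∨ y ∈ T16 := by
  have f8 : T8.Finite := (Sq_fin _).subset fun _ h => h.1
  have f16 : T16.Finite := (Sq_fin _).subset fun _ h => h.1
  have n16 : dotInt (x16 : V) x16 = 32 := by decide +kernel
  have s1 : orbit K43 x112 ⊆ T8 := by
    rintro _ ⟨g, rfl⟩
    exact ⟨inv_Qac (mem_Qac.2 (by decide +kernel)) g.1 g.2.1, (dot_fix g.2.2 _).trans (by decide +kernel)⟩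
  have s2 : orbit K43 x162 ⊆ T16 := by
    rintro _ ⟨g, rfl⟩
    have : dotInt (x16 : V) (g.1 • x162 : Λ) = 16 := (dot_fix g.2.2 _).trans (by decide +kernel)
    refine ⟨inv_Qac (mem_Qac.2 (by decide +kernel)) g.1 g.2.1, fun e => ?_, this⟩
    rw [show g.1 • x162 = x16 from e, n16] at this; omega
  have a1 := o112.trans (Set.ncard_le_ncard s1 f8)
  have a2 := o162.trans (Set.ncard_le_ncard s2 f16)
  have sub : insert x16 (T8 ∪ T16) ⊆ Sq (Qac 16 (-24)) := by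
    rintro y (rfl | h | h)
    exacts [m_275, h.1, h.1]
  have c : (insert x16 (T8 ∪ T16)).ncard = T8.ncard + T16.ncard + 1 := by
    rw [Set.ncard_insert_of_notMem _ (f8.union f16), Set.ncard_union_eq _ f8 f16]
    · exact Set.disjoint_left.2 fun y h h' => by have := h.2; have := h'.2.2; omega
    · rintro (h | h)
      · have := h.2; omega
      · exact h.2.1 rfl
  have le := Set.ncard_le_ncard sub (Sq_fin _)
  rw [c_275] at le
  have eq := Set.eq_of_subset_of_ncard_le sub (by rw [c_275]; omega) (Sq_fin _)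
  refine ⟨Set.eq_of_subset_of_ncard_le s1 (le_trans (by omega) o112) f8,
    Set.eq_of_subset_of_ncard_le s2 (le_trans (by omega) o162) f16, by omega, by omega, fun y hy h => ?_⟩
  rw [← eq] at hy
  exact hy.resolve_left h

theorem s1581 (ha : sqNorm (a : V) = 48) (hb : sqNorm (b : V) = 32 ∧ sqNorm ((a : V) - (b : V)) = 32) (hx : x ∈ TM a b) :
    {y | y ∈ TM a b ∧ dotInt (x : V) y = 8}.ncard = 112 ∧ {y | y ∈ TM a b ∧ y ≠ x ∧ dotInt (x : V) y = 16}.ncard = 162 ∧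
    ∀ y ∈ TM a b, ∀ y' ∈ TM a b, y ≠ x → y' ≠ x → dotInt (x : V) y = dotInt (x : V) y' →
      ∃ g : Co0, g • a = a ∧ g • b = b ∧ g • x = x ∧ g • y = y' := by
  obtain ⟨g, e1, rfl, rfl⟩ := nfTM ha hb hx
  have hT : ∀ y, g • y ∈ TM a (g • u) ↔ y ∈ Sq (Qac 16 (-24)) := fun y => by
    rw [TM_eq ha, ← e1]; simp only [D2, Set.mem_setOf_eq, mem_Qac, norm_smul', dot_smul]
  obtain ⟨o1, o2, c1, c2, cv⟩ := or43
  refine ⟨(ncard_conj g fun y => ?_).trans c1, (ncard_conj g fun y => ?_).trans c2, fun y hy y' hy' h1 h2 h3 => ?_⟩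
  · simp only [T8, Set.mem_setOf_eq, hT, dot_smul]
  · simp only [T16, Set.mem_setOf_eq, hT, dot_smul, ne_eq, smul_left_cancel_iff]
  obtain ⟨y, rfl⟩ := MulAction.surjective g y
  obtain ⟨y', rfl⟩ := MulAction.surjective g y'
  simp only [hT, dot_smul, ne_eq, smul_left_cancel_iff] at hy hy' h1 h2 h3
  have : ∃ k ∈ K43, k • y = y' := by
    rcases cv y hy h1 with h | h <;> rcases cv y' hy' h2 with h' | h'
    · exact trans_of_orbit o1 h h'
    · have := h.2; have := h'.2.2; omega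
    · have := h.2.2; have := h'.2; omega
    · exact trans_of_orbit o2 h h'
  obtain ⟨k, hk, rfl⟩ := this
  have ea : a = -(g • v) := by rw [e1, neg_neg]
  refine ⟨g * k * g⁻¹, ?_⟩
  simp only [ea, smul_neg', mul_smul, inv_smul_smul, show k • v = v from hk.1.1, show k • u = u from hk.1.2,
    show k • x16 = x16 from hk.2, and_self]

end H8.Le
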