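import Cfsg.Agent.H8.GA
import Cfsg.Agent.H8.Or

/-! H8.Lift7: lifting involutions to central extensions with kernel of exponent two -/

set_option autoImplicit false
set_option linter.all false
open Subgroup

namespace H8
variable {H U : Type*} [Group H] [Group U] {π : H →* U}

theorem sq_cj (hs : Function.Surjective π) (z : ∀ h, π h = 1 → h ∈ center H ∧ h * h = 1) {x a : U} (x2 : x * x = 1) (c : IsConj a x)
    {h k : H} (eh : π h = x) (ek : π k = a) : k * k = h * h := by
  obtain ⟨g, e⟩ := isConj_iff.1 c.symm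
  obtain ⟨g, rfl⟩ := hs g
  obtain ⟨t1, t2⟩ := z (k * (g * h * g⁻¹)⁻¹) (by rw [map_mul, map_inv, map_mul, map_mul, map_inv, eh, e, ek, mul_inv_cancel])
  obtain ⟨t, rfl⟩ : ∃ t, k = t * (g * h * g⁻¹) := ⟨_, (inv_mul_cancel_right _ _).symm⟩
  rw [mul_inv_cancel_right] at t1 t2
  rw [mul_assoc t, ← mul_assoc _ t, mem_center_iff.1 t1, mul_assoc t, ← mul_assoc t, t2, one_mul, show g * h * g⁻¹ * (g * h * g⁻¹) = g * (h * h) * g⁻¹ by group,
    mem_center_iff.1 (z (h * h) (by rw [map_mul, eh, x2])).1, mul_inv_cancel_right]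

theorem lift7 (hs : Function.Surjective π) (z : ∀ h, π h = 1 → h ∈ center H ∧ h * h = 1) {x y a b c : U} (x2 : x * x = 1) (y2 : y * y = 1)
    (ha : IsConj a x) (hb : IsConj b x) (hc : IsConj c x) (ab : IsConj (a * b) y) (ac : IsConj (a * c) y) (bc : IsConj (b * c) y)
    (abc : IsConj (a * (b * c)) y) (h : H) (e : π h = x) : h * h = 1 := by
  obtain ⟨a, rfl⟩ := hs a
  obtain ⟨b, rfl⟩ := hs b
  obtain ⟨c, rfl⟩ := hs c
  obtain ⟨k, ek⟩ := hs y
  have A := sq_cj hs z x2 ha e rfl
  have B := sq_cj hs z x2 hb e rfl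
  have C := sq_cj hs z x2 hc e rfl
  have AB := sq_cj hs z y2 ab ek (map_mul π a b)
  have AC := sq_cj hs z y2 ac ek (map_mul π a c)
  have BC := sq_cj hs z y2 bc ek (map_mul π b c)
  have ABC := sq_cj hs z y2 abc ek (show π (a * (b * c)) = _ by rw [map_mul, map_mul])
  obtain ⟨e1, e2⟩ := z (h * h) (by rw [map_mul, e, x2])
  obtain ⟨d1, d2⟩ := z (k * k) (by rw [map_mul, ek, y2])
  generalize h * h = ε at *
  generalize k * k = δ at *
  have sw : ∀ a b : H, a * a = ε → b * b = ε → a * b * (a * b) = δ → b * a = δ * (a * b) := fun a b p q r => by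
    refine mul_left_cancel (a := a) (mul_right_cancel (b := b) ?_)
    rw [show a * (b * a) * b = a * b * (a * b) by group, r, ← mul_assoc a δ, mem_center_iff.1 d1, show δ * a * (a * b) * b = δ * (a * a * (b * b)) by group, p, q, e2, mul_one]
  have : b * c * a = a * (b * c) := by
    rw [mul_assoc, sw a c A C AC, ← mul_assoc b, mem_center_iff.1 d1, mul_assoc δ, ← mul_assoc b, sw a b A B AB, mul_assoc δ, ← mul_assoc δ, d2, one_mul, mul_assoc]
  rw [show a * (b * c) * (a * (b * c)) = a * (b * c * a) * (b * c) by group, this, show a * (a * (b * c)) * (b * c) = a * a * (b * c * (b * c)) by group, A, BC] at ABC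
  exact mul_eq_right.1 ABC

theorem lets_nor' {G : Type*} [Group G] [Finite G] {n k m : ℕ} {X : Type*} [MulAction G X] {pt : ℕ → X} {T T' : Tr ℕ} {Ls' : List Lev} {B : List ℕ}
    (hB : IsB G n pt B) {N : Subgroup G} (C' : Ch N n k m pt T' Ls') (h : Lets G n k m pt T) {M : ℕ} {W : Tr (List ℕ)}
    (h1 : nrmChk k m B T T' M (topN Ls') W = true) (h2 : selChk T T M = true) : Lets (normalizer (N : Set G)) n k m pt T := fun y => by
  obtain ⟨j, hj, e⟩ := selChk_spec h2 y
  exact ⟨⟨_, C'.le_norm hB h h1 j hj⟩, e ▸ h.rep j⟩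

/-- the statement for the centralizer of an involution -/
theorem lift_cent {G : Type*} [Group G] {d : G} (hd : orderOf d = 2) [((zpowers d).subgroupOf (centralizer {d})).Normal]
    (e : centralizer {d} ⧸ (zpowers d).subgroupOf (centralizer {d}) ≃* U)
    (l : ∀ π : centralizer {d} →* U, Function.Surjective π → (∀ h, π h = 1 → h ∈ center _ ∧ h * h = 1) → ∀ h, π h * π h = 1 → h * h = 1) :
    (∀ x : centralizer {d} ⧸ (zpowers d).subgroupOf (centralizer {d}), orderOf x = 2 → ∃ y : centralizer {d}, orderOf y = 2 ∧ QuotientGroup.mk y = x) ∧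
      ¬ ∃ g : G, g ^ 2 = d := by
  haveI : Fact (Nat.Prime 2) := ⟨Nat.prime_two⟩
  have o : d * d = 1 := by rw [← pow_two, ← hd, pow_orderOf_eq_one]
  have k := l (e.toMonoidHom.comp (QuotientGroup.mk' _)) (e.surjective.comp (QuotientGroup.mk'_surjective _)) fun x h => by
    obtain ⟨k, h⟩ : x ∈ (zpowers d).subgroupOf (centralizer {d}) := (QuotientGroup.eq_one_iff _).1 (e.map_eq_one_iff.1 h)
    exact ⟨mem_center_iff.2 fun y => Subtype.ext (by
      rw [coe_mul, coe_mul, ← show d ^ k = x from h]; exact (Commute.zpow_right (mem_centralizer_singleton_iff.1 y.2) k).eq), Subtype.ext (by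
      rw [coe_mul, ← show d ^ k = x from h, ← (Commute.refl d).mul_zpow, o, one_zpow, coe_one])⟩
  refine ⟨fun x hx => ?_, fun ⟨g, h⟩ => ?_⟩
  · obtain ⟨y, rfl⟩ := QuotientGroup.mk_surjective x
    exact ⟨y, orderOf_eq_prime ((pow_two y).trans (k y (by
      show e y * e y = 1
      rw [← map_mul, ← pow_two, ← hx, pow_orderOf_eq_one, map_one]))) fun n => by simp [n] at hx, rfl⟩
  · have m : g ∈ centralizer {d} := mem_centralizer_singleton_iff.2 (h ▸ (Commute.self_pow g 2).eq)
    have := congrArg Subtype.val (k ⟨g, m⟩ (by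
      rw [← map_mul]
      exact e.map_eq_one_iff.2 ((QuotientGroup.eq_one_iff _).2 (show g * g ∈ zpowers d from pow_two g ▸ h ▸ mem_zpowers _))))
    rw [← h, pow_two, show g * g = 1 from this] at hd
    simp at hd

end H8
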