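import Cfsg.Agent.H8.MF22c2n

/-! H8.MF22c2p0: part `c2` of the multiplier computation (generated certificate) -/

set_option autoImplicit false
set_option maxRecDepth 200000

namespace H8.F22
open H7 (Net)

theorem c2a0 : covA c2N 28160 15 9 (2 ^ (0 + 1)) (catR H7.T.R_F22 c2c1) (catR H7.T.R_F22 c2c2) 0 = true := by decide +kernel
theorem c2r0_0 : covR c2N 28160 15 9 c2R0 c2E0 0 = true := by decide +kernel
theorem c2r0 : covR c2N 28160 15 9 c2R c2E 0 = true := c2r0_0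
theorem c2a2 : covA c2N 28160 15 9 (2 ^ (0 + 1)) (catR H7.T.R_F22 c2c1) (catR H7.T.R_F22 c2c2) 2 = true := by decide +kernel
theorem c2r2_0 : covR c2N 28160 15 9 c2R0 c2E0 2 = true := by decide +kernel
theorem c2r2 : covR c2N 28160 15 9 c2R c2E 2 = true := c2r2_0
theorem c2a4 : covA c2N 28160 15 9 (2 ^ (0 + 1)) (catR H7.T.R_F22 c2c1) (catR H7.T.R_F22 c2c2) 4 = true := by decide +kernel
theorem c2r4_0 : covR c2N 28160 15 9 c2R0 c2E0 4 = true := by decide +kernel
theorem c2r4 : covR c2N 28160 15 9 c2R c2E 4 = true := c2r4_0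
theorem c2a6 : covA c2N 28160 15 9 (2 ^ (0 + 1)) (catR H7.T.R_F22 c2c1) (catR H7.T.R_F22 c2c2) 6 = true := by decide +kernel
theorem c2r6_0 : covR c2N 28160 15 9 c2R0 c2E0 6 = true := by decide +kernel
theorem c2r6 : covR c2N 28160 15 9 c2R c2E 6 = true := c2r6_0
theorem c2a8 : covA c2N 28160 15 9 (2 ^ (0 + 1)) (catR H7.T.R_F22 c2c1) (catR H7.T.R_F22 c2c2) 8 = true := by decide +kernel
theorem c2r8_0 : covR c2N 28160 15 9 c2R0 c2E0 8 = true := by decide +kernel
theorem c2r8 : covR c2N 28160 15 9 c2R c2E 8 = true := c2r8_0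
theorem c2a10 : covA c2N 28160 15 9 (2 ^ (0 + 1)) (catR H7.T.R_F22 c2c1) (catR H7.T.R_F22 c2c2) 10 = true := by decide +kernel
theorem c2r10_0 : covR c2N 28160 15 9 c2R0 c2E0 10 = true := by decide +kernel
theorem c2r10 : covR c2N 28160 15 9 c2R c2E 10 = true := c2r10_0
theorem c2a12 : covA c2N 28160 15 9 (2 ^ (0 + 1)) (catR H7.T.R_F22 c2c1) (catR H7.T.R_F22 c2c2) 12 = true := by decide +kernel
theorem c2r12_0 : covR c2N 28160 15 9 c2R0 c2E0 12 = true := by decide +kernel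
theorem c2r12 : covR c2N 28160 15 9 c2R c2E 12 = true := c2r12_0
theorem c2a14 : covA c2N 28160 15 9 (2 ^ (0 + 1)) (catR H7.T.R_F22 c2c1) (catR H7.T.R_F22 c2c2) 14 = true := by decide +kernel
theorem c2r14_0 : covR c2N 28160 15 9 c2R0 c2E0 14 = true := by decide +kernel
theorem c2r14 : covR c2N 28160 15 9 c2R c2E 14 = true := c2r14_0

end H8.F22
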