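import Cfsg.Agent.H8.HoltD
import Cfsg.Agent.H8.GG24
import Cfsg.Agent.H8.MG24h2
import Cfsg.Agent.H8.MG24h3
import Cfsg.Agent.H8.MG24h5
import Cfsg.Agent.H8.MG24c2

/-! H8.MG24: `mult`, the Schur multiplier of `P` (generated certificate) -/

set_option autoImplicit false
set_option maxRecDepth 200000

namespace H8.G24

theorem sm_dvd : Nat.card (L.SM P) ∣ 2 :=
  SM_dvd 2 [2, 3, 5] 91 (sqfree_of_chk (by decide +kernel)) 12 (by simp only [List.mem_cons, List.not_mem_nil, or_false, forall_eq_or_imp, forall_eq]; norm_num)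
    (by rw [card]; decide +kernel) (by
      simp only [List.mem_cons, List.not_mem_nil, or_false, forall_eq_or_imp, forall_eq]
      exact ⟨⟨1, by norm_num, h2⟩, ⟨0, by norm_num, h3⟩, ⟨0, by norm_num, h5⟩⟩)
theorem mult : Cfsg.HasCyclicSchurMultiplier P 2 := by
  obtain ⟨φc2, hc2⟩ := c2
  have ec2 := dvd_exp_of_mem φc2 hc2
  norm_num at ec2
  exact hasCyclic_of_exp (by norm_num) sm_dvd ec2

end H8.G24
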