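import Cfsg.Agent.H8.HoltD
import Cfsg.Agent.H8.GMcL
import Cfsg.Agent.H8.MMcLh2
import Cfsg.Agent.H8.MMcLh3
import Cfsg.Agent.H8.MMcLh5
import Cfsg.Agent.H8.MMcLc3

/-! H8.MMcL: `mult`, the Schur multiplier of `P` (generated certificate) -/

set_option autoImplicit false
set_option maxRecDepth 200000

namespace H8.McL

theorem sm_dvd : Nat.card (L.SM P) ∣ 3 :=
  SM_dvd 3 [2, 3, 5] 77 (sqfree_of_chk (by decide +kernel)) 7 (by simp only [List.mem_cons, List.not_mem_nil, or_false, forall_eq_or_imp, forall_eq]; norm_num)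
    (by rw [card]; decide +kernel) (by
      simp only [List.mem_cons, List.not_mem_nil, or_false, forall_eq_or_imp, forall_eq]
      exact ⟨⟨0, by norm_num, h2⟩, ⟨1, by norm_num, h3⟩, ⟨0, by norm_num, h5⟩⟩)
theorem mult : Cfsg.HasCyclicSchurMultiplier P 3 := hasCyclic_of_exp (by norm_num) sm_dvd c3

end H8.McL
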