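import Cfsg.Agent.H8.MSuzc2n

/-! H8.MSuzc2p1: part `c2` of the multiplier computation (generated certificate) -/

set_option autoImplicit false
set_option maxRecDepth 200000

namespace H8.Suz
open H7 (Net)

theorem c2a1 : covA c2N 65520 16 7 (2 ^ (0 + 1)) (catR H7.T.R_SZ0 c2c1) (catR H7.T.R_SZ0 c2c2) 1 = true := by decide +kernel
theorem c2r1_0 : covR c2N 65520 16 7 c2R0 c2E0 1 = true := by decide +kernel
theorem c2r1 : covR c2N 65520 16 7 c2R c2E 1 = true := c2r1_0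
theorem c2a3 : covA c2N 65520 16 7 (2 ^ (0 + 1)) (catR H7.T.R_SZ0 c2c1) (catR H7.T.R_SZ0 c2c2) 3 = true := by decide +kernel
theorem c2r3_0 : covR c2N 65520 16 7 c2R0 c2E0 3 = true := by decide +kernel
theorem c2r3 : covR c2N 65520 16 7 c2R c2E 3 = true := c2r3_0
theorem c2a5 : covA c2N 65520 16 7 (2 ^ (0 + 1)) (catR H7.T.R_SZ0 c2c1) (catR H7.T.R_SZ0 c2c2) 5 = true := by decide +kernel
theorem c2r5_0 : covR c2N 65520 16 7 c2R0 c2E0 5 = true := by decide +kernel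
theorem c2r5 : covR c2N 65520 16 7 c2R c2E 5 = true := c2r5_0
theorem c2a7 : covA c2N 65520 16 7 (2 ^ (0 + 1)) (catR H7.T.R_SZ0 c2c1) (catR H7.T.R_SZ0 c2c2) 7 = true := by decide +kernel
theorem c2r7_0 : covR c2N 65520 16 7 c2R0 c2E0 7 = true := by decide +kernel
theorem c2r7 : covR c2N 65520 16 7 c2R c2E 7 = true := c2r7_0
theorem c2a9 : covA c2N 65520 16 7 (2 ^ (0 + 1)) (catR H7.T.R_SZ0 c2c1) (catR H7.T.R_SZ0 c2c2) 9 = true := by decide +kernel
theorem c2r9_0 : covR c2N 65520 16 7 c2R0 c2E0 9 = true := by decide +kernel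
theorem c2r9 : covR c2N 65520 16 7 c2R c2E 9 = true := c2r9_0
theorem c2a11 : covA c2N 65520 16 7 (2 ^ (0 + 1)) (catR H7.T.R_SZ0 c2c1) (catR H7.T.R_SZ0 c2c2) 11 = true := by decide +kernel
theorem c2r11_0 : covR c2N 65520 16 7 c2R0 c2E0 11 = true := by decide +kernel
theorem c2r11 : covR c2N 65520 16 7 c2R c2E 11 = true := c2r11_0
theorem c2a13 : covA c2N 65520 16 7 (2 ^ (0 + 1)) (catR H7.T.R_SZ0 c2c1) (catR H7.T.R_SZ0 c2c2) 13 = true := by decide +kernel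
theorem c2r13_0 : covR c2N 65520 16 7 c2R0 c2E0 13 = true := by decide +kernel
theorem c2r13 : covR c2N 65520 16 7 c2R c2E 13 = true := c2r13_0
theorem c2a15 : covA c2N 65520 16 7 (2 ^ (0 + 1)) (catR H7.T.R_SZ0 c2c1) (catR H7.T.R_SZ0 c2c2) 15 = true := by decide +kernel
theorem c2r15_0 : covR c2N 65520 16 7 c2R0 c2E0 15 = true := by decide +kernel
theorem c2r15 : covR c2N 65520 16 7 c2R c2E 15 = true := c2r15_0

end H8.Suz
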