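import Cfsg.Agent.H8.MSuzc2p0
import Cfsg.Agent.H8.MSuzc2p1

/-! H8.MSuzc2: part `c2` of the multiplier computation (generated certificate) -/

set_option autoImplicit false
set_option maxRecDepth 200000

namespace H8.Suz
open H7 (Net)

theorem c2 : 2 ∣ Monoid.exponent (L.SM Cfsg.Spor.Suz) := by
  haveI := H7.T.top_Suz.1
  exact cover_rel (RL := c2R) (isPres_cox H7.T.hall_Suz H7.T.let_Suz H7.T.inv_SZ0 (by intro x; cases x <;> decide) (H7.T.R0_Suz_eq ▸ H7.T.der0_Suz) (by decide +kernel)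
    (by decide +kernel)) H7.T.rels_Suz (K := 16) (z := 7) (E := c2E) (c₁ := c2c1) (c₂ := c2c2) (by norm_num) c2ok (by norm_num)
    (fun j hj => by
    interval_cases j
    exacts [c2a0, c2a1, c2a2, c2a3, c2a4, c2a5, c2a6, c2a7, c2a8, c2a9, c2a10, c2a11, c2a12, c2a13, c2a14, c2a15]) (fun j hj => by
    interval_cases j
    exacts [c2r0, c2r1, c2r2, c2r3, c2r4, c2r5, c2r6, c2r7, c2r8, c2r9, c2r10, c2r11, c2r12, c2r13, c2r14, c2r15])
    (by decide +kernel) (by decide +kernel) (by decide +kernel)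

end H8.Suz
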