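import Cfsg.Agent.H8.Cover
import Cfsg.Agent.H8.FA0

/-! H8.NSp: commutators in double covers; counting lemmas -/

set_option autoImplicit false
set_option linter.all false
open Subgroup Cfsg
open scoped commutatorElement

namespace H8
universe u

theorem cover_ns {G : Type u} [Group G] [Finite G] {X : Type*} [MulAction G X] {n k m : ℕ} {pt : ℕ → X}
    {T : Tr ℕ} {RL : Tr (List ℕ)} {Ls : List Lev} (S : Std G n k m pt T RL Ls) (M : Mon) [NeZero M.q]
    (h1 : M.basChk = true) (h2 : RL.all M.relChk = true) {H : Type*} [Group H] [Finite H] {σ : H →* G} (hσ : L.IsCE σ) :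
    ∃ K : Subgroup (L.mult (L.uπ G)), K.index = Nat.card (L.mult σ) ∧ ∃ φ : K →* Multiplicative (ZMod M.q × ZMod M.q), ∀ (wx wy : List ℕ) (u0 u1 : ℕ),
      M.pairChk (topN Ls) (weqOn k m T (Ls.map Lev.b)) (wx ++ wy) (wy ++ wx) u0 u1 = true →
      (∀ x y, σ x = ev S.lets.e wx → σ y = ev S.lets.e wy → x * y = y * x) → Multiplicative.ofAdd ((u0 : ZMod M.q), (u1 : ZMod M.q)) ∈ φ.range := by
  obtain ⟨η, hη⟩ := L.exists_lift (L.canP G) hσ (MonoidHom.id _)
  obtain ⟨f, fs, hf⟩ := L.exists_mult_surj (L.uπ_isCE G).surj hσ.cent η hη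
  have h3 : M.n1 < M.n := by
    simp only [Mon.basChk, band_eq_true, Nat.ble_eq] at h1
    exact h1.2.2.1
  have h0 : 0 < M.n := by omega
  haveI : NeZero M.n := ⟨h0.ne'⟩
  let W := Wr.W (ZMod M.q) M.cmp
  let C := Wr.C (ZMod M.q) M.cmp
  haveI : C.Normal := L.normal_of_le_center (Wr.C_le _)
  obtain ⟨τ, hτ⟩ := S.hom (fun y => (QuotientGroup.mk (Mon.π h1 y) : W ⧸ C)) fun i => by
    rw [← show _ = ev (fun y => (QuotientGroup.mk (Mon.π h1 y) : W ⧸ C)) _ from map_ev (QuotientGroup.mk' C) _ _]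
    exact (QuotientGroup.eq_one_iff _).2 (Mon.relChk_spec h1 (Tr.all_get h2 i))
  have ce : L.IsCE (QuotientGroup.mk' C) := ⟨QuotientGroup.mk'_surjective C, by rw [QuotientGroup.ker_mk']; exact Wr.C_le _⟩
  obtain ⟨θ, hθ⟩ := L.exists_lift (L.canP G) ce τ
  have tc : ∀ x : L.mult (L.uπ G), θ x ∈ C := fun x => (QuotientGroup.eq_one_iff _).1 ((DFunLike.congr_fun hθ x.1).trans (by
    show τ (L.uπ G x) = 1
    rw [show L.uπ G x = 1 from x.2.1, map_one]))
  refine ⟨f.ker, by rw [index_ker, MonoidHom.range_eq_top.2 fs, card_top], (Wr.ψ M.cmp (Fin.ofNat _ 0) (Fin.ofNat _ M.n1)).comp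
    (((θ.comp (L.mult (L.uπ G)).subtype).codRestrict C tc).comp f.ker.subtype), fun wx wy u0 u1 h cm => ?_⟩
  simp only [Mon.pairChk, band_eq_true, ltN_iff, allB_iff, Nat.beq_eq, Mon.cntL_eq, nmod] at h
  obtain ⟨⟨a1, -, -⟩, a4, a5, a6⟩ := h
  have e := weqOn_spec S.lets.rep S.base.1 S.base.2 a4
  rw [ev_append, ev_append] at e
  obtain ⟨x, hx⟩ := (L.uπ_isCE G).surj (ev S.lets.e wx)
  obtain ⟨y, hy⟩ := (L.uπ_isCE G).surj (ev S.lets.e wy)
  have m : ⁅x, y⁆ ∈ L.mult (L.uπ G) := ⟨by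
    show L.uπ G _ = 1
    rw [map_commutatorElement, hx, hy]; exact commutatorElement_eq_one_iff_mul_comm.2 e, commutator_mem_commutator (mem_top _) (mem_top _)⟩
  have tw : ∀ w : List ℕ, (∀ y ∈ w, y < topN Ls) → ∀ x, L.uπ G x = ev S.lets.e w → QuotientGroup.mk' C (θ x) = QuotientGroup.mk' C (ev (Mon.π h1) w) := fun w hw x hx => by
    rw [show QuotientGroup.mk' C (θ x) = τ (L.uπ G x) from DFunLike.congr_fun hθ x, hx, map_ev, map_ev]
    exact ev_congr _ _ _ fun y hy => hτ y (hw y hy)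
  have ec : ev (Mon.π h1) (wx ++ wy) = θ ⁅x, y⁆ * ev (Mon.π h1) (wy ++ wx) := by
    rw [map_commutatorElement, L.comm_eq_of_CE ce.cent (tw wx (fun y h => a1 y (List.mem_append_left _ h)) x hx)
      (tw wy (fun y h => a1 y (List.mem_append_right _ h)) y hy), ev_append, ev_append, commutatorElement_def]; group
  have key : ∀ a < M.n, ∀ u : ℕ, M.pay (mp M.U.get (wx ++ wy)) a % M.q = (M.pay (mp M.U.get (wy ++ wx)) a + u) % M.q →
      (θ ⁅x, y⁆).1.d (Fin.ofNat _ a) = u := fun a ha u hu => by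
    have b1 := (Mon.apT_spec h1 (wx ++ wy) ha).2.2
    have b2 := (Mon.apT_spec h1 (wy ++ wx) ha).2.2
    rw [ec, coe_mul, Wr.mul_d, b2, (tc ⟨_, m⟩).2 _ _ ((ev (Mon.π h1) (wy ++ wx)).2 _),
      (ZMod.natCast_eq_natCast_iff' _ _ _).2 hu, Nat.cast_add, add_comm] at b1
    exact add_left_cancel b1
  rw [← key 0 h0 u0 a5, ← key _ h3 u1 a6]
  refine ⟨⟨⟨_, m⟩, Subtype.ext ((hf _).trans ?_)⟩, rfl⟩
  exact (map_commutatorElement η x y).trans (commutatorElement_eq_one_iff_mul_comm.2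
    (cm _ _ ((DFunLike.congr_fun hη x).trans hx) ((DFunLike.congr_fun hη y).trans hy)))

variable {G : Type*} [Group G]

theorem card_le_countP {α β : Type*} (l : List α) (v : α → β) (p : α → Bool) (T : Set β) (h : ∀ g ∈ T, ∃ q ∈ l, v q = g ∧ p q = true) :
    Nat.card T ≤ l.countP p := by
  classical
  rw [List.countP_eq_length_filter, ← List.length_map v, Nat.card_coe_set_eq]
  refine le_trans (Set.ncard_le_ncard (t := (((l.filter p).map v).toFinset : Set β)) (fun g hg => ?_) (Finset.finite_toSet _)) ?_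
  · obtain ⟨q, h1, h2, h3⟩ := h g hg
    exact List.mem_toFinset.2 (List.mem_map.2 ⟨q, List.mem_filter.2 ⟨h1, h3⟩, h2⟩)
  · rw [Set.ncard_coe_finset]; exact List.toFinset_card_le _

theorem card_comap' {P : Type*} [Group P] [Finite G] {π : G →* P} (hs : Function.Surjective π) (K : Subgroup P) :
    Nat.card (K.comap π) = Nat.card π.ker * Nat.card K := by
  haveI : Finite P := .of_surjective π hs
  refine Nat.eq_of_mul_eq_mul_right (Nat.pos_of_ne_zero (index_ne_zero_of_finite (H := K))) ?_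
  rw [mul_assoc, card_mul_index, ← index_comap_of_surjective K hs, card_mul_index, ← π.ker.card_mul_index, index_ker,
    MonoidHom.range_eq_top.2 hs, card_top]

theorem no_prime [Finite G] (A : Subgroup G) {e : ℕ} (cA : Nat.card A = 2 ^ e) {d : G} (hd : d ∈ A) {r : ℕ} (hp : r.Prime)
    (hr : ∀ k < e, ¬ 2 ^ e ≡ 2 ^ k [MOD r]) : ¬ r ∣ ((centralizer {d}).subgroupOf (normalizer (A : Set G))).index := fun h => by
  haveI := Fact.mk hp
  obtain ⟨R⟩ := (inferInstance : Nonempty (Sylow r (normalizer (A : Set G))))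
  letI := MulDistribMulAction.compHom A (A.normalizerMonoidHom.comp R.1.subtype)
  have m := R.2.card_modEq_card_fixedPoints A
  obtain ⟨k, hk, ek⟩ := (Nat.dvd_prime_pow Nat.prime_two).1 (cA ▸ card_subgroup_dvd_card (FixedPoints.subgroup R.1 A))
  rw [cA, show Nat.card (MulAction.fixedPoints R.1 A) = 2 ^ k from ek] at m
  refine hr k (lt_of_le_of_ne hk ?_) m
  rintro rfl
  refine R.not_dvd_index (h.trans (index_dvd_of_le fun g hg => mem_centralizer_singleton_iff.2 ?_))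
  have := congrArg Subtype.val ((eq_top_of_card_eq _ (ek.trans cA.symm)).ge (mem_top (⟨d, hd⟩ : A)) ⟨g, hg⟩)
  exact mul_inv_eq_iff_eq_mul.1 this

end H8
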