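import Mathlib
import Cfsg.Prelude.Def_KGroupFacts

/-! H8.OutX: extensions of a simple group with outer automorphism group `S₄` by `S₃` -/

set_option autoImplicit false
set_option maxRecDepth 100000
set_option linter.all false
open Subgroup Cfsg

namespace H8

theorem s3_in_s4 (j : Equiv.Perm (Fin 3) →* Equiv.Perm (Fin 4)) (hj : Function.Injective j) :
    ∃ i : Fin 4, j.range = MulAction.stabilizer (Equiv.Perm (Fin 4)) i := by
  obtain ⟨c, c1, c3, cc⟩ : ∃ c : Equiv.Perm (Fin 3), c ≠ 1 ∧ c * c * c = 1 ∧ ∀ h, h * c = c * h ∨ h * c = c * c * h := by decide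
  obtain ⟨i, hi⟩ := (by decide +kernel : ∀ x : Equiv.Perm (Fin 4), x ≠ 1 → x * x * x = 1 → ∃ i, ∀ h, (h * x = x * h ∨ h * x = x * x * h) → h i = i) (j c)
    (fun h => c1 (hj (h.trans (map_one j).symm))) (by rw [← map_mul, ← map_mul, c3, map_one])
  refine ⟨i, eq_of_le_of_card_ge (by rintro _ ⟨h, rfl⟩; exact hi _ (by simpa only [← map_mul, hj.eq_iff] using cc h)) ?_⟩
  have := (MulAction.stabilizer (Equiv.Perm (Fin 4)) i).index_mul_card
  rw [MulAction.index_stabilizer_of_transitive, Nat.card_perm, Nat.card_fin, show Nat.factorial 4 = 24 from rfl] at this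
  rw [← Nat.card_congr (MonoidHom.ofInjective hj).toEquiv, Nat.card_perm, Nat.card_fin, show Nat.factorial 3 = 6 from rfl]
  omega

theorem cen_of_out {L : Type*} [Group L] [Finite L] [IsSimpleGroup L] {ψ : MulAut L →* Equiv.Perm (Fin 4)} (hs : Function.Surjective ψ) : center L = ⊥ := by
  refine ((inferInstance : (center L).Normal).eq_bot_or_eq_top).resolve_right fun h => ?_
  letI : CommGroup L := { mul_comm := fun a b => mem_center_iff.1 (h.ge (mem_top b)) a }
  obtain ⟨a, ha⟩ := hs (Equiv.swap 0 1)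
  obtain ⟨b, hb⟩ := hs (Equiv.swap 1 2)
  have : a * b = b * a := (IsCyclic.mulAutMulEquiv L).injective (by rw [map_mul, map_mul, mul_comm])
  exact absurd (ha ▸ hb ▸ (map_mul ψ a b).symm.trans ((congrArg ψ this).trans (map_mul ψ b a))) (by decide)

theorem ext_s3 {L : Type*} [Group L] (zL : center L = ⊥) {ψ : MulAut L →* Equiv.Perm (Fin 4)} (hs : Function.Surjective ψ) (hk : ψ.ker = Inn L)
    {G : Type*} [Group G] {F : Subgroup G} [F.Normal] (hc : centralizer (F : Set G) ≤ F) (e : F ≃* L) (q : G ⧸ F ≃* Equiv.Perm (Fin 3)) :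
    ∃ φ : G →* MulAut L, Function.Injective φ ∧ φ.range = (MulAction.stabilizer (Equiv.Perm (Fin 4)) (0 : Fin 4)).comap ψ ∧ F.map φ = Inn L := by
  let φ := (MulAut.congr e).toMonoidHom.comp (MulAut.conjNormal (G := G) (H := F))
  have hi : Function.Injective φ := (MulAut.congr e).injective.comp ((injective_iff_map_eq_one _).2 fun g h => by
    have m : ∀ x ∈ F, x * g = g * x := fun x hx => (mul_inv_eq_iff_eq_mul.1 ((MulAut.conjNormal_apply g (⟨x, hx⟩ : F)).symm.trans (congrArg Subtype.val (DFunLike.congr_fun h (⟨x, hx⟩ : F))))).symm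
    exact congrArg Subtype.val (e.map_eq_one_iff.1 (mem_bot.1 (zL.le (mem_center_iff.2 fun y => by
      obtain ⟨y, rfl⟩ := e.surjective y
      rw [← map_mul, ← map_mul]; exact congrArg e (Subtype.ext (m _ y.2)) : e ⟨g, hc m⟩ ∈ center L)))))
  have pf : ∀ f : F, φ f = MulAut.conj (e f) := fun f => MulEquiv.ext fun x => by
    obtain ⟨x, rfl⟩ := e.surjective x
    simp only [φ, MonoidHom.comp_apply, MulEquiv.coe_toMonoidHom, MulAut.congr_apply, MulEquiv.trans_apply, MulEquiv.symm_apply_apply, MulAut.conj_apply,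
      ← map_inv, ← map_mul]
    rfl
  have mf : F.map φ = Inn L := le_antisymm (by rintro _ ⟨f, hf, rfl⟩; exact ⟨_, (pf ⟨f, hf⟩).symm⟩) (by
    rintro _ ⟨l, rfl⟩
    obtain ⟨f, rfl⟩ := e.surjective l
    exact ⟨f, f.2, pf f⟩)
  have kf : (ψ.comp φ).ker = F := by rw [← MonoidHom.comap_ker, hk, ← mf, comap_map_eq_self_of_injective hi]
  let j := (QuotientGroup.lift F (ψ.comp φ) kf.ge).comp q.symm.toMonoidHom
  obtain ⟨i, hj⟩ := s3_in_s4 j (((QuotientGroup.injective_lift_iff F (ψ.comp φ) kf.ge).2 kf.symm).comp q.symm.injective)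
  have r : φ.range = (MulAction.stabilizer (Equiv.Perm (Fin 4)) i).comap ψ := by
    rw [← hj, show j.range = φ.range.map ψ from le_antisymm (by
      rintro _ ⟨x, rfl⟩
      obtain ⟨g, hg⟩ := QuotientGroup.mk_surjective (q.symm x)
      exact ⟨_, ⟨g, rfl⟩, by simp [j, ← hg]⟩) (by rintro _ ⟨_, ⟨g, rfl⟩, rfl⟩; exact ⟨q g, by simp [j]⟩),
      comap_map_eq_self (hk ▸ mf ▸ map_le_range _ _)]
  obtain ⟨a, ha⟩ := hs (Equiv.swap 0 i)
  refine ⟨(MulAut.conj a).toMonoidHom.comp φ, (MulAut.conj a).injective.comp hi, ?_, ?_⟩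
  · rw [MonoidHom.range_comp, r]
    ext x
    rw [mem_map_equiv, mem_comap, mem_comap, MulAction.mem_stabilizer_iff, MulAction.mem_stabilizer_iff]
    simp [ha, Equiv.swap_apply_eq_iff]
  · rw [← map_map, mf]
    ext x
    rw [mem_map_equiv]
    exact ⟨fun h => by simpa [mul_assoc] using (innNormal L).conj_mem _ h a, fun h => by simpa using (innNormal L).conj_mem' _ h a⟩

theorem psi_of {L : Type*} [Group L] (e : Out L ≃* Equiv.Perm (Fin 4) × Multiplicative (ZMod 1)) :
    ∃ ψ : MulAut L →* Equiv.Perm (Fin 4), Function.Surjective ψ ∧ ψ.ker = Inn L :=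
  haveI : Unique (Multiplicative (ZMod 1)) := inferInstanceAs (Unique (Fin 1))
  ⟨(e.trans MulEquiv.prodUnique).toMonoidHom.comp (QuotientGroup.mk' _), (e.trans MulEquiv.prodUnique).surjective.comp (QuotientGroup.mk'_surjective _),
    ext fun x => (e.trans MulEquiv.prodUnique).map_eq_one_iff.trans (QuotientGroup.eq_one_iff x)⟩

end H8
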