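import Cfsg.Agent.H8.NMdl

/-! H8.PCov: covers of Coxeter-presented groups by networks: `H8.isPres_cox`, `H8.cover_cox`. -/

set_option autoImplicit false
set_option linter.all false
open Subgroup

noncomputable section
namespace H8
open H7 (Net wapp Rels Der relL trW letOK gsP invOK allLt eqL okL)
open Cfsg Cfsg.Spor

def catR (R : List (List ℕ)) (c : List ℕ) : List ℕ := (c.map fun i => R.getD i []).flatten

theorem ev_catR {G : Type*} [Group G] {e : ℕ → G} {R : List (List ℕ)} (h : Rels e R) (c : List ℕ) :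
    ev e (catR R c) = 1 := by
  induction c with
  | nil => rfl
  | cons i c ih =>
    have : catR R (i :: c) = R.getD i [] ++ catR R c := rfl
    rw [this, ev_append, ih, mul_one]
    by_cases hi : i < R.length
    · rw [List.getD_eq_getElem _ _ hi]; exact h _ (List.getElem_mem hi)
    · rw [List.getD_eq_default _ _ (not_lt.1 hi)]; rfl

variable {α : Type} [DecidableEq α] {edges : List (α × ℕ × α)} {extra : List (FreeGroup α)} {all : List α}
  {L : List (FreeGroup α)} {idx : α → ℕ} {iv : List ℕ} {R : List (List ℕ)}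

theorem isPres_cox (hall : ∀ x, x ∈ all) (hlet : letOK edges all L idx iv = true)
    (hiv : invOK R iv L.length = true) (hidx : ∀ x, idx x < L.length)
    (h0 : Der.{0} R ((relL edges extra).map (trW idx iv)))
    (hL : allLt (fun a => eqL (trW idx iv (L.getD a 1)) [a]) L.length = true) {RL : Tr (List ℕ)}
    (hR : R = (List.range R.length).map RL.get) :
    IsPres (gsP edges extra L) L.length fun r => ∃ i, RL.get i = r := by
  refine ⟨H7.gen_gsP hall hlet _ fun x _ => subset_closure ⟨_, hidx x, rfl⟩, fun W _ _ π h => ?_⟩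
  have hr : Rels π R := fun r hr => by
    rw [hR] at hr
    obtain ⟨i, -, rfl⟩ := List.mem_map.1 hr
    exact h _ ⟨i, rfl⟩
  exact ⟨H7.homP (fun x => hr.inv hiv _ (hidx x)) (h0 _ _ hr), fun y hy => H7.homP_gsP _ _ hL hy⟩

theorem cover_rel {G : Type} [Group G] [Finite G] {e : ℕ → G} {N : ℕ} {RL : Tr (List ℕ)}
    (hP : IsPres e N fun r => ∃ i, RL.get i = r) (hr : Rels e R) {Nl : List Net} {M K z p : ℕ} {E : Tr ℕ}
    {c₁ c₂ : List ℕ} (hp : p.Prime) (ok : okL M Nl = true) (hK : M ≤ 2 ^ K)
    (h1 : ∀ j < K, covA Nl M K z (p ^ (0 + 1)) (catR R c₁) (catR R c₂) j = true)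
    (h2 : ∀ j < K, covR Nl M K z RL E j = true)
    (h3 : H7.tb (wapp (H7.nth Nl) (rp (p ^ 0) z) 1) 0 = false)
    (h4 : (catR R c₁).Perm (catR R c₂)) (hw : ∀ y ∈ catR R c₁, y < N) : p ∣ Monoid.exponent (_root_.L.SM G) := by
  simpa using cover_net hP hp ok hK h1 h2 h3 h4 hw ((ev_catR hr c₁).trans (ev_catR hr c₂).symm)

end H8
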