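import Cfsg.Agent.H8.HG
open Finset
namespace H8.SrgU
open Cfsg Classical
set_option linter.unusedSectionVars false
variable {V : Type*} [Fintype V] {G : SimpleGraph V} [DecidableRel G.Adj]

noncomputable def a (G : SimpleGraph V) (u v : V) : ℤ := if G.Adj u v then 1 else 0

theorem a_symm (u v : V) : a G u v = a G v u := by unfold a; rw [G.adj_comm]

theorem tri (hG : G.IsSRGWith 100 22 0 6) {u v w : V} (h1 : G.Adj u v) (h2 : G.Adj u w) : ¬ G.Adj v w := fun h3 => by
  have := hG.of_adj u v h1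
  rw [Fintype.card_eq_zero_iff] at this
  exact this.false ⟨w, h2, h3⟩

theorem deg (hG : G.IsSRGWith 100 22 0 6) (u : V) : ∑ w, a G u w = 22 := by
  have := hG.regular.degree_eq u
  rw [← G.card_neighborFinset_eq_degree, G.neighborFinset_eq_filter] at this
  have e : ∀ w, a G u w = if G.Adj u w ∧ True then 1 else 0 := fun w => by
    unfold a; split_ifs <;> simp_all
  rw [sum_congr rfl fun w _ => e w, sum_boole]
  exact_mod_cast (by convert this using 2; ext; simp)

theorem com (hG : G.IsSRGWith 100 22 0 6) {u v : V} (h : u ≠ v) (h' : ¬ G.Adj u v) : ∑ w, a G u w * a G v w = 6 := by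
  have := hG.of_not_adj h h'
  have e : ∀ w, a G u w * a G v w = if G.Adj u w ∧ G.Adj v w then 1 else 0 := fun w => by
    unfold a; split_ifs <;> simp_all
  simp only [e, sum_boole]
  rw [Fintype.card_subtype] at this
  exact_mod_cast (by convert this using 2; ext; simp [SimpleGraph.mem_commonNeighbors])

theorem a_sq (u v : V) : a G u v * a G u v = a G u v := by unfold a; split_ifs <;> simp

theorem key (hG : G.IsSRGWith 100 22 0 6) {o v w : V} (h : o ≠ v) (h' : ¬ G.Adj o v) (w1 : w ≠ o) (w2 : w ≠ v)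
    (w3 : ¬ G.Adj o w) (w4 : ¬ G.Adj v w) : ∑ z, a G o z * a G v z * a G w z = 2 := by
  let p : V → ℤ := fun z => a G o z * a G v z
  let x : V → ℤ := fun w => ∑ z, p z * a G w z
  have hp : ∑ z, p z = 6 := com hG h h'
  have p2 : ∀ z, p z * p z = p z := fun z => by
    simp only [p]; rw [mul_mul_mul_comm, a_sq, a_sq]
  have s1 : ∑ w, x w = 132 := by
    simp only [x]; rw [sum_comm]
    simp only [← mul_sum]
    have : ∀ z, p z * ∑ i, a G i z = p z * 22 := fun z => by
      rw [← deg hG z]; congr 1; exact sum_congr rfl fun i _ => a_symm i z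
    simp only [this, ← sum_mul, hp]; norm_num
  have s2 : ∑ w, x w * x w = 312 := by
    have e1 : ∀ w, x w * x w = ∑ z, ∑ y, p z * p y * (a G z w * a G y w) := fun w => by
      simp only [x, sum_mul_sum]
      refine sum_congr rfl fun z _ => sum_congr rfl fun y _ => ?_
      rw [a_symm w z, a_symm w y]; ring
    simp only [e1]
    rw [sum_comm]
    have e2 : ∀ z, ∑ w, ∑ y, p z * p y * (a G z w * a G y w) = ∑ y, (6 * (p z * p y) + if z = y then 16 * p z else 0) := fun z => by
      rw [sum_comm]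
      refine sum_congr rfl fun y _ => ?_
      rw [← mul_sum]
      split_ifs with e
      · subst e; simp only [a_sq, deg hG, p2]; ring
      · by_cases hz : G.Adj o z
        · by_cases hy : G.Adj o y
          · rw [com hG e (tri hG hz hy)]; ring
          · simp [p, a, hy]
        · simp [p, a, hz]
    simp only [e2, sum_add_distrib, sum_ite_eq, mem_univ, if_true, ← mul_sum, ← sum_mul, hp]
    norm_num
  let t : V → ℤ := fun w => 2 + (if w = o then 4 else 0) + (if w = v then 4 else 0) - 2 * a G o w - 2 * a G v w + 2 * p w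
  have xo : x o = 6 := by
    rw [← hp]; refine sum_congr rfl fun z _ => ?_
    simp only [p]; rw [mul_right_comm, a_sq]
  have xv : x v = 6 := by
    rw [← hp]; refine sum_congr rfl fun z _ => ?_
    simp only [p]; rw [mul_assoc, a_sq]
  have x0 : ∀ w, G.Adj o w ∨ G.Adj v w → x w = 0 := fun w hw => sum_eq_zero fun z _ => by
    simp only [p, a]
    split_ifs with b1 b2 b3 <;> try simp
    rcases hw with hw | hw
    · exact tri hG hw b1 b3
    · exact tri hG hw b2 b3
  have hvo : ¬ G.Adj v o := fun e => h' e.symm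
  have e3 : ∀ w, (x w - t w) ^ 2 = x w * x w - 4 * x w + 4 + (if w = o then -16 else 0) + (if w = v then -16 else 0)
      - 4 * a G o w - 4 * a G v w + 4 * p w := fun w => by
    by_cases c1 : w = o
    · subst c1; simp [t, p, a, xo, h, hvo]
    by_cases c2 : w = v
    · subst c2; simp [t, p, a, xv, c1, h']
    by_cases c3 : G.Adj o w
    · by_cases c4 : G.Adj v w <;> simp [t, p, a, c1, c2, c3, c4, x0 w (.inl c3)]
    by_cases c4 : G.Adj v w
    · simp [t, p, a, c1, c2, c3, c4, x0 w (.inr c4)]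
    · simp [t, p, a, c1, c2, c3, c4]; ring
  have s3 : ∑ w, (x w - t w) ^ 2 = 0 := by
    simp only [e3, sum_add_distrib, sum_sub_distrib, ← mul_sum, s1, s2, deg hG, hp, sum_ite_eq', mem_univ, if_true,
      sum_const, card_univ, hG.card]
    norm_num
  have := (sum_eq_zero_iff_of_nonneg fun w _ => sq_nonneg _).1 s3 w (mem_univ _)
  have := sub_eq_zero.1 (pow_eq_zero_iff (two_ne_zero) |>.1 this)
  simpa [t, p, a, w1, w2, w3, w4, x] using this

noncomputable def bl (G : SimpleGraph V) (o v : V) : Finset {x // G.Adj o x} := univ.filter fun x => G.Adj v x.1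

theorem card_bl2 (o v w : V) : (((bl G o v) ∩ (bl G o w)).card : ℤ) = ∑ z, a G o z * a G v z * a G w z := by
  have e : ∀ z, a G o z * a G v z * a G w z = if G.Adj o z ∧ G.Adj v z ∧ G.Adj w z then 1 else 0 := fun z => by
    unfold a; split_ifs <;> simp_all
  simp only [e, sum_boole]
  congr 1
  refine card_bij (fun x _ => x.1) (fun x hx => ?_) (fun x _ y _ e => Subtype.ext e) (fun z hz => ?_)
  · simp [bl] at hx ⊢; exact ⟨x.2, hx⟩
  · simp at hz; exact ⟨⟨z, hz.1⟩, by simp [bl, hz.2], rfl⟩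

theorem card_bl (hG : G.IsSRGWith 100 22 0 6) {o v : V} (h : v ≠ o) (h' : ¬ G.Adj o v) : (bl G o v).card = 6 := by
  have := card_bl2 (G := G) o v v
  simp only [mul_assoc, a_sq, com hG h.symm h', inter_self] at this
  exact_mod_cast this

theorem inter (hG : G.IsSRGWith 100 22 0 6) {o v w : V} (h : v ≠ o) (h' : ¬ G.Adj o v) (w1 : w ≠ o) (w3 : ¬ G.Adj o w) (e : v ≠ w) :
    (bl G o v ∩ bl G o w).card = if G.Adj v w then 0 else 2 := by
  split_ifs with c
  · rw [card_eq_zero, eq_empty_iff_forall_notMem]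
    intro x hx
    simp [bl] at hx
    exact tri hG c hx.1 hx.2
  · have := card_bl2 (G := G) o v w
    rw [key hG h.symm h' w1 e.symm w3 c] at this
    exact_mod_cast this

def BB (G : SimpleGraph V) (o : V) : Set (Finset {x // G.Adj o x}) := {s | ∃ v, v ≠ o ∧ ¬ G.Adj o v ∧ s = bl G o v}

theorem cardX (hG : G.IsSRGWith 100 22 0 6) (o : V) : Fintype.card {x // G.Adj o x} = 22 := by
  have := hG.regular.degree_eq o
  rw [← G.card_neighborFinset_eq_degree, G.neighborFinset_eq_filter] at this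
  rw [Fintype.card_subtype]; convert this

theorem uq (hG : G.IsSRGWith 100 22 0 6) {o v w : V} (h : v ≠ o) (h' : ¬ G.Adj o v) (w1 : w ≠ o) (w3 : ¬ G.Adj o w)
    {s : Finset {x // G.Adj o x}} (hs : s.card = 3) (a1 : s ⊆ bl G o v) (a2 : s ⊆ bl G o w) : v = w := by
  by_contra e
  have := card_le_card (subset_inter a1 a2)
  rw [inter hG h h' w1 w3 e] at this
  split_ifs at this <;> omega

theorem steiner (hG : G.IsSRGWith 100 22 0 6) (o : V) : IsSteinerSystem 3 6 (BB G o) := by
  refine ⟨by rintro _ ⟨v, h, h', rfl⟩; exact card_bl hG h h', fun s hs => ?_⟩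
  let N : Finset V := univ.filter fun v => v ≠ o ∧ ¬ G.Adj o v
  have cN : N.card = 77 := by
    have e : ∀ w, (if w ≠ o ∧ ¬ G.Adj o w then 1 else 0 : ℤ) = 1 - (if w = o then 1 else 0) - a G o w := fun w => by
      by_cases c : w = o
      · subst c; simp [a]
      · by_cases d : G.Adj o w <;> simp [a, c, d]
    have : (N.card : ℤ) = 77 := by
      rw [← sum_boole]
      simp only [e, sum_sub_distrib, deg hG, sum_ite_eq', mem_univ, if_true, sum_const, card_univ, hG.card]
      norm_num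
    exact_mod_cast this
  have c1 : (N.biUnion fun v => (bl G o v).powersetCard 3).card = 1540 := by
    rw [card_biUnion, sum_congr rfl (g := fun _ => 20), sum_const, cN]; · rfl
    · intro v hv
      simp only [N, mem_filter] at hv
      rw [card_powersetCard, card_bl hG hv.2.1 hv.2.2]; rfl
    · intro v hv w hw e
      simp only [N, coe_filter, Set.mem_setOf_eq] at hv hw
      refine disjoint_left.2 fun s h1 h2 => e ?_
      rw [mem_powersetCard] at h1 h2
      exact uq hG hv.2.1 hv.2.2 hw.2.1 hw.2.2 h1.2 h1.1 h2.1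
  have c2 : (N.biUnion fun v => (bl G o v).powersetCard 3) = univ.powersetCard 3 := by
    refine eq_of_subset_of_card_le (fun s hs => ?_) ?_
    · simp only [mem_biUnion, mem_powersetCard] at hs ⊢
      obtain ⟨_, _, _, h⟩ := hs
      exact ⟨subset_univ _, h⟩
    · rw [c1, card_powersetCard, card_univ]
      have := cardX hG o
      rw [show Fintype.card {x // G.Adj o x} = 22 by convert this]; decide
  have : s ∈ (N.biUnion fun v => (bl G o v).powersetCard 3) := by rw [c2, mem_powersetCard]; exact ⟨subset_univ _, hs⟩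
  simp only [mem_biUnion, mem_powersetCard, N, mem_filter] at this
  obtain ⟨v, ⟨-, h, h'⟩, h1, -⟩ := this
  refine ⟨bl G o v, ⟨⟨v, h, h', rfl⟩, h1⟩, ?_⟩
  rintro _ ⟨⟨w, w1, w3, rfl⟩, h2⟩
  rw [uq hG h h' w1 w3 hs h1 h2]

noncomputable def ψ (G : SimpleGraph V) (o v : V) : Option ({x // G.Adj o x} ⊕ BB G o) :=
  if h : v = o then none else if h2 : G.Adj o v then some (.inl ⟨v, h2⟩) else some (.inr ⟨bl G o v, v, h, h2, rfl⟩)

theorem bl_inj (hG : G.IsSRGWith 100 22 0 6) {o v w : V} (h : v ≠ o) (h' : ¬ G.Adj o v) (w1 : w ≠ o) (w3 : ¬ G.Adj o w)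
    (e : bl G o v = bl G o w) : v = w := by
  by_contra n
  have := inter hG h h' w1 w3 n
  rw [← e, inter_self, card_bl hG h h'] at this
  split_ifs at this <;> omega

theorem ψ_bij (hG : G.IsSRGWith 100 22 0 6) (o : V) : Function.Bijective (ψ G o) := by
  refine ⟨fun v w e => ?_, ?_⟩
  · unfold ψ at e
    split_ifs at e with a1 a2 a3 a4 a5 a6 a7 a8
    · rw [a1, a2]
    · exact congrArg Subtype.val (Sum.inl.inj (Option.some.inj e))
    · cases Option.some.inj e
    · cases Option.some.inj e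
    · exact bl_inj hG a1 a4 a7 a8 (congrArg Subtype.val (Sum.inr.inj (Option.some.inj e)))
  · rintro (_ | x | ⟨_, v, h, h', rfl⟩)
    · exact ⟨o, by simp [ψ]⟩
    · exact ⟨x.1, by rw [ψ, dif_neg x.2.ne', dif_pos x.2]⟩
    · exact ⟨v, by rw [ψ, dif_neg h, dif_neg h']⟩

theorem ψ_adj (hG : G.IsSRGWith 100 22 0 6) (o v w : V) : (pointBlockGraph (BB G o)).Adj (ψ G o v) (ψ G o w) ↔ G.Adj v w := by
  by_cases e : v = w
  · subst e; simp
  rw [pointBlockGraph, SimpleGraph.fromRel_adj, and_iff_right ((ψ_bij hG o).1.ne e)]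
  unfold ψ
  split_ifs with a1 a2 a3 a4 a5 a6 a7 a8 <;> simp only [pointBlockRel, or_false, false_or, or_self, true_iff, false_iff]
  · exact fun _ => e (a1.trans a2.symm)
  · exact a1 ▸ a3
  · exact a1 ▸ a3
  · exact a5 ▸ a4.symm
  · exact tri hG a4 a6
  · simp [bl, G.adj_comm]
  · exact fun h => a4 (a7 ▸ h.symm)
  · simp [bl]
  · have := inter hG a1 a4 a7 a8 e
    rw [disjoint_comm (a := bl G o w), or_self, disjoint_iff_inter_eq_empty, ← card_eq_zero, this]
    split_ifs with c <;> simp [c]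

theorem std (hG : G.IsSRGWith 100 22 0 6) : ∃ f : ℕ → V, (∀ a < 100, ∀ b < 100, f a = f b → a = b) ∧ (∀ v, ∃ a < 100, f a = v) ∧
    ∀ a < 100, ∀ b < 100, G.Adj (f a) (f b) ↔ H7.tb (HG.AT.get a) b = true := by
  obtain ⟨o⟩ : Nonempty V := Fintype.card_pos_iff.1 (by rw [hG.card]; norm_num)
  have e : ∃ B : Set (Finset {x // G.Adj o x}), IsSteinerSystem 3 6 B ∧ Nonempty (G ≃g pointBlockGraph B) :=
    ⟨BB G o, steiner hG o, ⟨⟨Equiv.ofBijective _ (ψ_bij hG o), fun {v w} => ψ_adj hG o v w⟩⟩⟩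
  obtain ⟨B, hB, ⟨e⟩⟩ := e
  obtain ⟨C, hn, rfl⟩ := StA.huq (cardX hG o) hB
  refine ⟨fun a => e.symm (HG.vt C a), fun a ha b hb h => HG.vt_inj hn a ha b hb (e.symm.injective h), fun v => ?_, fun a ha b hb => ?_⟩
  · obtain ⟨a, ha, h⟩ := HG.vt_sur hn (e v)
    exact ⟨a, ha, by simp [h]⟩
  · rw [e.symm.map_adj_iff, HG.adj_iff hn ha hb]

theorem main {W : Type*} [Fintype W] {H : SimpleGraph W} [DecidableRel H.Adj] (hG : G.IsSRGWith 100 22 0 6)
    (hH : H.IsSRGWith 100 22 0 6) : Nonempty (G ≃g H) := by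
  obtain ⟨f, f1, f2, f3⟩ := std hG
  obtain ⟨g, g1, g2, g3⟩ := std hH
  choose c c1 c2 using f2
  have hb : Function.Bijective fun v => g (c v) := by
    refine ⟨fun v w e => ?_, fun y => ?_⟩
    · rw [← c2 v, ← c2 w, g1 _ (c1 v) _ (c1 w) e]
    · obtain ⟨b, hb, rfl⟩ := g2 y
      exact ⟨f b, congrArg g (f1 _ (c1 _) _ hb (c2 _))⟩
  refine ⟨⟨Equiv.ofBijective _ hb, fun {v w} => ?_⟩⟩
  show H.Adj (g (c v)) (g (c w)) ↔ _
  rw [g3 _ (c1 v) _ (c1 w), ← f3 _ (c1 v) _ (c1 w), c2, c2]

end H8.SrgU
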