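import Mathlib
import Cfsg.Prelude.Def_KGroupFacts

/-! H8.Stem: two perfect central extensions are dominated by a common stem extension -/

set_option autoImplicit false
set_option linter.all false
open Subgroup Cfsg
open scoped commutatorElement

namespace H8

theorem cm_cen {L : Type*} [Group L] {z w : L} (hz : z ∈ center L) (hw : w ∈ center L) (a b : L) : ⁅z * a, w * b⁆ = ⁅a, b⁆ := by
  have h : ∀ z ∈ center L, ∀ a u : L, ⁅z * a, u⁆ = ⁅a, u⁆ := fun z hz a u => by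
    rw [commutatorElement_def, commutatorElement_def, show z * a * u * (z * a)⁻¹ = z * (a * u * a⁻¹) * z⁻¹ by group,
      ← mem_center_iff.1 hz, mul_inv_cancel_right]
  rw [h z hz, ← commutatorElement_inv, h w hw, commutatorElement_inv]

/-- if every finite stem extension whose kernel satisfies `x ^ e = 1` has kernel of order at most `c`, the extensions with kernel of order `c` are isomorphic -/
theorem stem_unique {L₁ L₂ : Type*} {G : Type} [Group L₁] [Finite L₁] [Group L₂] [Finite L₂] [Group G] (p₁ : Group.IsPerfect L₁) (p₂ : Group.IsPerfect L₂)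
    (e₁ : L₁ ⧸ center L₁ ≃* G) (e₂ : L₂ ⧸ center L₂ ≃* G) {c e : ℕ} (c₁ : Nat.card (center L₁) = c) (c₂ : Nat.card (center L₂) = c)
    (x₁ : ∀ x ∈ center L₁, x ^ e = 1) (x₂ : ∀ x ∈ center L₂, x ^ e = 1)
    (h : ∀ (Γ : Type) [Group Γ] [Finite Γ] (σ : Γ →* G), IsStemExtension σ → (∀ x : σ.ker, x ^ e = 1) → Nat.card σ.ker ≤ c) : Nonempty (L₁ ≃* L₂) := by
  let σ₁ := e₁.toMonoidHom.comp (QuotientGroup.mk' _)
  let σ₂ := e₂.toMonoidHom.comp (QuotientGroup.mk' _)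
  have s₁ : Function.Surjective σ₁ := e₁.surjective.comp (QuotientGroup.mk'_surjective _)
  have s₂ : Function.Surjective σ₂ := e₂.surjective.comp (QuotientGroup.mk'_surjective _)
  have k₁ : ∀ x, σ₁ x = 1 → x ∈ center L₁ := fun x h => (QuotientGroup.eq_one_iff x).1 (e₁.map_eq_one_iff.1 h)
  have k₂ : ∀ x, σ₂ x = 1 → x ∈ center L₂ := fun x h => (QuotientGroup.eq_one_iff x).1 (e₂.map_eq_one_iff.1 h)
  let P := (σ₁.comp (MonoidHom.fst L₁ L₂)).eqLocus (σ₂.comp (MonoidHom.snd L₁ L₂))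
  have mP : ∀ x, x ∈ P ↔ σ₁ x.1 = σ₂ x.2 := fun _ => Iff.rfl
  have le : ⁅P, P⁆ ≤ P := commutator_le.2 fun a ha b hb => mul_mem (mul_mem (mul_mem ha hb) (inv_mem ha)) (inv_mem hb)
  have t₁ : ⁅P, P⁆.map (MonoidHom.fst L₁ L₂) = ⊤ := by
    rw [map_commutator, show P.map (MonoidHom.fst L₁ L₂) = ⊤ from eq_top_iff.2 fun x _ => (s₂ (σ₁ x)).elim fun y h => ⟨(x, y), h.symm, rfl⟩]
    exact p₁.commutator_eq_top
  have t₂ : ⁅P, P⁆.map (MonoidHom.snd L₁ L₂) = ⊤ := by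
    rw [map_commutator, show P.map (MonoidHom.snd L₁ L₂) = ⊤ from eq_top_iff.2 fun x _ => (s₁ (σ₂ x)).elim fun y h => ⟨(y, x), h, rfl⟩]
    exact p₂.commutator_eq_top
  have pf : ⁅P, P⁆ ≤ ⁅⁅P, P⁆, ⁅P, P⁆⁆ := commutator_le.2 fun a ha b hb => by
    have d : ∀ a ∈ P, ∃ g ∈ ⁅P, P⁆, ∃ z ∈ center L₂, a = (g.1, z * g.2) := fun a ha => by
      obtain ⟨g, hg, e⟩ := t₁.ge (mem_top a.1)
      refine ⟨g, hg, a.2 * g.2⁻¹, k₂ _ ?_, Prod.ext e.symm (by simp)⟩
      rw [map_mul, map_inv, ← (mP _).1 ha, ← (mP _).1 (le hg), show g.1 = a.1 from e, mul_inv_cancel]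
    obtain ⟨g, hg, z, hz, rfl⟩ := d a ha
    obtain ⟨g', hg', w, hw, rfl⟩ := d b hb
    rw [show ⁅((g.1, z * g.2) : L₁ × L₂), ((g'.1, w * g'.2) : L₁ × L₂)⁆ = ⁅g, g'⁆ from Prod.ext rfl (cm_cen hz hw _ _)]
    exact commutator_mem_commutator hg hg'
  generalize ⁅P, P⁆ = Γ at *
  let ι : Shrink.{0} Γ ≃* Γ := Shrink.mulEquiv
  haveI : Finite (Shrink.{0} Γ) := .of_equiv _ ι.toEquiv.symm
  let j := Γ.subtype.comp ι.toMonoidHom
  have ji : Function.Injective j := Γ.subtype_injective.comp ι.injective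
  have q₁ : Function.Surjective ((MonoidHom.fst L₁ L₂).comp j) := fun x => (t₁.ge (mem_top x)).elim fun g h => ⟨ι.symm ⟨g, h.1⟩, by simpa [j] using h.2⟩
  have q₂ : Function.Surjective ((MonoidHom.snd L₁ L₂).comp j) := fun x => (t₂.ge (mem_top x)).elim fun g h => ⟨ι.symm ⟨g, h.1⟩, by simpa [j] using h.2⟩
  let τ := σ₁.comp ((MonoidHom.fst L₁ L₂).comp j)
  have kz : ∀ x ∈ τ.ker, (j x).1 ∈ center L₁ ∧ (j x).2 ∈ center L₂ := fun x hx => ⟨k₁ _ hx, k₂ _ (((mP _).1 (le (ι x).2)).symm.trans hx)⟩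
  have sτ : Function.Surjective τ := s₁.comp q₁
  have b := h _ τ ⟨sτ, fun x hx => mem_center_iff.2 fun y => ji (by
      rw [map_mul, map_mul]; exact Prod.ext (mem_center_iff.1 (kz x hx).1 _) (mem_center_iff.1 (kz x hx).2 _)), fun x _ => by
      have : (commutator (Shrink.{0} Γ)).map j = ⁅Γ, Γ⁆ := by
        rw [commutator_def, map_commutator, ← MonoidHom.range_eq_map, MonoidHom.range_comp, MonoidHom.range_eq_top.2 ι.surjective,
          ← MonoidHom.range_eq_map, range_subtype]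
      obtain ⟨y, hy, e⟩ := this.ge (pf (ι x).2)
      exact ji e ▸ hy⟩
    fun x => Subtype.ext (ji (by
      rw [coe_pow, map_pow, OneMemClass.coe_one, map_one]; exact Prod.ext (x₁ _ (kz _ x.2).1) (x₂ _ (kz _ x.2).2)))
  have cΓ : Nat.card (Shrink.{0} Γ) ≤ c * Nat.card G := by
    rw [← τ.ker.card_mul_index, index_ker, MonoidHom.range_eq_top.2 sτ, card_top]; exact Nat.mul_le_mul_right _ b
  exact ⟨(MulEquiv.ofBijective _ (q₁.bijective_of_nat_card_le (cΓ.trans (by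
      rw [← (center L₁).card_mul_index, c₁, index_eq_card, Nat.card_congr e₁.toEquiv])))).symm.trans
    (MulEquiv.ofBijective _ (q₂.bijective_of_nat_card_le (cΓ.trans (by
      rw [← (center L₂).card_mul_index, c₂, index_eq_card, Nat.card_congr e₂.toEquiv]))))⟩

end H8
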