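import Cfsg.Agent.H8.GK
import Cfsg.Agent.H8.GM

/-! H8.TC: systematic linear codes listed by index; monomial automorphisms of codes. -/

set_option autoImplicit false
open Cfsg Finset
open H7 (Coding pc24 Inj)
open scoped Pointwise

noncomputable section
namespace H8

theorem ncard_cnt {Ω : Type*} {N : ℕ} {dec : ℕ → Ω} (h : Inj N dec) (f : ℕ → Bool) : {ω | ∃ i < N, f i = true ∧ dec i = ω}.ncard = cnt N f := by
  rw [cnt_eq, ← Set.ncard_coe_finset, ← Set.InjOn.ncard_image (f := dec) fun i hi j hj =>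
    h i (mem_range.1 (mem_filter.1 hi).1) j (mem_range.1 (mem_filter.1 hj).1)]
  congr 1; ext; simp [and_assoc]

theorem steiner_of {X : Type*} [Fintype X] [DecidableEq X] {C : Coding X} {n t k : ℕ} (hn : C.n = n) (h24 : n ≤ 24) {L : List ℕ}
    (h : band (band (mskC n L) (allL L fun a => Nat.beq (pc24 a) k)) (enS (H7.ones n) (fun Y => Nat.beq (cntL L fun a => Nat.beq (Nat.land a Y) Y) 1) n t 0) = true) :
    IsSteinerSystem t k (blk C L) := by
  simp only [band_eq_true, allL_iff, Nat.beq_eq] at h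
  refine ⟨forall_blk.2 fun a ha => (card_fs' hn h24 (msk_lt h.1.1 a ha)).trans (h.1.2 a ha), fun s hs => ?_⟩
  obtain ⟨Y, hY, rfl, e⟩ := enS_all hn h.2 hs
  rw [Nat.beq_eq, ← ncard_blkP hn h.1.1 (T := {b | b ∈ blk C L ∧ C.fs Y ⊆ b}) _ (fun _ h => h.1) fun a ha h' => by
    rw [Set.mem_setOf_eq, fs_mem_blk hn h.1.1 h', sub_fs hn hY, Nat.beq_eq, and_iff_right ha]; rfl, Set.ncard_eq_one] at e
  obtain ⟨b, e⟩ := e
  exact ⟨b, e.ge rfl, fun c hc => e.le hc⟩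

variable {α F : Type*} [Fintype α] [DecidableEq α] [Field F]

def lw (C : FC) (Q d : ℕ) (g : ℕ → ℕ → ℕ) (i q : ℕ) : ℕ := C.sum d fun j => C.mul (i / Q ^ j % Q) (g j q)
def lm (C : FC) (Q d n : ℕ) (g : ℕ → ℕ → ℕ) (i : ℕ) : ℕ := fxP n fun q => ite' (C.eqv (lw C Q d g i q) 0) (q + 1) q

structure SCo (C : FC) (φ : ℕ → F) (D : Coding α) (Q d : ℕ) (g : ℕ → ℕ → ℕ) (M : Submodule F (α → F)) : Prop where
  fm : FM C φ
  le : d ≤ D.n
  sur : ∀ x, ∃ a < Q, φ a = x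
  inj : ∀ a < Q, C.nf a = a
  row : ∀ j < d, (fun p => φ (g j (D.code p))) ∈ M
  van : ∀ x ∈ M, (∀ j < d, x (D.dec j) = 0) → x = 0
  sys : ∀ j < d, ∀ k < d, g j k = if j = k then 1 else 0

variable {C : FC} {φ : ℕ → F} {D : Coding α} {Q d : ℕ} {g : ℕ → ℕ → ℕ} {M : Submodule F (α → F)}

def SCo.w (_ : SCo C φ D Q d g M) (i : ℕ) (p : α) : F := φ (lw C Q d g i (D.code p))

theorem exists_digits {Q d : ℕ} (a : ℕ → ℕ) (h : ∀ j < d, a j < Q) : ∃ i < Q ^ d, ∀ j < d, i / Q ^ j % Q = a j :=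
  ⟨finFunctionFinEquiv fun j : Fin d => ⟨a j, h j j.2⟩, Fin.prop _, fun j hj =>
    (finFunctionFinEquiv_symm_apply_val _ ⟨j, hj⟩).symm.trans (by rw [Equiv.symm_apply_apply])⟩

namespace SCo
variable [NeZero d] (h : SCo C φ D Q d g M)
include h

theorem w_eq (i : ℕ) : h.w i = ∑ j : Fin d, φ (i / Q ^ j.1 % Q) • fun p => φ (g j (D.code p)) := funext fun p => by
  rw [w, lw, h.fm.sum (ix_fin d), Finset.sum_apply]; simp only [h.fm.mul]; rfl

theorem w_dec (i : ℕ) {k : ℕ} (hk : k < d) : h.w i (D.dec k) = φ (i / Q ^ k % Q) := by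
  rw [w_eq, Finset.sum_apply, sum_eq_single ⟨k, hk⟩ (fun j _ e => ?_) (by simp)]
  · simp [D.code_dec k (hk.trans_le h.le), h.sys k hk k hk, h.fm.one]
  · simp [D.code_dec k (hk.trans_le h.le), h.sys j j.2 k hk, h.fm.zero, Fin.val_ne_of_ne e]

theorem le_of {N : Submodule F (α → F)} (e : ∀ j < d, (fun p => φ (g j (D.code p))) ∈ N) (i : ℕ) : h.w i ∈ N :=
  h.w_eq i ▸ N.sum_mem fun j _ => N.smul_mem _ (e j j.2)

theorem mem {x : α → F} : x ∈ M ↔ ∃ i < Q ^ d, h.w i = x := by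
  refine ⟨fun hx => ?_, fun ⟨i, _, e⟩ => e ▸ h.le_of h.row i⟩
  choose a h1 h2 using fun j => h.sur (x (D.dec j))
  obtain ⟨i, hi, e⟩ := exists_digits (d := d) a fun j _ => h1 j
  exact ⟨i, hi, sub_eq_zero.1 (h.van _ (M.sub_mem (h.le_of h.row i) hx) fun j hj => by rw [Pi.sub_apply, h.w_dec i hj, e j hj, h2, sub_self])⟩

theorem winj : Inj (Q ^ d) h.w := fun i hi j hj e => by
  have : (⟨i, hi⟩ : Fin (Q ^ d)) = ⟨j, hj⟩ := finFunctionFinEquiv.symm.injective (funext fun k => Fin.ext (by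
    have := h.fm.inj _ _ ((h.w_dec i k.2).symm.trans ((congrFun e _).trans (h.w_dec j k.2)))
    obtain ⟨a, ha, -⟩ := h.sur 0
    rwa [h.inj _ (Nat.mod_lt _ (by omega)), h.inj _ (Nat.mod_lt _ (by omega))] at this))
  exact congrArg Fin.val this

theorem ncard (P : (α → F) → Prop) (f : ℕ → Bool) (hf : ∀ i, P (h.w i) ↔ f i = true) : {x | x ∈ M ∧ P x}.ncard = cnt (Q ^ d) f := by
  rw [← ncard_cnt h.winj]
  congr 1; ext x
  simp only [Set.mem_setOf_eq, h.mem, ← hf]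
  exact ⟨fun ⟨⟨i, hi, e⟩, h⟩ => ⟨i, hi, e ▸ h, e⟩, fun ⟨i, hi, h, e⟩ => ⟨⟨i, hi, e⟩, e ▸ h⟩⟩

theorem supp [DecidableEq F] {n : ℕ} (hn : D.n = n) (i : ℕ) : (univ.filter fun p => h.w i p ≠ 0) = D.fs (lm C Q d n g i) := by
  ext p
  obtain ⟨q, hq, rfl⟩ := exists_dec hn p
  rw [dec_mem hn hq, lm, fxP_bit, mem_filter_univ, w, D.code_dec q (hn ▸ hq), ← h.fm.zero, Ne, ← h.fm.eqv]
  cases C.eqv (lw C Q d g i q) 0 <;> simp [ite'_true, ite'_false, hq]

theorem scard [DecidableEq F] {n : ℕ} (hn : D.n = n) (h24 : n ≤ 24) (i : ℕ) : #{p | h.w i p ≠ 0} = pc24 (lm C Q d n g i) := by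
  rw [h.supp hn, lm, card_fs' hn h24 (fxP_lt _ _)]

theorem diag {σ : Equiv.Perm α} {c : α → Fˣ} (e : ∀ x ∈ M, monomialMap σ c x ∈ M) (hσ : ∀ k < d, σ.symm (D.dec k) = D.dec k) {j : ℕ} (hj : j < d)
    (p : α) : c p * φ (g j (D.code (σ.symm p))) = c (D.dec j) * φ (g j (D.code p)) :=
  sub_eq_zero.1 (congrFun (h.van _ (M.sub_mem (e _ (h.row j hj)) (M.smul_mem (c (D.dec j)) (h.row j hj))) fun k hk => by
    simp only [monomialMap, Pi.sub_apply, Pi.smul_apply, hσ k hk, D.code_dec k (hk.trans_le h.le), h.sys j hj k hk, smul_eq_mul]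
    split_ifs with e <;> simp [e, h.fm.zero]) p)

theorem pres {n : ℕ} (hn : D.n = n) {σ : Equiv.Perm α} {f : ℕ → ℕ} (r : RepF n D.dec f σ) {c : ℕ → ℕ} {I : ℕ → ℕ}
    (e : (allB n fun q => band (bnot (C.eqv (c q) 0)) (allB d fun j => C.eqv (C.mul (c (f q)) (g j q)) (lw C Q d g (I j) (f q)))) = true) :
    ∃ c : α → Fˣ, ∀ x ∈ M, monomialMap σ c x ∈ M := by
  simp only [allB_iff, band_eq_true, bnot_eq_true, h.fm.eqv, h.fm.zero, h.fm.mul] at e
  let u : α → Fˣ := fun p => Units.mk0 _ (e _ (hn ▸ D.code_lt p)).1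
  let L : (α → F) →ₗ[F] α → F := ⟨⟨monomialMap σ u, fun _ _ => funext fun _ => mul_add _ _ _⟩, fun _ _ => funext fun _ => mul_left_comm _ _ _⟩
  refine ⟨u, fun x hx => ?_⟩
  obtain ⟨i, -, rfl⟩ := h.mem.1 hx
  refine h.le_of (N := M.comap L) (fun j hj => ?_) i
  rw [Submodule.mem_comap, show L _ = h.w (I j) from funext fun p => ?_]
  · exact h.le_of h.row _
  obtain ⟨q, hq, e'⟩ := exists_dec hn (σ.symm p)
  obtain rfl : p = D.dec (f q) := by rw [(r q hq).2, e']; simp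
  have := (e q hq).2 j hj
  simp only [L, u, w, monomialMap, LinearMap.coe_mk, AddHom.coe_mk, Units.val_mk0, ← e', D.code_dec q (hn ▸ hq), D.code_dec _ (hn ▸ (r q hq).1), this]

end SCo

omit [Fintype α] [DecidableEq α] in
theorem mm_mul (σ τ : Equiv.Perm α) (c e : α → Fˣ) (x : α → F) :
    monomialMap σ c (monomialMap τ e x) = monomialMap (σ * τ) (fun i => c i * e (σ.symm i)) x := funext fun i => by
  simp [monomialMap, mul_assoc, Equiv.Perm.mul_def]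

omit [Fintype α] [DecidableEq α] in
theorem pres_inv [Finite M] {σ : Equiv.Perm α} {c : α → Fˣ} (e : ∀ x ∈ M, monomialMap σ c x ∈ M) :
    ∀ x ∈ M, monomialMap σ⁻¹ (fun i => (c (σ i))⁻¹) x ∈ M := fun x hx => by
  have k : ∀ y, monomialMap σ⁻¹ (fun i => (c (σ i))⁻¹) (monomialMap σ c y) = y := fun y => funext fun i => by simp [monomialMap, Equiv.Perm.inv_def]
  obtain ⟨y, hy⟩ := (Finite.injective_iff_surjective (f := fun y : M => (⟨_, e y y.2⟩ : M))).1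
    (fun y z e => Subtype.ext ((k y).symm.trans ((congrArg _ (congrArg Subtype.val e)).trans (k z)))) ⟨x, hx⟩
  rw [← show _ = x from congrArg Subtype.val hy, k]; exact y.2

variable (M) in
def mK [Finite M] : Subgroup (Equiv.Perm α) where
  carrier := {σ | ∃ c : α → Fˣ, ∀ x ∈ M, monomialMap σ c x ∈ M}
  one_mem' := ⟨1, fun x hx => by convert hx; ext; simp [monomialMap, Equiv.Perm.one_def]⟩
  mul_mem' := fun {σ τ} ⟨c, h⟩ ⟨e, h'⟩ => ⟨_, fun x hx => mm_mul σ τ c e x ▸ h _ (h' x hx)⟩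
  inv_mem' := fun ⟨_, h⟩ => ⟨_, pres_inv h⟩

omit [Fintype α] [DecidableEq α] in
theorem card_mon [Finite M] [Nonempty α] (h : ∀ c : α → Fˣ, (∀ x ∈ M, monomialMap 1 c x ∈ M) → ∀ i j, c i = c j) :
    Nat.card {f : Equiv.Perm α × (α → Fˣ) // ∀ x ∈ M, monomialMap f.1 f.2 x ∈ M} = Nat.card (mK M) * Nat.card Fˣ := by
  choose c hc using fun σ : mK M => show ∃ c : α → Fˣ, ∀ x ∈ M, monomialMap σ c x ∈ M from σ.2
  rw [← Nat.card_prod]
  refine (Nat.card_eq_of_bijective (fun f : mK M × Fˣ => ⟨(f.1, fun i => f.2 * c f.1 i), fun x hx => by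
    convert M.smul_mem f.2 (hc f.1 x hx); ext; simp [monomialMap, mul_assoc]⟩) ⟨fun f f' e => ?_, fun ⟨⟨σ, e⟩, he⟩ => ?_⟩).symm
  · obtain ⟨e1, e2⟩ := Prod.mk.inj (congrArg Subtype.val e)
    have e1 : f.1 = f'.1 := Subtype.ext e1
    exact Prod.ext e1 (mul_right_cancel ((congrFun e2 (Classical.arbitrary α)).trans (by rw [e1])))
  · have := h _ fun x hx => mul_inv_cancel σ ▸ mm_mul σ σ⁻¹ e _ x ▸ he _ (pres_inv (hc ⟨σ, e, he⟩) x hx)
    refine ⟨(⟨σ, e, he⟩, e (Classical.arbitrary α) * (c ⟨σ, e, he⟩ (Classical.arbitrary α))⁻¹), Subtype.ext (Prod.ext rfl (funext fun i => ?_))⟩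
    have := this (Classical.arbitrary α) i
    simp only [Equiv.apply_symm_apply] at this
    simp only [this, inv_mul_cancel_right]

end H8
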