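import Cfsg.Agent.H8.TC
import Cfsg.Agent.H8.StC
import Cfsg.Agent.H8.Alt

/-! H8.TD: the ternary Golay code and the hexacode (generated certificate) -/

set_option autoImplicit false
set_option maxRecDepth 200000

set_option linter.all false
open Subgroup Cfsg Pointwise

namespace H8.TD

def tC : H7.Coding ArrayPt where
  n := 12
  dec q := (Fin.ofNat 4 (ap 4 15 (nat_lit 0x9b6587a43210) q / 3), (ap 4 15 (nat_lit 0x9b6587a43210) q : ℕ))
  code p := ap 4 15 (nat_lit 0xa5b769843210) (3 * p.1.1 + p.2.val)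
  code_lt := by decide +kernel
  dec_code := by decide +kernel
  code_dec := by decide +kernel
def tg (j q : ℕ) : ℕ := ap 2 3 (nat_lit 0x58a400962100668040456010a1a004159001) (12 * j + q)
noncomputable def tm : Tr (ℕ × ℕ) := (.node (nat_lit 4) (.node (nat_lit 2) (.node (nat_lit 1) (.leaf ((nat_lit 11184805), (nat_lit 0x145e621cb415052))) (.leaf ((nat_lit 11184805), (nat_lit 0x288f34a5f87a5e7)))) (.node (nat_lit 3) (.leaf ((nat_lit 5592425), (nat_lit 0x5119594863a38f4))) (.leaf ((nat_lit 5592425), (nat_lit 0xa22371b2497b145)))))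
 (.node (nat_lit 6) (.node (nat_lit 5) (.leaf ((nat_lit 5592405), (nat_lit 0x7990e510fc00cf4))) (.leaf ((nat_lit 6727077), (nat_lit 0x4824945d298342e)))) (.node (nat_lit 7) (.leaf ((nat_lit 9807273), (nat_lit 0x4d5628944b83503))) (.leaf ((nat_lit 10066581), (nat_lit 0x4194619d9f77e9a))))))
noncomputable def th : Tr ℕ := (.node (nat_lit 2110) (.node (nat_lit 1182) (.node (nat_lit 694) (.node (nat_lit 444) (.node (nat_lit 287) (.node (nat_lit 221) (.node (nat_lit 175) (.leaf (nat_lit 673)) (.leaf (nat_lit 292))) (.node (nat_lit 250) (.leaf (nat_lit 154)) (.leaf (nat_lit 462))))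
 (.node (nat_lit 377) (.node (nat_lit 366) (.leaf (nat_lit 229)) (.leaf (nat_lit 525))) (.node (nat_lit 435) (.leaf (nat_lit 433)) (.leaf (nat_lit 571)))))
 (.node (nat_lit 573) (.node (nat_lit 470) (.node (nat_lit 459) (.leaf (nat_lit 387)) (.leaf (nat_lit 61))) (.node (nat_lit 485) (.leaf (nat_lit 102)) (.leaf (nat_lit 496))))
 (.node (nat_lit 619) (.node (nat_lit 606) (.leaf (nat_lit 604)) (.leaf (nat_lit 210))) (.node (nat_lit 667) (.leaf (nat_lit 544)) (.leaf (nat_lit 196))))))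
 (.node (nat_lit 884) (.node (nat_lit 807) (.node (nat_lit 748) (.node (nat_lit 711) (.leaf (nat_lit 660)) (.leaf (nat_lit 13))) (.node (nat_lit 753) (.leaf (nat_lit 279)) (.leaf (nat_lit 325))))
 (.node (nat_lit 845) (.node (nat_lit 826) (.leaf (nat_lit 259)) (.leaf (nat_lit 354))) (.node (nat_lit 851) (.leaf (nat_lit 46)) (.leaf (nat_lit 88)))))
 (.node (nat_lit 984) (.node (nat_lit 917) (.node (nat_lit 910) (.leaf (nat_lit 414)) (.leaf (nat_lit 75))) (.node (nat_lit 937) (.leaf (nat_lit 181)) (.leaf (nat_lit 298))))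
 (.node (nat_lit 1083) (.node (nat_lit 994) (.leaf (nat_lit 108)) (.leaf (nat_lit 246))) (.node (nat_lit 1103) (.leaf (nat_lit 385)) (.node (nat_lit 1148) (.leaf (nat_lit 43)) (.leaf (nat_lit 711))))))))
 (.node (nat_lit 1582) (.node (nat_lit 1370) (.node (nat_lit 1257) (.node (nat_lit 1235) (.node (nat_lit 1205) (.leaf (nat_lit 120)) (.leaf (nat_lit 415))) (.node (nat_lit 1254) (.leaf (nat_lit 166)) (.leaf (nat_lit 507))))
 (.node (nat_lit 1334) (.node (nat_lit 1325) (.leaf (nat_lit 514)) (.leaf (nat_lit 559))) (.node (nat_lit 1365) (.leaf (nat_lit 426)) (.leaf (nat_lit 91)))))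
 (.node (nat_lit 1450) (.node (nat_lit 1415) (.node (nat_lit 1379) (.leaf (nat_lit 138)) (.leaf (nat_lit 247))) (.node (nat_lit 1433) (.leaf (nat_lit 25)) (.leaf (nat_lit 109))))
 (.node (nat_lit 1520) (.node (nat_lit 1484) (.leaf (nat_lit 543)) (.leaf (nat_lit 63))) (.node (nat_lit 1559) (.leaf (nat_lit 324)) (.leaf (nat_lit 103))))))
 (.node (nat_lit 1748) (.node (nat_lit 1677) (.node (nat_lit 1637) (.node (nat_lit 1625) (.leaf (nat_lit 309)) (.leaf (nat_lit 217))) (.node (nat_lit 1650) (.leaf (nat_lit 262)) (.leaf (nat_lit 570))))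
 (.node (nat_lit 1720) (.node (nat_lit 1699) (.leaf (nat_lit 64)) (.leaf (nat_lit 493))) (.node (nat_lit 1738) (.leaf (nat_lit 432)) (.leaf (nat_lit 30)))))
 (.node (nat_lit 1862) (.node (nat_lit 1820) (.node (nat_lit 1803) (.leaf (nat_lit 90)) (.leaf (nat_lit 31))) (.node (nat_lit 1841) (.leaf (nat_lit 198)) (.leaf (nat_lit 649))))
 (.node (nat_lit 1938) (.node (nat_lit 1896) (.leaf (nat_lit 12)) (.leaf (nat_lit 513))) (.node (nat_lit 1956) (.leaf (nat_lit 165)) (.node (nat_lit 1985) (.leaf (nat_lit 495)) (.leaf (nat_lit 1)))))))))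
 (.node (nat_lit 2947) (.node (nat_lit 2513) (.node (nat_lit 2347) (.node (nat_lit 2233) (.node (nat_lit 2157) (.node (nat_lit 2139) (.leaf (nat_lit 642)) (.leaf (nat_lit 112))) (.node (nat_lit 2199) (.leaf (nat_lit 307)) (.leaf (nat_lit 97))))
 (.node (nat_lit 2275) (.node (nat_lit 2254) (.leaf (nat_lit 703)) (.leaf (nat_lit 66))) (.node (nat_lit 2292) (.leaf (nat_lit 250)) (.leaf (nat_lit 576)))))
 (.node (nat_lit 2418) (.node (nat_lit 2375) (.node (nat_lit 2357) (.leaf (nat_lit 520)) (.leaf (nat_lit 343))) (.node (nat_lit 2396) (.leaf (nat_lit 22)) (.leaf (nat_lit 117))))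
 (.node (nat_lit 2458) (.node (nat_lit 2445) (.leaf (nat_lit 651)) (.leaf (nat_lit 37))) (.node (nat_lit 2470) (.leaf (nat_lit 192)) (.leaf (nat_lit 255))))))
 (.node (nat_lit 2725) (.node (nat_lit 2645) (.node (nat_lit 2575) (.node (nat_lit 2536) (.leaf (nat_lit 163)) (.leaf (nat_lit 270))) (.node (nat_lit 2611) (.leaf (nat_lit 79)) (.leaf (nat_lit 409))))
 (.node (nat_lit 2680) (.node (nat_lit 2662) (.leaf (nat_lit 172)) (.leaf (nat_lit 264))) (.node (nat_lit 2716) (.leaf (nat_lit 675)) (.leaf (nat_lit 225)))))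
 (.node (nat_lit 2838) (.node (nat_lit 2761) (.node (nat_lit 2730) (.leaf (nat_lit 505)) (.leaf (nat_lit 516))) (.node (nat_lit 2770) (.leaf (nat_lit 28)) (.leaf (nat_lit 84))))
 (.node (nat_lit 2860) (.node (nat_lit 2841) (.leaf (nat_lit 93)) (.leaf (nat_lit 136))) (.node (nat_lit 2890) (.leaf (nat_lit 549)) (.node (nat_lit 2913) (.leaf (nat_lit 57)) (.leaf (nat_lit 487))))))))
 (.node (nat_lit 3401) (.node (nat_lit 3211) (.node (nat_lit 3111) (.node (nat_lit 3012) (.node (nat_lit 2992) (.leaf (nat_lit 4)) (.leaf (nat_lit 567))) (.node (nat_lit 3101) (.leaf (nat_lit 9)) (.leaf (nat_lit 208))))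
 (.node (nat_lit 3178) (.node (nat_lit 3158) (.leaf (nat_lit 499)) (.leaf (nat_lit 174))) (.node (nat_lit 3185) (.leaf (nat_lit 273)) (.leaf (nat_lit 568)))))
 (.node (nat_lit 3288) (.node (nat_lit 3250) (.node (nat_lit 3244) (.leaf (nat_lit 58)) (.leaf (nat_lit 522))) (.node (nat_lit 3269) (.leaf (nat_lit 327)) (.leaf (nat_lit 19))))
 (.node (nat_lit 3347) (.node (nat_lit 3342) (.leaf (nat_lit 189)) (.leaf (nat_lit 48))) (.node (nat_lit 3384) (.leaf (nat_lit 169)) (.leaf (nat_lit 594))))))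
 (.node (nat_lit 3651) (.node (nat_lit 3522) (.node (nat_lit 3476) (.node (nat_lit 3428) (.leaf (nat_lit 55)) (.leaf (nat_lit 252))) (.node (nat_lit 3489) (.leaf (nat_lit 171)) (.leaf (nat_lit 244))))
 (.node (nat_lit 3625) (.node (nat_lit 3610) (.leaf (nat_lit 3)) (.leaf (nat_lit 219))) (.node (nat_lit 3636) (.leaf (nat_lit 271)) (.leaf (nat_lit 333)))))
 (.node (nat_lit 3808) (.node (nat_lit 3718) (.node (nat_lit 3660) (.leaf (nat_lit 7)) (.leaf (nat_lit 36))) (.node (nat_lit 3729) (.leaf (nat_lit 21)) (.leaf (nat_lit 82))))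
 (.node (nat_lit 3874) (.node (nat_lit 3845) (.leaf (nat_lit 486)) (.leaf (nat_lit 10))) (.node (nat_lit 3920) (.leaf (nat_lit 489)) (.node (nat_lit 3976) (.leaf (nat_lit 81)) (.leaf (nat_lit 27))))))))))
theorem tmem {x : ArrayPt → ZMod 3} : x ∈ ternaryGolayCode ↔ ∃ s : ZMod 3, (∀ i : Fin 4, ∑ r : ZMod 3, x (i, r) = -s) ∧
    ∀ a b : ZMod 3, ∑ i : Fin 4, x (i, (a • ![0, 1, 1, 1] + b • ![1, 0, 1, 2] : Fin 4 → ZMod 3) i) = s :=
  exists_congr fun s => and_congr_right' ⟨fun h a b => h _ (Submodule.mem_span_pair.2 ⟨a, b, rfl⟩),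
    fun h t ht => let ⟨a, b, e⟩ := Submodule.mem_span_pair.1 ht; e ▸ h a b⟩
theorem tsc : SCo C3 Nat.cast tC 3 6 tg ternaryGolayCode where
  fm := fm3
  le := by decide
  sur := by decide
  inj := by decide
  row := by simp only [tmem]; decide +kernel
  sys := by decide +kernel
  van x hx h := by
    obtain ⟨i, hi, e⟩ := exists_digits (Q := 3) (d := 6) (fun j => (x (tC.dec (6 + j))).val) fun j _ => ZMod.val_lt _
    have k : x = fun p => ((if tC.code p < 6 then 0 else i / 3 ^ (tC.code p - 6) % 3 : ℕ) : ZMod 3) := funext fun p => by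
      have : tC.code p < 12 := tC.code_lt p
      split_ifs with h'
      · rw [← tC.dec_code p, h _ h', Nat.cast_zero]
      · rw [e _ (by omega), ZMod.natCast_zmod_val, Nat.add_sub_cancel' (not_lt.1 h'), tC.dec_code]
    rw [k, tmem] at hx
    rw [k]
    clear e k
    revert hx
    revert i
    decide +kernel
theorem thex : {h : Finset ArrayPt | ∃ x ∈ ternaryGolayCode, ternarySupport x = h ∧ h.card = 6} = blk tC StA.tL := by
  refine Set.ext fun s => ⟨fun ⟨x, hx, e, h⟩ => ?_, fun ⟨a, ha, e⟩ => ?_⟩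
  · obtain ⟨i, hi, rfl⟩ := tsc.mem.1 hx
    have := allB_iff.1 (show (allB (3 ^ 6) fun i => frc (lm C3 3 6 12 tg i) fun a => bor (bnot (Nat.beq (H7.pc24 a) 6)) (memL StA.tL a)) = true by decide +kernel) i hi
    rw [frc_eq, bor_eq_true, bnot_eq_true, Nat.beq_eq, memL_iff, ← tsc.scard (n := 12) rfl (by norm_num)] at this
    exact ⟨_, this.resolve_left (· (e ▸ h :)), (tsc.supp rfl i).symm.trans e⟩
  · obtain ⟨i, h⟩ := (show ∀ a ∈ StA.tL, ∃ i ∈ [th.get a], lm C3 3 6 12 tg i = a ∧ ((tC.fs a).card = 6 ∧ i < 3 ^ 6) by decide +kernel) a ha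
    exact ⟨_, tsc.mem.2 ⟨i, h.2.2.2, rfl⟩, (tsc.supp rfl i).trans (h.2.1 ▸ e), e ▸ h.2.2.1⟩
theorem tdiag (c : ArrayPt → (ZMod 3)ˣ) (h : ∀ x ∈ ternaryGolayCode, monomialMap 1 c x ∈ ternaryGolayCode) (p q : ArrayPt) : c p = c q := by
  have k : ∀ j < 6, ∀ p, (tg j (tC.code p) : ZMod 3) ≠ 0 → c p = c (tC.dec j) := fun j hj p e =>
    Units.ext (mul_right_cancel₀ e (tsc.diag h (fun _ _ => rfl) hj p))
  obtain ⟨j, hj, i, hi, r, h1, h2, h3, h4⟩ := (show ∀ p q : ArrayPt, ∃ j < 6, ∃ i < 6, ∃ r : ArrayPt, (tg j (tC.code p) : ZMod 3) ≠ 0 ∧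
    (tg j (tC.code r) : ZMod 3) ≠ 0 ∧ (tg i (tC.code r) : ZMod 3) ≠ 0 ∧ (tg i (tC.code q) : ZMod 3) ≠ 0 by decide +kernel) p q
  rw [k j hj p h1, ← k j hj r h2, k i hi r h3, ← k i hi q h4]
theorem tK : mK ternaryGolayCode = setSystemAut (blk tC StA.tL) := by
  have S := StC.tch (C := tC) rfl
  refine le_antisymm (fun σ ⟨c, h⟩ => ?_) (S.sub_le fun y hy => tsc.pres rfl (S.lets.rep y) (c := ap 2 3 (tm.get y).1) (I := ap 10 1023 (tm.get y).2)
    (by revert y; decide +kernel))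
  refine Set.eq_of_subset_of_ncard_le ?_ (Set.ncard_smul_set _ _).ge
  rw [← thex]
  rintro _ ⟨_, ⟨x, hx, rfl, e⟩, rfl⟩
  exact ⟨_, h x hx, by ext p; simp [ternarySupport, monomialMap, ← Finset.inv_smul_mem_iff, Equiv.Perm.inv_def], (Finset.card_smul_finset _ _).trans e⟩
def hC : H7.Coding (Fin 6) := ⟨6, Fin.ofNat 6, Fin.val, fun x => x.2, by decide, by decide⟩
def hg (j q : ℕ) : ℕ := ap 2 3 (nat_lit 0x550e44b41) (6 * j + q)
def h0 (j q : ℕ) : ℕ := ap 2 3 (nat_lit 0xebbbebbbe) (6 * j + q)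
def h1 (j q : ℕ) : ℕ := ap 2 3 (nat_lit 83918) (3 * j + q)
noncomputable def hm : Tr (ℕ × ℕ) := (.node (nat_lit 4) (.node (nat_lit 2) (.node (nat_lit 1) (.leaf ((nat_lit 4089), (nat_lit 50339841))) (.leaf ((nat_lit 2733), (nat_lit 33566721)))) (.node (nat_lit 3) (.leaf ((nat_lit 2733), (nat_lit 33615889))) (.leaf ((nat_lit 4089), (nat_lit 50389041)))))
 (.node (nat_lit 6) (.node (nat_lit 5) (.leaf ((nat_lit 3669), (nat_lit 4214789))) (.leaf ((nat_lit 2901), (nat_lit 20987921)))) (.node (nat_lit 7) (.leaf ((nat_lit 2901), (nat_lit 1064964))) (.leaf ((nat_lit 3669), (nat_lit 4195344))))))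
variable {F : Type*} [Field F] [Fintype F] {ω : F}
theorem hsc (hF : Fintype.card F = 4) (hω : ω ^ 2 + ω + 1 = 0) : SCo C4 (φ4 ω) hC 4 3 hg (hexacode F ω) := by
  haveI : CharP F 2 := charP_of_card (k := 2) (by norm_num) hF
  have h := fm4 hω
  have sur := h.surj 4 (by rw [hF]; decide +kernel)
  have e2 := (φ4_two ω).symm
  have e3 : ω ^ 2 = φ4 ω 3 := by rw [pow_two]; exact (congrArg₂ _ e2 e2).trans (h.mul 2 2).symm
  have m : ∀ x, x ∈ hexacode F ω ↔ ∃ a b c, (fun p : Fin 6 => φ4 ω (C4.add (C4.add (C4.mul a (h0 0 p)) (C4.mul b (h0 1 p))) (C4.mul c (h0 2 p)))) = x ∧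
      a < 4 ∧ b < 4 ∧ c < 4 := fun x => by
    rw [hexacode, show ![ω, ω ^ 2, ω ^ 2, ω, ω ^ 2, ω] = fun p : Fin 6 => φ4 ω (h0 0 p) by ext p; fin_cases p <;> assumption,
      show ![ω ^ 2, ω, ω, ω ^ 2, ω ^ 2, ω] = fun p : Fin 6 => φ4 ω (h0 1 p) by ext p; fin_cases p <;> assumption,
      show ![ω ^ 2, ω, ω ^ 2, ω, ω, ω ^ 2] = fun p : Fin 6 => φ4 ω (h0 2 p) by ext p; fin_cases p <;> assumption, Submodule.mem_span_triple]
    simp only [h.add, h.mul]
    refine ⟨fun ⟨a, b, c, e⟩ => ?_, fun ⟨a, b, c, e, _⟩ => ⟨_, _, _, e⟩⟩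
    obtain ⟨a, ha, rfl⟩ := sur a
    obtain ⟨b, hb, rfl⟩ := sur b
    obtain ⟨c, hc, rfl⟩ := sur c
    exact ⟨a, b, c, e, ha, hb, hc⟩
  refine ⟨h, by decide, sur, by decide, fun j hj => (m _).2 ⟨h1 j 0, h1 j 1, h1 j 2, funext fun p => h.eqv.1 ?_, ?_⟩, fun x hx k => ?_, by decide +kernel⟩
  · revert j p; decide +kernel
  · revert j; decide +kernel
  obtain ⟨a, b, c, rfl, ha, hb, hc⟩ := (m x).1 hx
  simp only [← h.zero, ← h.eqv] at k
  exact funext fun p => (h.eqv.1 (by clear hx; revert k p; revert c; revert b; revert a; decide +kernel)).trans h.zero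
theorem hdiag (hF : Fintype.card F = 4) (hω : ω ^ 2 + ω + 1 = 0) (c : Fin 6 → Fˣ) (h : ∀ x ∈ hexacode F ω, monomialMap 1 c x ∈ hexacode F ω) (p q : Fin 6) :
    c p = c q := by
  have S := hsc hF hω
  have k : ∀ j < 3, ∀ p, ¬ C4.eqv (hg j (hC.code p)) 0 = true → c p = c (hC.dec j) := fun j hj p e =>
    Units.ext (mul_right_cancel₀ (S.fm.zero ▸ S.fm.eqv.not.1 e) (S.diag h (fun _ _ => rfl) hj p))
  obtain ⟨j, hj, i, hi, h1, h2, h3, h4⟩ := (show ∀ p q : Fin 6, ∃ j < 3, ∃ i < 3, ¬ C4.eqv (hg j (hC.code p)) 0 = true ∧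
    ¬ C4.eqv (hg j (hC.code 5)) 0 = true ∧ ¬ C4.eqv (hg i (hC.code 5)) 0 = true ∧ ¬ C4.eqv (hg i (hC.code q)) 0 = true by decide +kernel) p q
  rw [k j hj p h1, ← k j hj _ h2, k i hi _ h3, ← k i hi q h4]
set_option synthInstance.maxSize 2000 in
theorem hK (hF : Fintype.card F = 4) (hω : ω ^ 2 + ω + 1 = 0) : mK (hexacode F ω) = alternatingGroup (Fin 6) := by
  have S := hsc hF hω
  have le : alternatingGroup (Fin 6) ≤ mK (hexacode F ω) := Alt.a6ch.sub_le fun y hy => S.pres rfl (Alt.a6ch.lets.rep y) (c := ap 2 3 (hm.get y).1)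
    (I := ap 10 1023 (hm.get y).2) (by revert y; decide +kernel)
  refine le_antisymm (fun σ h => by_contra fun e => ?_) le
  obtain ⟨c, h⟩ : Equiv.swap 3 4 ∈ mK (hexacode F ω) := by
    refine (mul_mem_cancel_left h).1 (le ?_)
    rw [Equiv.Perm.mem_alternatingGroup] at e ⊢
    rw [map_mul, Equiv.Perm.sign_swap (by decide), (Int.units_eq_one_or _).resolve_left e]; rfl
  have k := fun j hj => S.diag h (j := j) (by decide) hj
  have u : ∀ p, ∃ a < 4, φ4 ω a = c p ∧ ¬ C4.eqv a 0 = true := fun p => let ⟨a, h, e⟩ := S.sur (c p)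
    ⟨a, h, e, by rw [S.fm.eqv, e, S.fm.zero]; exact (c p).ne_zero⟩
  obtain ⟨a, ha, e0, h0⟩ := u (hC.dec 0)
  obtain ⟨b, hb, e1, -⟩ := u (hC.dec 1)
  obtain ⟨x, hx, e3, -⟩ := u 3
  obtain ⟨y, hy, e5, -⟩ := u 5
  have k1 := k 0 (by norm_num) 3
  have k2 := k 1 (by norm_num) 3
  have k3 := k 0 (by norm_num) 5
  have k4 := k 1 (by norm_num) 5
  simp only [← e0, ← e1, ← e3, ← e5, ← S.fm.mul, ← S.fm.eqv] at k1 k2 k3 k4
  clear e0 e1 e3 e5
  refine h0 ?_
  have k := And.intro k1 (And.intro k2 (And.intro k3 k4))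
  clear k1 k2 k3 k4 h0
  revert a b x y
  decide +kernel

end H8.TD
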