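import Cfsg.Agent.H8.UAD
import Cfsg.Agent.H8.Lift7

/-! H8.UA: involutions of U6(2) lift to involutions in central extensions by groups of exponent two -/

set_option autoImplicit false
set_option maxRecDepth 200000
set_option linter.all false
open Subgroup Cfsg

namespace H8.UA

theorem lift {G : Type*} [Group G] [Finite G] {X : Type*} [MulAction G X] {pt : ℕ → X} (C : Ch G 693 (nat_lit 10) (nat_lit 1023) pt U62.T U62.L)
    {H : Type*} [Group H] (π : H →* G) (hs : Function.Surjective π) (z : ∀ h, π h = 1 → h ∈ center H ∧ h * h = 1) (h : H) (h2 : π h * π h = 1) :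
    h * h = 1 := by
  haveI : Fact (Nat.Prime 2) := ⟨Nat.prime_two⟩
  obtain ⟨A, CA, -⟩ := (C.gen (lets_words C.lets aE aw) achain asd atc)
  obtain ⟨U, CU, -⟩ := (C.gen (lets_words C.lets uE uw) uchain usd utc)
  have UN := C.le_nor CU CA un
  have LM := lets_nor' C.base CA (lets_words C.lets mE mw) mn (by decide +kernel)
  have LR := lets_words C.lets rE rw
  have rt : RepF 693 pt _ ((ev CU.lets.e taw : U) : G) := rep_word CU.lets taw tap
  have rA : ∀ w, RepF 693 pt _ ((ev CA.lets.e w : A) : G) := apL_rep CA.lets.rep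
  have cj : ∀ {f g x y w}, RepF 693 pt f x → RepF 693 pt g y → cjB U62.T f g w = true → IsConj (α := G) x y := fun rf rg h =>
    isConj_iff.2 ⟨_, mul_inv_eq_iff_eq_mul.2 ((eqB_iff C.base C.inj ((apL_rep C.lets.rep _).comp rf) (rg.comp (apL_rep C.lets.rep _))).1 h)⟩
  have s7 : ∀ {j i W}, sv j i W = true → LR.e j * LR.e j = 1 ∧ ∀ k, π k = LR.e j → k * k = 1 := fun {j i W} h => by
    simp only [sv, band_eq_true] at h
    have x := LR.rep j
    have y := LR.rep i
    have x2 := (eqB_iff C.base C.inj (x.comp x) (RepF.id _ pt)).1 h.1.1.1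
    exact ⟨x2, lift7 hs z x2 ((eqB_iff C.base C.inj (y.comp y) (RepF.id _ pt)).1 h.1.1.2) (cj (rA _) x h.1.2.1) (cj (rA _) x h.1.2.2.1) (cj (rA _) x h.1.2.2.2)
      (cj ((rA _).comp (rA _)) y h.2.1.1) (cj ((rA _).comp (rA _)) y h.2.1.2) (cj ((rA _).comp (rA _)) y h.2.2.1) (cj ((rA _).comp ((rA _).comp (rA _))) y h.2.2.2)⟩
  have gd : ∀ j < 4, LR.e j * LR.e j = 1 ∧ ∀ k, π k = LR.e j → k * k = 1 := fun j hj => by
    interval_cases j
    · rw [(eqB_iff C.base C.inj (LR.rep 0) (RepF.id _ pt)).1 (by decide +kernel)]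
      exact ⟨mul_one _, fun k e => (z k e).2⟩
    exacts [s7 sv1, s7 sv2, s7 sv3]
  have fin : ∀ {f x q}, RepF 693 pt f x → lfA f q = true → IsConj (π h) x → h * h = 1 := fun {f x q} r e c => by
    obtain ⟨g, rfl⟩ := isConj_iff.1 c
    simp only [lfA, bor_eq_true, bnot_eq_true, band_eq_true, Nat.ble_eq] at e
    obtain ⟨e1, e2⟩ := e.resolve_left (not_not.2 ((eqB_iff C.base C.inj (r.comp r) (RepF.id _ pt)).2 (by rw [← pow_two, conj_pow, pow_two, h2]; simp)))
    obtain ⟨k, ek⟩ := hs (LR.e q.1)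
    exact (sq_cj hs z (gd _ e1).1 (c.trans (cj r (LR.rep _) e2)) ek rfl).trans ((gd _ e1).2 k ek)
  have eA : ∀ a ∈ A, ∃ q ∈ aZ, RepF 693 pt (apL (nat_lit 10) (nat_lit 1023) aT q.1) a := fun a ha => by
    obtain ⟨w, hw, e⟩ := CA.words aWc ⟨a, ha⟩
    obtain ⟨q, hq, rfl⟩ := List.mem_map.1 hw
    have r := rA q.1
    rw [e] at r
    exact ⟨q, hq, r⟩
  have eU : ∀ u ∈ U, ∃ f, RepF 693 pt f u ∧ lfU f = true := fun u hu => by
    obtain ⟨w, hw, e⟩ := CU.words uWc ⟨u, hu⟩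
    have r := apL_rep CU.lets.rep w
    rw [e] at r
    exact ⟨_, r, allL_iff.1 ue w hw⟩
  have wl : ∀ a ∈ wP, a < 693 := by decide +kernel
  have AF := CA.le_lets C.base (lets_chk CA.lets.up (fixL G pt wP) (fun f => eqB wP f fun a => a) (fun g f r e a ha => by
    rw [← (r a (wl a ha)).2, Nat.eq_of_beq_eq_true (allL_iff.1 e a ha)]) af)
  have one : ∀ a ∈ A, ∀ f, RepF 693 pt f a → lf1 f = true → a = 1 := fun a ha f r e => by
    simp only [lf1, bor_eq_true, bnot_eq_true] at e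
    exact (eqB_iff C.base C.inj r (RepF.id _ pt)).1 (e.resolve_right (not_not.2 (allL_iff.2 fun b hb => Nat.beq_eq.mpr
      (C.inj _ (r b (wl b hb)).1 _ (wl b hb) ((r b (wl b hb)).2.trans (AF ha b hb))))))
  have cA : Nat.card A = 2 ^ 9 := CA.card.trans (by decide +kernel)
  have cU : Nat.card U = 2 ^ 6 := CU.card.trans (by decide +kernel)
  obtain ⟨i, hi⟩ := ((IsPGroup.of_card cA).to_sup_of_normal_left' (IsPGroup.of_card cU) UN).exists_card_eq
  have le := card_mul_le A U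
  rw [show U ⊓ A = ⊥ from (eq_bot_iff_forall _).2 fun u h => by
    obtain ⟨f, r, e⟩ := eU u h.1
    simp only [lfU, band_eq_true] at e
    exact one u h.2 f r e.1.1, card_bot, mul_one, cA, cU, hi, ← pow_add, Nat.pow_le_pow_iff_right (by decide)] at le
  obtain ⟨i', -, hi'⟩ := (Nat.dvd_prime_pow Nat.prime_two).1 (orderOf_dvd_of_pow_eq_one (show π h ^ 2 ^ 1 = 1 from (pow_two _).trans h2))
  obtain ⟨g, hg⟩ := exists_conj_le Nat.prime_two (A ⊔ U) (fun h => by
    have := Nat.mul_dvd_mul h (hi ▸ pow_dvd_pow 2 le)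
    rw [index_mul_card, C.card] at this
    exact absurd this (by decide +kernel)) (A := zpowers (π h)) (IsPGroup.of_card (n := i') (by rw [Nat.card_zpowers, hi']))
  have t2 : g * π h * g⁻¹ * (g * π h * g⁻¹) = 1 := by rw [← pow_two, conj_pow, pow_two, h2]; simp
  have tc : IsConj (π h) (g * π h * g⁻¹) := isConj_iff.2 ⟨g, rfl⟩
  obtain ⟨a, ha, u, hu, e⟩ := (coe_mul_of_right_le_normalizer_left A U UN).le (hg _ (mem_zpowers _))
  replace e : a * u = g * π h * g⁻¹ := e
  rw [← e] at t2 tc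
  obtain ⟨f, rf, e⟩ := eU u hu
  simp only [lfU, band_eq_true, bor_eq_true, bnot_eq_true] at e
  have u2 := one (u * u) (by
    rw [show u * u = (u * a * u⁻¹)⁻¹ * a⁻¹ * (a * u * (a * u)) by group, t2, mul_one]
    exact mul_mem (inv_mem ((mem_normalizer_iff.1 (UN hu) a).1 ha)) (inv_mem ha)) _ (rf.comp rf) e.1.2
  rcases e.2.resolve_left (not_not.2 ((eqB_iff C.base C.inj (rf.comp rf) (RepF.id _ pt)).2 u2)) with e | e
  · rw [(eqB_iff C.base C.inj rf (RepF.id _ pt)).1 e, mul_one] at tc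
    obtain ⟨q, hq, r⟩ := eA a ha
    exact fin r (allL_iff.1 ae1 q hq) tc
  obtain ⟨v, -, e⟩ := anyL_spec e
  have rv : RepF 693 pt _ ((ev LM.e v : normalizer (A : Set G)) : G) := apL_rep LM.rep v
  have e := (eqB_iff C.base C.inj (rv.comp rf) (rt.comp rv)).1 e
  have m := (mem_normalizer_iff.1 (ev LM.e v).2 a).1 ha
  generalize ((ev LM.e v : normalizer (A : Set G)) : G) = w at e m
  obtain ⟨q, hq, r⟩ := eA _ m
  exact fin (r.comp rt) (allL_iff.1 ae2 q hq) (tc.trans (isConj_iff.2 ⟨w, by rw [← mul_inv_eq_iff_eq_mul.2 e]; group⟩))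

end H8.UA
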