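import Cfsg.Agent.H8.UBD
import Cfsg.Agent.H8.UA
import Cfsg.Agent.H8.NSp

/-! H8.UB: involution classes and the Thompson subgroup of a Sylow 2-subgroup of U6(2) -/

set_option autoImplicit false
set_option maxRecDepth 200000
set_option linter.all false
open Subgroup Cfsg

namespace H8.UA

theorem pack {G : Type*} [Group G] [Finite G] {X : Type*} [MulAction G X] {pt : ℕ → X} (C : Ch G 693 (nat_lit 10) (nat_lit 1023) pt U62.T U62.L)
    (LR : Lets G 693 (nat_lit 10) (nat_lit 1023) pt rT) : ∃ A S : Subgroup G, Ch A 693 (nat_lit 10) (nat_lit 1023) pt aT aL ∧ A ≤ S ∧ IsPGroup 2 S ∧ ¬ 2 ∣ S.index ∧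
      (∀ x : G, x * x = 1 → ∃ j < 4, IsConj x (LR.e j)) ∧ ∀ B ≤ S, (∀ b ∈ B, b * b = 1) → 2 ^ 9 ≤ Nat.card B → B ≤ A := by
  haveI : Fact (Nat.Prime 2) := ⟨Nat.prime_two⟩
  obtain ⟨A, CA, -⟩ := (C.gen (lets_words C.lets aE aw) achain asd atc)
  obtain ⟨U, CU, -⟩ := (C.gen (lets_words C.lets uE uw) uchain usd utc)
  have UN := C.le_nor CU CA un
  have LM := lets_nor' C.base CA (lets_words C.lets mE mw) mn (by decide +kernel)
  have rt : RepF 693 pt _ ((ev CU.lets.e taw : U) : G) := rep_word CU.lets taw tap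
  have rA : ∀ w, RepF 693 pt _ ((ev CA.lets.e w : A) : G) := apL_rep CA.lets.rep
  have rU : ∀ w, RepF 693 pt _ ((ev CU.lets.e w : U) : G) := apL_rep CU.lets.rep
  have cj : ∀ {f g x y w}, RepF 693 pt f x → RepF 693 pt g y → cjB U62.T f g w = true → IsConj (α := G) x y := fun rf rg h =>
    isConj_iff.2 ⟨_, mul_inv_eq_iff_eq_mul.2 ((eqB_iff C.base C.inj ((apL_rep C.lets.rep _).comp rf) (rg.comp (apL_rep C.lets.rep _))).1 h)⟩
  have eA : ∀ a ∈ A, ∃ q ∈ aZ, RepF 693 pt (apL (nat_lit 10) (nat_lit 1023) aT q.1) a := fun a ha => by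
    obtain ⟨w, hw, e⟩ := CA.words aWc ⟨a, ha⟩
    obtain ⟨q, hq, rfl⟩ := List.mem_map.1 hw
    have r := rA q.1
    rw [e] at r
    exact ⟨q, hq, r⟩
  have eU : ∀ u ∈ U, ∃ f, RepF 693 pt f u ∧ lfU f = true := fun u hu => by
    obtain ⟨w, hw, e⟩ := CU.words uWc ⟨u, hu⟩
    have r := apL_rep CU.lets.rep w
    rw [e] at r
    exact ⟨_, r, allL_iff.1 ue w hw⟩
  have wl : ∀ a ∈ wP, a < 693 := by decide +kernel
  have AF := CA.le_lets C.base (lets_chk CA.lets.up (fixL G pt wP) (fun f => eqB wP f fun a => a) (fun g f r e a ha => by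
    rw [← (r a (wl a ha)).2, Nat.eq_of_beq_eq_true (allL_iff.1 e a ha)]) af)
  have one : ∀ a ∈ A, ∀ f, RepF 693 pt f a → lf1 f = true → a = 1 := fun a ha f r e => by
    simp only [lf1, bor_eq_true, bnot_eq_true] at e
    exact (eqB_iff C.base C.inj r (RepF.id _ pt)).1 (e.resolve_right (not_not.2 (allL_iff.2 fun b hb => Nat.beq_eq.mpr
      (C.inj _ (r b (wl b hb)).1 _ (wl b hb) ((r b (wl b hb)).2.trans (AF ha b hb))))))
  have cA : Nat.card A = 2 ^ 9 := CA.card.trans (by decide +kernel)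
  have cU : Nat.card U = 2 ^ 6 := CU.card.trans (by decide +kernel)
  obtain ⟨i, hi⟩ := ((IsPGroup.of_card cA).to_sup_of_normal_left' (IsPGroup.of_card cU) UN).exists_card_eq
  have le := card_mul_le A U
  rw [show U ⊓ A = ⊥ from (eq_bot_iff_forall _).2 fun u h => by
    obtain ⟨f, r, e⟩ := eU u h.1
    simp only [lfU, band_eq_true] at e
    exact one u h.2 f r e.1.1, card_bot, mul_one, cA, cU, hi, ← pow_add, Nat.pow_le_pow_iff_right (by decide)] at le
  have od : ¬ 2 ∣ (A ⊔ U).index := fun h => by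
    have := Nat.mul_dvd_mul h (hi ▸ pow_dvd_pow 2 le)
    rw [index_mul_card, C.card] at this
    exact absurd this (by decide +kernel)
  have sq : ∀ a ∈ A, ∀ u ∈ U, a * u * (a * u) = 1 → u * u = 1 := fun a ha u hu t2 => by
    obtain ⟨f, rf, e⟩ := eU u hu
    simp only [lfU, band_eq_true] at e
    exact one (u * u) (by
      rw [show u * u = (u * a * u⁻¹)⁻¹ * a⁻¹ * (a * u * (a * u)) by group, t2, mul_one]
      exact mul_mem (inv_mem ((mem_normalizer_iff.1 (UN hu) a).1 ha)) (inv_mem ha)) _ (rf.comp rf) e.1.2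
  refine ⟨A, A ⊔ U, CA, le_sup_left, IsPGroup.of_card hi, od, fun x h2 => ?_, fun B hB b2 cB b hb => by_contra fun nb => ?_⟩
  · have fin : ∀ {f y q}, RepF 693 pt f y → lfA f q = true → IsConj x y → ∃ j < 4, IsConj x (LR.e j) := fun {f y q} r e c => by
      obtain ⟨g, rfl⟩ := isConj_iff.1 c
      simp only [lfA, bor_eq_true, bnot_eq_true, band_eq_true, Nat.ble_eq] at e
      obtain ⟨e1, e2⟩ := e.resolve_left (not_not.2 ((eqB_iff C.base C.inj (r.comp r) (RepF.id _ pt)).2 (by rw [← pow_two, conj_pow, pow_two, h2]; simp)))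
      exact ⟨_, e1, c.trans (cj r (LR.rep _) e2)⟩
    obtain ⟨i', -, hi'⟩ := (Nat.dvd_prime_pow Nat.prime_two).1 (orderOf_dvd_of_pow_eq_one (show x ^ 2 ^ 1 = 1 from (pow_two _).trans h2))
    obtain ⟨g, hg⟩ := exists_conj_le Nat.prime_two (A ⊔ U) od (A := zpowers x) (IsPGroup.of_card (n := i') (by rw [Nat.card_zpowers, hi']))
    have t2 : g * x * g⁻¹ * (g * x * g⁻¹) = 1 := by rw [← pow_two, conj_pow, pow_two, h2]; simp
    have tc : IsConj x (g * x * g⁻¹) := isConj_iff.2 ⟨g, rfl⟩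
    obtain ⟨a, ha, u, hu, e⟩ := (coe_mul_of_right_le_normalizer_left A U UN).le (hg _ (mem_zpowers _))
    replace e : a * u = g * x * g⁻¹ := e
    rw [← e] at t2 tc
    obtain ⟨f, rf, e⟩ := eU u hu
    simp only [lfU, band_eq_true, bor_eq_true, bnot_eq_true] at e
    have u2 := one (u * u) (by
      rw [show u * u = (u * a * u⁻¹)⁻¹ * a⁻¹ * (a * u * (a * u)) by group, t2, mul_one]
      exact mul_mem (inv_mem ((mem_normalizer_iff.1 (UN hu) a).1 ha)) (inv_mem ha)) _ (rf.comp rf) e.1.2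
    rcases e.2.resolve_left (not_not.2 ((eqB_iff C.base C.inj (rf.comp rf) (RepF.id _ pt)).2 u2)) with e | e
    · rw [(eqB_iff C.base C.inj rf (RepF.id _ pt)).1 e, mul_one] at tc
      obtain ⟨q, hq, r⟩ := eA a ha
      exact fin r (allL_iff.1 ae1 q hq) tc
    obtain ⟨v, -, e⟩ := anyL_spec e
    have rv : RepF 693 pt _ ((ev LM.e v : normalizer (A : Set G)) : G) := apL_rep LM.rep v
    have e := (eqB_iff C.base C.inj (rv.comp rf) (rt.comp rv)).1 e
    have m := (mem_normalizer_iff.1 (ev LM.e v).2 a).1 ha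
    generalize ((ev LM.e v : normalizer (A : Set G)) : G) = w at e m
    obtain ⟨q, hq, r⟩ := eA _ m
    exact fin (r.comp rt) (allL_iff.1 ae2 q hq) (tc.trans (isConj_iff.2 ⟨w, by rw [← mul_inv_eq_iff_eq_mul.2 e]; group⟩))
  have cm := C.comm CA (by decide +kernel)
  have iv : ∀ b ∈ B, b⁻¹ = b := fun b h => inv_eq_of_mul_eq_one_right (b2 b h)
  let K : Set G := {u | u ∈ U ∧ ∃ a ∈ A, a * u ∈ B}
  have dec : ∀ b ∈ B, ∃ a ∈ A, ∃ u ∈ K, a * u = b := fun b hb => by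
    obtain ⟨a, ha, u, hu, e⟩ := (coe_mul_of_right_le_normalizer_left A U UN).le (hB hb)
    exact ⟨a, ha, u, ⟨hu, a, ha, (show a * u = b from e) ▸ hb⟩, e⟩
  have c1 : Nat.card B ≤ Nat.card ↥(B ⊓ A) * Nat.card K := by
    choose s s1 s2 using fun u : K => show ∃ a ∈ A, a * u.1 ∈ B from u.2.2
    rw [← Nat.card_prod]
    refine Nat.card_le_card_of_surjective (fun q : ↥(B ⊓ A) × K => (⟨q.1 * (s q.2 * q.2), mul_mem q.1.2.1 (s2 _)⟩ : B)) fun b => ?_
    obtain ⟨a, ha, u, hu, e⟩ := dec b b.2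
    exact ⟨(⟨b * (s ⟨u, hu⟩ * u)⁻¹, B.mul_mem b.2 (B.inv_mem (s2 ⟨u, hu⟩)), show _ ∈ A by
      rw [← e, mul_inv_rev, ← mul_assoc, mul_inv_cancel_right]; exact mul_mem ha (inv_mem (s1 _))⟩, ⟨u, hu⟩), Subtype.ext (inv_mul_cancel_right _ _)⟩
  have kw : ∀ u ∈ K, ∃ w ∈ uW, ((ev CU.lets.e w : U) : G) = u ∧ ivB w = true ∧ ∀ c ∈ B ⊓ A, ∀ v, ((ev CA.lets.e v : A) : G) = c → cmB w v = true := by
    rintro u ⟨hu, a, ha, m⟩
    obtain ⟨w, hw, e⟩ := CU.words uWc ⟨u, hu⟩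
    replace e : ((ev CU.lets.e w : U) : G) = u := congrArg Subtype.val e
    refine ⟨w, hw, e, (eqB_iff C.base C.inj ((rU w).comp (rU w)) (RepF.id _ pt)).2 (by rw [e]; exact sq a ha u hu (b2 _ m)), fun c hc v ev =>
      (eqB_iff C.base C.inj ((rA v).comp (rU w)) ((rU w).comp (rA v))).2 ?_⟩
    rw [e, ev]
    refine mul_left_cancel (a := a) ?_
    rw [← mul_assoc, cm a ha c hc.2, mul_assoc, ← iv _ (mul_mem hc.1 m), mul_inv_rev, iv _ m, iv _ hc.1, mul_assoc]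
  have aw : ∀ c ∈ B ⊓ A, ∃ v ∈ aZ.map Prod.fst, ((ev CA.lets.e v : A) : G) = c := fun c hc =>
    (CA.words aWc ⟨c, hc.2⟩).imp fun v h => ⟨h.1, congrArg Subtype.val h.2⟩
  obtain ⟨a, ha, u, hu, e⟩ := dec b hb
  obtain ⟨w, hw, ew, iw, cw⟩ := kw u hu
  obtain ⟨n, hn, rfl⟩ := List.getElem_of_mem hw
  have t := allR_iff.1 th n (Nat.zero_le _) (by rwa [show uW.length = 0 + 64 by decide +kernel] at hn)
  rw [List.getD_eq_getElem _ _ hn] at t
  simp only [thB, bor_eq_true, bnot_eq_true, iw, not_true, false_or, frcLL_eq, band_eq_true, Nat.ble_eq] at t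
  obtain ⟨t1, t2⟩ := t.resolve_left fun h => nb (by
    rw [← e, ← ew, (eqB_iff C.base C.inj (rU _) (RepF.id _ pt)).1 h, mul_one]; exact ha)
  have c2 : ∀ p : List ℕ → Bool, (∀ c ∈ B ⊓ A, ∀ v, ((ev CA.lets.e v : A) : G) = c → p v = true) →
      Nat.card ↥(B ⊓ A) ≤ ((aZ.map Prod.fst).filter (cmB uW[n])).countP p := fun p hp =>
    card_le_countP _ (fun v => ((ev CA.lets.e v : A) : G)) p (B ⊓ A : Subgroup G) fun c hc =>
      (aw c hc).imp fun v h => ⟨List.mem_filter.2 ⟨h.1, cw c hc v h.2⟩, h.2, hp c hc v h.2⟩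
  by_cases h : 17 ≤ Nat.card ↥(B ⊓ A)
  · have k : Nat.card K ≤ 8 := (card_le_countP uW (fun w => ((ev CU.lets.e w : U) : G)) _ K fun u hu => (kw u hu).imp fun w q =>
      ⟨q.1, q.2.1, (band_eq_true _ _).2 ⟨q.2.2.1, Nat.ble_eq.mpr (h.trans (c2 _ q.2.2.2))⟩⟩).trans t2
    have := Nat.mul_le_mul (((c2 (fun _ => true) fun _ _ _ _ => rfl).trans List.countP_le_length).trans t1) k
    omega
  · have k : Nat.card K ≤ 28 := (card_le_countP uW (fun w => ((ev CU.lets.e w : U) : G)) _ K fun u hu => (kw u hu).imp fun w q =>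
      ⟨q.1, q.2.1, q.2.2.1⟩).trans (Nat.le_of_ble_eq_true ic)
    have := Nat.mul_le_mul (show Nat.card ↥(B ⊓ A) ≤ 16 by omega) k
    omega

theorem nsp0 {G : Type} [Group G] [Finite G] {X : Type*} [MulAction G X] {n k m : ℕ} {pt : ℕ → X} {T : Tr ℕ} {RL : Tr (List ℕ)} {Ls : List Lev}
    (S : Std G n k m pt T RL Ls) (M : Mon) (q : M.q = 2) (h1 : M.basChk = true) (h2 : RL.all M.relChk = true) (hs : Nat.card (L.SM G) ∣ 12) {x y z : List ℕ}
    (p1 : M.pairChk (topN Ls) (weqOn k m T (Ls.map Lev.b)) (x ++ y) (y ++ x) 1 0 = true) (p2 : M.pairChk (topN Ls) (weqOn k m T (Ls.map Lev.b)) (x ++ z) (z ++ x) 0 1 = true)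
    {H : Type*} [Group H] [Finite H] {π : H →* G} (hσ : IsStemExtension π) (c : Nat.card π.ker = 2) :
    ∃ a b, π a = ev S.lets.e x ∧ π a * π b = π b * π a ∧ a * b ≠ b * a := by
  by_contra! h
  haveI : NeZero M.q := ⟨by omega⟩
  obtain ⟨K, i, φ, kk⟩ := cover_ns S M h1 h2 (L.stem_isCE hσ)
  have cm : ∀ {u v a b}, M.pairChk (topN Ls) (weqOn k m T (Ls.map Lev.b)) (u ++ v) (v ++ u) a b = true → ev S.lets.e u * ev S.lets.e v = ev S.lets.e v * ev S.lets.e u :=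
    fun h => by
      simp only [Mon.pairChk, band_eq_true] at h
      rw [← ev_append, ← ev_append]; exact weqOn_spec S.lets.rep S.base.1 S.base.2 h.2.1
  have k1 := kk _ _ _ _ p1 fun x y p q => h x y p (by rw [p, q]; exact cm p1)
  have k2 := kk _ _ _ _ p2 fun x y p q => h x y p (by rw [p, q]; exact cm p2)
  letI : CommGroup K := { mul_comm := fun a b => Subtype.ext (mul_comm (G := L.SM G) a.1 b.1) }
  have d := card_dvd_of_surjective φ (surj_sq φ k1 k2)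
  rw [L.stem_mult hσ, c] at i
  have e0 : Nat.card (L.mult (L.uπ G)) ∣ 12 := hs
  rw [← K.card_mul_index, i] at e0
  rw [Nat.card_congr Multiplicative.toAdd, Nat.card_prod, Nat.card_zmod, q] at d
  exact absurd ((Nat.mul_dvd_mul_right d 2).trans e0) (by decide)

theorem nsp {H : Type*} [Group H] [Finite H] {π : H →* U62.P} (hσ : IsStemExtension π) (c : Nat.card π.ker = 2) :
    ∃ x y, π x = ev U62.std.lets.e wx ∧ π x * π y = π y * π x ∧ x * y ≠ y * x :=
  nsp0 U62.std U62.c2M (by decide +kernel) (by decide +kernel) U62.c2r U62.sm_dvd pc1 pc2 hσ c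

end H8.UA
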