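import Cfsg.Agent.H8.UB

/-! H8.UC: the Thompson subgroup of a double cover of U6(2) -/

set_option autoImplicit false
set_option maxRecDepth 200000
set_option linter.all false
open Subgroup Cfsg

namespace H8.UA

theorem a2 : allL aZ (fun q => eqB (U62.L.map Lev.b) (fun p => apL (nat_lit 10) (nat_lit 1023) aT q.1 (apL (nat_lit 10) (nat_lit 1023) aT q.1 p)) fun p => p) = true := by
  decide +kernel

theorem thom {H P : Type*} [Group H] [Finite H] [Group P] {π : H →* P} (hs : Function.Surjective π) (ck : Nat.card π.ker = 2) {A S0 : Subgroup P} (AS : A ≤ S0)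
    (cA : Nat.card A = 2 ^ 9) (ex : ∀ h, π h ∈ A → h * h = 1) (uq : ∀ B ≤ S0, (∀ b ∈ B, b * b = 1) → 2 ^ 9 ≤ Nat.card B → B ≤ A) {S : Subgroup H}
    (hS : S0.comap π = S) : thompsonSubgroupOf 2 S = A.comap π ∧ ∀ B ≤ S, (∀ b ∈ B, b * b = 1) → 2 ^ 10 ≤ Nat.card B → B ≤ A.comap π := by
  have c : Nat.card (A.comap π) = 2 ^ 10 := by rw [card_comap' hs, ck, cA]; rfl
  have u : ∀ B ≤ S, (∀ b ∈ B, b * b = 1) → 2 ^ 10 ≤ Nat.card B → B ≤ A.comap π := fun B hB b2 cB =>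
    map_le_iff_le_comap.1 (uq _ (map_le_iff_le_comap.2 (hS ▸ hB)) (by rintro _ ⟨b, hb, rfl⟩; rw [← map_mul, b2 b hb, map_one]) (by
      have := cB.trans (card_le_of_le (le_comap_map π B))
      rw [card_comap' hs, ck] at this
      omega))
  have le : A.comap π ≤ S := hS ▸ comap_mono AS
  have c' : Nat.card ((A.comap π).subgroupOf S) = 2 ^ 10 := (Nat.card_congr (subgroupOfEquivOfLe le).toEquiv).trans c
  have u' : ∀ B : Subgroup S, IsElementaryAbelian 2 B → 2 ^ 10 ≤ Nat.card B → B ≤ (A.comap π).subgroupOf S := fun B hB cB =>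
    map_le_iff_le_comap.1 (u _ (map_subtype_le _) (by rintro _ ⟨b, hb, rfl⟩; exact congrArg Subtype.val ((pow_two b).symm.trans (hB.2 b hb)))
      (by rwa [card_map_of_injective S.subtype_injective]))
  have iv : ∀ a : S, a ∈ (A.comap π).subgroupOf S → a⁻¹ = a := fun a ha => inv_eq_of_mul_eq_one_right (Subtype.ext (ex _ ha))
  have el : IsElementaryAbelian 2 ((A.comap π).subgroupOf S) := ⟨⟨⟨fun a b => Subtype.ext ((iv _ (a * b).2).symm.trans ((mul_inv_rev _ _).trans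
    (congrArg₂ _ (iv _ b.2) (iv _ a.2))))⟩⟩, fun a ha => (pow_two a).trans (Subtype.ext (ex _ ha))⟩
  refine ⟨?_, u⟩
  rw [thompsonSubgroupOf, show thompsonSubgroup 2 S = (A.comap π).subgroupOf S from le_antisymm (sSup_le fun B hB => u' B hB.1 (c' ▸ hB.2 _ el))
    (le_sSup ⟨el, fun B hB => by
      by_cases h : 2 ^ 10 ≤ Nat.card B
      exacts [card_le_of_le (u' B hB h), by omega]⟩), subgroupOf_map_subtype, inf_eq_left.2 le]

theorem trans {G : Type*} [Group G] [Finite G] {d : G} (S : Sylow 2 (centralizer {d})) {B : Subgroup (centralizer {d})} (ex : ∀ h ∈ B, h * h = 1)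
    (u : ∀ B' ≤ S.1, (∀ b ∈ B', b * b = 1) → Nat.card B ≤ Nat.card B' → B' ≤ B) {A : Subgroup G} (hA : A = B.map (Subgroup.subtype _)) {x : G} (hx : x ∈ A)
    (c : IsConj d x) : ∃ n ∈ normalizer (A : Set G), n * d * n⁻¹ = x := by
  haveI : Fact (Nat.Prime 2) := ⟨Nat.prime_two⟩
  obtain ⟨g, rfl⟩ := isConj_iff.1 c
  have e2 : ∀ a ∈ A, a * a = 1 := by rw [hA]; rintro _ ⟨a, ha, rfl⟩; exact congrArg Subtype.val (ex a ha)
  have iv : ∀ a ∈ A, a⁻¹ = a := fun a ha => inv_eq_of_mul_eq_one_right (e2 a ha)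
  let ψ : A →* centralizer ({d} : Set G) := ((MulAut.conj g⁻¹).toMonoidHom.comp A.subtype).codRestrict _ fun a => mem_centralizer_singleton_iff.2 (by
    have : a * (g * d * g⁻¹) = g * d * g⁻¹ * a := (iv _ (mul_mem a.2 hx)).symm.trans ((mul_inv_rev _ _).trans (congrArg₂ _ (iv _ hx) (iv _ a.2)))
    show g⁻¹ * a * g⁻¹⁻¹ * d = d * (g⁻¹ * a * g⁻¹⁻¹)
    rw [show g⁻¹ * a * g⁻¹⁻¹ * d = g⁻¹ * (a * (g * d * g⁻¹)) * g by group, this]; group)
  have ψi : Function.Injective ψ := fun a b h => Subtype.ext ((MulAut.conj g⁻¹).injective (congrArg Subtype.val h))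
  obtain ⟨k, hk⟩ := exists_conj_le Nat.prime_two S.1 S.not_dvd_index (A := ψ.range) fun a => ⟨1, by
    obtain ⟨_, a, rfl⟩ := a
    exact Subtype.ext (show ψ a ^ 2 = 1 by rw [← map_pow, pow_two, show a * a = 1 from Subtype.ext (e2 _ a.2), map_one])⟩
  have := u ((MulAut.conj k).toMonoidHom.comp ψ).range (by rintro _ ⟨a, rfl⟩; exact hk _ ⟨a, rfl⟩)
    (by rintro _ ⟨a, rfl⟩; rw [← map_mul, show a * a = 1 from Subtype.ext (e2 _ a.2), map_one])
    (by rw [← Nat.card_congr (MonoidHom.ofInjective (f := (MulAut.conj k).toMonoidHom.comp ψ) ((MulAut.conj k).injective.comp ψi)).toEquiv, hA,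
      card_map_of_injective (subtype_injective _)])
  have m : (k : G) * g⁻¹ ∈ normalizer (A : Set G) := mem_normalizer_fintype fun a ha => by
    have h := mem_map_of_mem (Subgroup.subtype _) (this ⟨⟨a, ha⟩, rfl⟩)
    rw [← hA] at h
    rw [show (k : G) * g⁻¹ * a * ((k : G) * g⁻¹)⁻¹ = (k : G) * (g⁻¹ * a * g⁻¹⁻¹) * (k : G)⁻¹ by group]
    exact h
  refine ⟨_, inv_mem m, ?_⟩
  rw [show ((k : G) * g⁻¹)⁻¹ * d * ((k : G) * g⁻¹)⁻¹⁻¹ = g * ((k : G)⁻¹ * (d * k)) * g⁻¹ by group, ← mem_centralizer_singleton_iff.1 k.2, inv_mul_cancel_left]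

theorem orb {G : Type*} [Group G] [Finite G] {d : G} {A : Subgroup G} (hd : d ∈ A) (tr : ∀ x ∈ A, IsConj d x → ∃ n ∈ normalizer (A : Set G), n * d * n⁻¹ = x) :
    ((centralizer {d}).subgroupOf (normalizer (A : Set G))).index = Set.ncard {x : G | x ∈ A ∧ IsConj d x} := by
  have := MulAction.index_stabilizer (normalizer (A : Set G)) (X := Cj G) d
  rw [show MulAction.stabilizer (normalizer (A : Set G)) (α := Cj G) d = (centralizer {d}).subgroupOf (normalizer (A : Set G)) from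
    ext fun n => (mul_inv_eq_iff_eq_mul (a := (n : G) * d)).trans mem_centralizer_singleton_iff.symm] at this
  refine this.trans (congrArg (Set.ncard (α := G)) (Set.ext fun x => ⟨?_, fun h => ?_⟩))
  · rintro ⟨n, rfl⟩
    exact ⟨(mem_normalizer_iff.1 n.2 d).1 hd, isConj_iff.2 ⟨n, rfl⟩⟩
  · obtain ⟨n, hn, e⟩ := tr x h.1 h.2
    exact ⟨⟨n, hn⟩, e⟩

end H8.UA
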