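import Cfsg.Agent.H8.UC

/-! H8.UD: fusion in the Thompson subgroup of an involution centralizer 2.U6(2) -/

set_option autoImplicit false
set_option maxRecDepth 200000
set_option linter.all false
open Subgroup Cfsg

namespace H8.UA

theorem main {G : Type*} [Group G] [Finite G] {d : G} (hd : orderOf d = 2) (hp : Group.IsPerfect (centralizer ({d} : Set G))) (π0 : centralizer ({d} : Set G) →* U62.P)
    (hs0 : Function.Surjective π0) (hk0 : ∀ h, π0 h = 1 ↔ (h : G) ∈ zpowers d) (nsq : ¬ ∃ g : G, g ^ 2 = d)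
    (hnwc : ∃ g : G, g * d * g⁻¹ ∈ centralizer ({d} : Set G) ∧ g * d * g⁻¹ ≠ d) (S : Sylow 2 (centralizer ({d} : Set G))) (A : Subgroup G)
    (hA : A = (thompsonSubgroupOf 2 S.1).map (centralizer ({d} : Set G)).subtype) :
    IsElementaryAbelian 2 A ∧ Nat.card A = 2 ^ 10 ∧ Set.ncard {x : G | x ∈ A ∧ IsConj d x} = 22 ∧
      ∀ x ∈ A, ∀ y ∈ A, IsConj d x → IsConj d y → ∃ n ∈ normalizer (A : Set G), n * x * n⁻¹ = y := by
  classical
  haveI : Fact (Nat.Prime 2) := ⟨Nat.prime_two⟩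
  have C := U62.std.ch0 (by decide +kernel)
  have LR := lets_words C.lets rE rw
  obtain ⟨A0, S0, CA, AS, pS, oS, cls, uq⟩ := pack C LR
  obtain ⟨g, hg⟩ := exists_conj_le Nat.prime_two S0 oS (S.2.map π0)
  obtain ⟨π, hπ⟩ : ∃ π, π = (MulAut.conj g).toMonoidHom.comp π0 := ⟨_, rfl⟩
  have hs : Function.Surjective π := hπ ▸ (MulAut.conj g).surjective.comp hs0
  have SS : S.1 ≤ S0.comap π := fun x hx => hπ ▸ hg _ ⟨x, hx, rfl⟩
  obtain ⟨e, he⟩ : ∃ e : centralizer ({d} : Set G), (e : G) = d := ⟨⟨d, mem_centralizer_singleton_iff.2 rfl⟩, rfl⟩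
  have oe : orderOf e = 2 := (orderOf_coe e).symm.trans ((congrArg orderOf he).trans hd)
  have ee : e * e = 1 := by rw [← pow_two, ← oe, pow_orderOf_eq_one]
  have e1 : e ≠ 1 := fun h => by simp [h] at oe
  have ec : ∀ h, h * e = e * h := fun h => Subtype.ext (by rw [coe_mul, coe_mul, he]; exact mem_centralizer_singleton_iff.1 h.2)
  have kz : π.ker = zpowers e := ext fun h => by
    rw [MonoidHom.mem_ker, hπ, ← mem_map_iff_mem (subtype_injective _), MonoidHom.map_zpowers, subtype_apply e, he]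
    exact (MulAut.conj g).map_eq_one_iff.trans (hk0 h)
  clear hπ hg hk0 hs0 g π0
  have hk : ∀ h, π h = 1 ↔ h = 1 ∨ h = e := fun h => by
    rw [← MonoidHom.mem_ker, kz, mem_zpowers_iff_mem_range_orderOf, oe]; simp [Finset.range_add_one, eq_comm, or_comm]
  have ck : Nat.card π.ker = 2 := by rw [kz, Nat.card_zpowers, oe]
  have z : ∀ h, π h = 1 → h ∈ center _ ∧ h * h = 1 := fun h k => by
    rcases (hk h).1 k with rfl | rfl
    exacts [⟨one_mem _, mul_one _⟩, ⟨mem_center_iff.2 ec, ee⟩]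
  have rA : ∀ w, RepF 693 (Fin.ofNat 693) _ ((ev CA.lets.e w : A0) : U62.P) := apL_rep CA.lets.rep
  have cj : ∀ {f g x y w}, RepF 693 (Fin.ofNat 693) f x → RepF 693 (Fin.ofNat 693) g y → cjB U62.T f g w = true → IsConj (α := U62.P) x y := fun rf rg h =>
    isConj_iff.2 ⟨_, mul_inv_eq_iff_eq_mul.2 ((eqB_iff C.base C.inj ((apL_rep C.lets.rep _).comp rf) (rg.comp (apL_rep C.lets.rep _))).1 h)⟩
  have sq : ∀ q ∈ aZ, ((ev CA.lets.e q.1 : A0) : U62.P) * ((ev CA.lets.e q.1 : A0) : U62.P) = 1 := fun q hq =>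
    (eqB_iff C.base C.inj ((rA _).comp (rA _)) (RepF.id _ _)).1 (allL_iff.1 a2 q hq)
  have eA : ∀ a ∈ A0, ∃ q ∈ aZ, ((ev CA.lets.e q.1 : A0) : U62.P) = a := fun a ha => by
    obtain ⟨w, hw, e⟩ := CA.words aWc ⟨a, ha⟩
    obtain ⟨q, hq, rfl⟩ := List.mem_map.1 hw
    exact ⟨q, hq, congrArg Subtype.val e⟩
  have a2 : ∀ h, π h ∈ A0 → π h * π h = 1 := fun h m => by obtain ⟨q, hq, e⟩ := eA _ m; exact e ▸ sq q hq
  have ex : ∀ h, π h ∈ A0 → h * h = 1 := fun h m => lift C π hs z h (a2 h m)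
  have cA0 : Nat.card A0 = 2 ^ 9 := CA.card.trans (by decide +kernel)
  obtain ⟨J, u⟩ := thom hs ck AS cA0 ex uq (S.3 (pS.comap_of_ker_isPGroup π (IsPGroup.of_card (n := 1) ck)) SS)
  rw [J] at hA
  have cB : Nat.card (A0.comap π) = 2 ^ 10 := by rw [card_comap' hs, ck, cA0]; rfl
  have cA : Nat.card A = 2 ^ 10 := by rw [hA, card_map_of_injective (subtype_injective _), cB]
  have tr : ∀ x ∈ A, IsConj d x → ∃ n ∈ normalizer (A : Set G), n * d * n⁻¹ = x := fun x hx c => trans S ex (cB ▸ u) hA hx c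
  have mA : ∀ h, π h ∈ A0 → (h : G) ∈ A := fun h m => hA ▸ mem_map_of_mem _ m
  have πe : π e = 1 := (hk e).2 (.inr rfl)
  have dA : d ∈ A := he ▸ mA e (πe ▸ one_mem _)
  have e2 : ∀ a ∈ A, a * a = 1 := by rw [hA]; rintro _ ⟨a, ha, rfl⟩; exact congrArg Subtype.val (ex a ha)
  have iv : ∀ a ∈ A, a⁻¹ = a := fun a ha => inv_eq_of_mul_eq_one_right (e2 a ha)
  refine ⟨⟨⟨⟨fun a b => Subtype.ext ((iv _ (a * b).2).symm.trans ((mul_inv_rev _ _).trans (congrArg₂ _ (iv _ b.2) (iv _ a.2))))⟩⟩,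
    fun a ha => (pow_two a).trans (e2 a ha)⟩, cA, ?_, fun x hx y hy p q => ?_⟩
  swap
  · obtain ⟨n, hn, rfl⟩ := tr x hx p
    obtain ⟨m, hm, rfl⟩ := tr y hy q
    exact ⟨m * n⁻¹, mul_mem hm (inv_mem hn), by group⟩
  have np := fun r hp hr => orb dA tr ▸ no_prime A cA dA (r := r) hp hr
  letI := Fintype.ofFinite (centralizer ({d} : Set G))
  obtain ⟨Q, hQ⟩ : ∃ Q : centralizer ({d} : Set G) → Prop, ∀ h, Q h ↔ IsConj d (h : G) := ⟨_, fun _ => Iff.rfl⟩
  obtain ⟨ν, hν⟩ : ∃ ν : U62.P → ℕ, ∀ x, ν x = (Finset.univ.filter fun h => π h = x ∧ Q h).card := ⟨_, fun _ => rfl⟩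
  have nu : ∀ h, ν (π h) = (if Q h then 1 else 0) + (if Q (h * e) then 1 else 0) := fun h => by
    rw [hν, show (Finset.univ.filter fun k => π k = π h ∧ Q k) = ({h, h * e} : Finset _).filter Q from Finset.ext fun k => by
      simp only [Finset.mem_filter, Finset.mem_univ, true_and, Finset.mem_insert, Finset.mem_singleton]
      rw [eq_comm, ← inv_mul_eq_one, ← map_inv, ← map_mul, hk, inv_mul_eq_one, inv_mul_eq_iff_eq_mul, eq_comm],
      Finset.card_filter, Finset.sum_pair fun k => e1 (left_eq_mul.1 k)]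
  have qc : ∀ h k, Q (k * h * k⁻¹) ↔ Q h := fun h k => by
    have : IsConj (h : G) ((k * h * k⁻¹ : centralizer ({d} : Set G)) : G) := isConj_iff.2 ⟨k, rfl⟩
    rw [hQ, hQ]; exact ⟨fun c => c.trans this.symm, fun c => c.trans this⟩
  have nc : ∀ {x y}, IsConj x y → ν x = ν y := fun {x y} c => by
    obtain ⟨k, rfl⟩ := isConj_iff.1 c
    obtain ⟨k, rfl⟩ := hs k
    obtain ⟨h, rfl⟩ := hs x
    rw [← map_inv, ← map_mul, ← map_mul, nu, nu, mul_assoc _ k⁻¹ e, ec k⁻¹, ← mul_assoc, mul_assoc k h e, qc, qc]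
  have q1 : ¬ Q 1 := fun h => e1 (Subtype.ext (he.trans (isConj_one_left.1 ((hQ 1).1 h))))
  have qe : Q e := (hQ e).2 (by rw [he])
  have r0 : LR.e 0 = 1 := (eqB_iff C.base C.inj (LR.rep 0) (RepF.id _ _)).1 (by decide +kernel)
  have n0 : ν 1 = 1 := by rw [← map_one π, nu, if_neg q1, one_mul, if_pos qe]
  obtain ⟨a, ha⟩ : ∃ a, ν (LR.e 1) = a := ⟨_, rfl⟩
  obtain ⟨b, hb⟩ : ∃ a, ν (LR.e 2) = a := ⟨_, rfl⟩
  obtain ⟨c, hc⟩ : ∃ a, ν (LR.e 3) = a := ⟨_, rfl⟩
  have gt : ∀ j < 4, ν (LR.e j) = [1, a, b, c].getD j 0 := fun j hj => by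
    interval_cases j
    exacts [r0 ▸ n0, ha, hb, hc]
  have ge : ∀ h, π h * π h = 1 → h = 1 ∨ h = e ∨ ν (π h) = a ∨ ν (π h) = b ∨ ν (π h) = c := fun h k => by
    obtain ⟨j, hj, k⟩ := cls _ k
    interval_cases j
    · rw [r0, isConj_one_left, hk] at k; tauto
    all_goals simp [nc k, ha, hb, hc]
  have le2 : ∀ x, ν x < 3 := fun x => by obtain ⟨h, rfl⟩ := hs x; rw [nu]; split_ifs <;> omega
  have b2 : b < 2 := by
    obtain ⟨s, e⟩ := hs (ev C.lets.e q2)
    rw [← hb, ← (eqB_iff C.base C.inj ((apL_rep C.lets.rep q2).comp (apL_rep C.lets.rep q2)) (LR.rep 2)).1 sq2, ← e, ← map_mul, nu, if_neg fun h => by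
      obtain ⟨k, e⟩ := isConj_iff.1 ((hQ _).1 h).symm
      exact nsq ⟨k * s * k⁻¹, by rw [conj_pow, pow_two]; exact e⟩]
    split_ifs <;> omega
  have c1 : c ≠ 1 := by
    obtain ⟨x, y, p, q, n⟩ := nsp ⟨hs, fun h k => (z h k).1, hp.commutator_eq_top.ge.trans' le_top⟩ ck
    rcases (hk (x⁻¹ * (y * x * y⁻¹))).1 (by rw [map_mul, map_mul, map_mul, ← q, map_inv, map_inv]; group) with h | h
    · exact absurd (by rw [inv_mul_eq_one.1 h, inv_mul_cancel_right, ← inv_mul_eq_one.1 h]) n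
    rw [← hc, ← (eqB_iff C.base C.inj (apL_rep U62.std.lets.rep wx) (LR.rep 3)).1 xr, ← p, nu, ← inv_mul_eq_iff_eq_mul.1 h, qc]
    split_ifs <;> omega
  have cnt : Set.ncard {x : G | x ∈ A ∧ IsConj d x} = 1 + 21 * a + 210 * b + 280 * c := by
    have nd := (nodup_words CA.lets CA.inj CA.base.1 ((band_eq_true _ _).1 aWc).1).map Subtype.val_injective
    rw [show {x : G | x ∈ A ∧ IsConj d x} = Subtype.val '' ((Finset.univ.filter fun h => π h ∈ A0 ∧ Q h : Finset (centralizer ({d} : Set G))) : Set (centralizer ({d} : Set G))) from Set.ext fun x => ⟨fun h => by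
        obtain ⟨k, m, rfl⟩ := hA.le h.1
        exact ⟨k, Finset.mem_coe.2 (Finset.mem_filter.2 (And.intro (Finset.mem_univ _) (And.intro m ((hQ k).2 h.2)))), rfl⟩, by
        rintro ⟨k, m, rfl⟩
        have m := (Finset.mem_filter.1 (Finset.mem_coe.1 m)).2
        exact ⟨mA k m.1, (hQ k).1 m.2⟩⟩, Set.ncard_image_of_injective _ Subtype.val_injective, Set.ncard_coe_finset,
      Finset.card_eq_sum_card_fiberwise (f := π) (t := (((aZ.map Prod.fst).map (ev CA.lets.e)).map Subtype.val).toFinset) (fun k m => by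
        obtain ⟨q, hq, e⟩ := eA _ (Finset.mem_filter.1 m).2.1
        exact List.mem_toFinset.2 (List.mem_map.2 ⟨_, List.mem_map_of_mem (List.mem_map_of_mem hq), e⟩)),
      List.sum_toFinset _ nd, ← sm a (ha ▸ le2 _) b b2 c (hc ▸ le2 _), List.map_map, List.map_map, List.map_map]
    refine congrArg _ (List.map_congr_left fun q hq => ?_)
    have k := allL_iff.1 ae1 q hq
    simp only [lfA, bor_eq_true, bnot_eq_true, band_eq_true, Nat.ble_eq] at k
    obtain ⟨k1, k2⟩ := k.resolve_left (not_not.2 (allL_iff.1 UA.a2 q hq))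
    rw [← gt _ k1, ← nc (cj (rA _) (LR.rep _) k2), hν, Function.comp, Function.comp, Function.comp, Finset.filter_filter]
    exact congrArg _ (Finset.filter_congr fun h _ => ⟨fun k => ⟨k.2, k.1.2⟩, fun k => ⟨⟨k.1 ▸ Subtype.prop _, k.2⟩, k.1⟩⟩)
  have mv : ∀ x, π x ∈ A0 → Q x → ∀ y, π y ∈ A0 → ∃ w, π w ∈ A0 ∧ (Q w ↔ Q y) ∧ (Q (w * e) ↔ Q (y * x)) ∧ (w = 1 → y = 1) ∧ (w = e → y = x) := fun x m q y m' => by
    obtain ⟨n, hn, en⟩ := tr _ (mA x m) ((hQ x).1 q)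
    obtain ⟨w, mw, ew⟩ := hA.le ((mem_normalizer_iff.1 (inv_mem hn) y).1 (mA y m'))
    replace ew : (y : G) = n * w * n⁻¹ := by rw [show (w : G) = _ from ew]; group
    have : ∀ u v : centralizer ({d} : Set G), (v : G) = n * u * n⁻¹ → (Q u ↔ Q v) := fun u v h => by
      rw [hQ, hQ]; exact ⟨fun c => c.trans (isConj_iff.2 ⟨n, h.symm⟩), fun c => c.trans (isConj_iff.2 ⟨n, h.symm⟩).symm⟩
    exact ⟨w, mw, this _ _ ew, this _ _ (by rw [coe_mul, coe_mul, ew, ← en, he]; group), fun h => Subtype.ext (by simp [ew, h]),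
      fun h => Subtype.ext (by rw [ew, h, he, en])⟩
  have p0 : ¬ (a = 0 ∧ b = 0 ∧ c = 0) := by
    obtain ⟨g, m, n⟩ := hnwc
    have q : Q ⟨_, m⟩ := (hQ _).2 (isConj_iff.2 ⟨g, rfl⟩)
    have := nu ⟨_, m⟩
    rw [if_pos q] at this
    rcases ge ⟨_, m⟩ (by rw [← map_mul, show (⟨_, m⟩ * ⟨_, m⟩ : centralizer ({d} : Set G)) = 1 from Subtype.ext (by
      rw [coe_mul, ← pow_two, conj_pow, pow_two, e2 d dA]; simp), map_one]) with h | h | h
    exacts [absurd (h ▸ q) q1, absurd ((congrArg Subtype.val h).trans he) n, by omega]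
  have p1 : ¬ (a = 0 ∧ b = 0 ∧ c = 2) := by
    rintro ⟨rfl, rfl, rfl⟩
    obtain ⟨y, ey⟩ := hs (ev CA.lets.e f1 : A0)
    obtain ⟨x, ex⟩ := hs (ev CA.lets.e f2 : A0)
    have t1 := (nc (cj (rA _) (LR.rep _) fc0)).trans hc
    have t2 := (nc (cj (rA _) (LR.rep _) fc1)).trans hc
    have t3 := (nc (cj ((rA _).comp (rA _)) (LR.rep _) fc2)).trans hb
    rw [← ey, ← ex, ← map_mul] at t3
    rw [← ey, nu] at t1
    rw [← ex, nu] at t2
    have mx : π x ∈ A0 := ex ▸ Subtype.prop _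
    have qy : Q y := by by_contra h; rw [if_neg h] at t1; split_ifs at t1 <;> omega
    obtain ⟨w, mw, w1, w2, w3, w4⟩ := mv x mx (by by_contra h; rw [if_neg h] at t2; split_ifs at t2 <;> omega) y (ey ▸ Subtype.prop _)
    have := nu w
    rw [if_pos (w1.2 qy), if_neg fun h => by rw [nu, if_pos (w2.1 h)] at t3; omega] at this
    rcases ge w (a2 w mw) with h | h | h
    exacts [q1 (w3 h ▸ qy), by rw [w4 h, map_mul, a2 x mx, n0] at t3; omega, by omega]
  have p2 : ¬ (a = 1 ∧ b = 1 ∧ c = 2) := by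
    rintro ⟨rfl, rfl, rfl⟩
    have ch : ∀ x, ν x = 1 → ∃ u, π u = x ∧ ¬ Q u := fun x h => by
      obtain ⟨u, rfl⟩ := hs x
      by_cases k : Q u
      exacts [⟨u * e, by rw [map_mul, πe, mul_one], fun k' => by rw [nu, if_pos k, if_pos k'] at h; omega⟩, ⟨u, rfl, k⟩]
    obtain ⟨u, eu, qu⟩ := ch _ ((nc (cj (rA _) (LR.rep _) ec0)).trans ha)
    obtain ⟨v, ev', qv⟩ := ch _ ((nc (cj (rA _) (LR.rep _) ec1)).trans hb)
    have t3 := (nc (cj ((rA _).comp (rA _)) (LR.rep _) ec2)).trans hc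
    rw [← eu, ← ev', ← map_mul, nu] at t3
    have mu : π u ∈ A0 := eu ▸ Subtype.prop _
    obtain ⟨w, mw, w1, w2, w3, w4⟩ := mv (u * v) (by rw [map_mul]; exact mul_mem mu (ev' ▸ Subtype.prop _))
      (by by_contra h; rw [if_neg h] at t3; split_ifs at t3 <;> omega) u mu
    rw [← mul_assoc, ex u mu, one_mul] at w2
    have := nu w
    rw [if_neg (w1.not.2 qu), if_neg (w2.not.2 qv)] at this
    rcases ge w (a2 w mw) with h | h | h
    exacts [w2.not.2 qv (by rw [h, one_mul]; exact qe), w1.not.2 qu (h ▸ qe), by omega]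
  rw [cnt] at np ⊢
  have a3 : a < 3 := ha ▸ le2 _
  have c3 : c < 3 := hc ▸ le2 _
  have := np 43 (by norm_num) (by decide +kernel)
  have := np 211 (by norm_num) (by decide +kernel)
  have := np 29 (by norm_num) (by decide +kernel)
  have := np 23 (by norm_num) (by decide +kernel)
  have := np 97 (by norm_num) (by decide +kernel)
  have := np 67 (by norm_num) (by decide +kernel)
  have := np 257 (by norm_num) (by decide +kernel)
  have := np 271 (by norm_num) (by decide +kernel)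
  interval_cases a <;> interval_cases b <;> interval_cases c <;> omega

end H8.UA
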