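import Cfsg.Agent.H8.GA7
import Cfsg.Agent.H8.Glue

/-! H8.XA7: `iso`: the alternating group of degree 7 is isomorphic to `P` (generated certificate) -/

set_option autoImplicit false
set_option maxRecDepth 200000

open Matrix

namespace H8.A7

theorem iso : Nonempty (alternatingGroup (Fin 7) ≃* P) := by
  refine iso_of_card' gen (ofNat_inj 7) (fun j hj => ?_) (by rw [card, nat_card_alternatingGroup]; simp; decide)
  interval_cases j
  · exact ⟨⟨c[0, 1, 2], Equiv.Perm.mem_alternatingGroup.2 (by decide)⟩, by unfold Rep RepF; decide +kernel⟩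
  · exact ⟨⟨c[0, 1, 2, 3, 4, 5, 6], Equiv.Perm.mem_alternatingGroup.2 (by decide)⟩, by unfold Rep RepF; decide +kernel⟩

end H8.A7
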