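import Cfsg.Agent.H8.GL28
import Cfsg.Agent.H8.Glue
import Cfsg.Agent.S0243

/-! H8.XL28: `iso`: PSL(2,8) is isomorphic to `P` (generated certificate) -/

set_option autoImplicit false
set_option maxRecDepth 200000

open Matrix

namespace H8.L28

noncomputable def V : Tr ℕ := (.node (nat_lit 4) (.node (nat_lit 2) (.node (nat_lit 1) (.leaf (nat_lit 1)) (.leaf (nat_lit 8))) (.node (nat_lit 3) (.leaf (nat_lit 9)) (.leaf (nat_lit 17))))
 (.node (nat_lit 6) (.node (nat_lit 5) (.leaf (nat_lit 25)) (.leaf (nat_lit 33))) (.node (nat_lit 7) (.leaf (nat_lit 41)) (.node (nat_lit 8) (.leaf (nat_lit 49)) (.leaf (nat_lit 57))))))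
theorem pts : ptR C8 2 true V 9 0 9 = true := by decide +kernel
noncomputable def M0 : Sp := [[(nat_lit 0, nat_lit 6), (nat_lit 1, nat_lit 5)],
  [(nat_lit 0, nat_lit 1), (nat_lit 1, nat_lit 7)]]
noncomputable def M1 : Sp := [[(nat_lit 0, nat_lit 4), (nat_lit 1, nat_lit 5)],
  [(nat_lit 0, nat_lit 3), (nat_lit 1, nat_lit 6)]]
noncomputable def MT : Tr Sp := (.node (nat_lit 1) (.leaf M0) (.leaf M1))
noncomputable def SC : Tr ℕ := (.node (nat_lit 1) (.leaf (nat_lit 88594835)) (.leaf (nat_lit 93967447)))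
theorem act : ActAll C8 2 true V 9 (nat_lit 4) (nat_lit 15) MT G0 SC 2 := actAll_of (by decide +kernel)
noncomputable def OT : Tr ℕ := (.node (nat_lit 1) (.leaf (nat_lit 3)) (.leaf (nat_lit 9)))
theorem pw : ∀ j < 2, powChk C8 2 (MT.get j) (OT.get j) = true ∧ 0 < OT.get j ∧ Nat.Coprime (OT.get j) 7 := by decide +kernel
theorem cen : Subgroup.center P = ⊥ := center_eq_bot lets base (nat_lit 0) [[nat_lit 2]] [[], [nat_lit 2, nat_lit 0, nat_lit 0, nat_lit 3], [nat_lit 1, nat_lit 3]] (by decide +kernel)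
theorem iso {F : Type*} [Field F] [Fintype F] (hF : Fintype.card F = 8) :
    Nonempty (Matrix.ProjectiveSpecialLinearGroup (Fin 2) F ≃* P) := by
  haveI : CharP F 2 := charP_of_card (k := 3) (by norm_num) hF
  obtain ⟨ω, hω⟩ := exists_fm8 hF
  have h := fm8 hω
  refine iso_quot_center gen (h.pt_inj (ix_fin 2) (τSL (Fin 2) F) pts)
    (act.lets h (ix_fin 2) fun j hj => h.exists_SL (ix_fin 2) (pw j hj).1 (pw j hj).2.1 (by rw [hF]; exact (pw j hj).2.2)) cen ?_
  have := Cfsg.Agent.S0243.result hF 2 (by norm_num)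
  rw [card]
  simp only [Fin.prod_univ_succ, Fin.prod_univ_zero] at this
  norm_num at this
  show Nat.card (Matrix.ProjectiveSpecialLinearGroup (Fin 2) F) ≤ _
  omega

end H8.L28
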