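import Cfsg.Agent.H8.GL32
import Cfsg.Agent.H8.Glue
import Cfsg.Agent.S0243

/-! H8.XL32: `iso`: PSL(3,2) is isomorphic to `P` (generated certificate) -/

set_option autoImplicit false
set_option maxRecDepth 200000

open Matrix

namespace H8.L32

noncomputable def V : Tr ℕ := (.node (nat_lit 3) (.node (nat_lit 1) (.leaf (nat_lit 1)) (.node (nat_lit 2) (.leaf (nat_lit 2)) (.leaf (nat_lit 3))))
 (.node (nat_lit 5) (.node (nat_lit 4) (.leaf (nat_lit 4)) (.leaf (nat_lit 5))) (.node (nat_lit 6) (.leaf (nat_lit 6)) (.leaf (nat_lit 7)))))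
theorem pts : ptR C2 3 false V 7 0 7 = true := by decide +kernel
noncomputable def M0 : Sp := [[(nat_lit 0, nat_lit 1), (nat_lit 1, nat_lit 1), (nat_lit 2, nat_lit 1)],
  [(nat_lit 0, nat_lit 1), (nat_lit 1, nat_lit 1)],
  [(nat_lit 0, nat_lit 1)]]
noncomputable def M1 : Sp := [[(nat_lit 1, nat_lit 1)],
  [(nat_lit 0, nat_lit 1)],
  [(nat_lit 0, nat_lit 1), (nat_lit 1, nat_lit 1), (nat_lit 2, nat_lit 1)]]
noncomputable def MT : Tr Sp := (.node (nat_lit 1) (.leaf M0) (.leaf M1))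
noncomputable def SC : Tr ℕ := (.node (nat_lit 1) (.leaf (nat_lit 127)) (.leaf (nat_lit 127)))
theorem act : ActAll C2 3 false V 7 (nat_lit 3) (nat_lit 7) MT G0 SC 2 := actAll_of (by decide +kernel)
noncomputable def OT : Tr ℕ := (.node (nat_lit 1) (.leaf (nat_lit 7)) (.leaf (nat_lit 2)))
theorem pw : ∀ j < 2, powChk C2 3 (MT.get j) (OT.get j) = true ∧ 0 < OT.get j ∧ Nat.Coprime (OT.get j) 1 := by decide +kernel
theorem cen : Subgroup.center P = ⊥ := center_eq_bot lets base (nat_lit 0) [[nat_lit 2, nat_lit 0]] [[], [nat_lit 2, nat_lit 1, nat_lit 3], [nat_lit 3]] (by decide +kernel)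
theorem iso {F : Type*} [Field F] [Fintype F] (hF : Fintype.card F = 2) :
    Nonempty (Matrix.ProjectiveSpecialLinearGroup (Fin 3) F ≃* P) := by
  haveI : CharP F 2 := charP_of_card (k := 1) (by norm_num) hF
  have h := fm2 (F := F)
  refine iso_quot_center gen (h.pt_inj (ix_fin 3) (τSL (Fin 3) F) pts)
    (act.lets h (ix_fin 3) fun j hj => h.exists_SL (ix_fin 3) (pw j hj).1 (pw j hj).2.1 (by rw [hF]; exact (pw j hj).2.2)) cen ?_
  have := Cfsg.Agent.S0243.result hF 3 (by norm_num)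
  rw [card]
  simp only [Fin.prod_univ_succ, Fin.prod_univ_zero] at this
  norm_num at this
  show Nat.card (Matrix.ProjectiveSpecialLinearGroup (Fin 3) F) ≤ _
  omega

end H8.L32
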