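import Cfsg.Agent.H8.GL34
import Cfsg.Agent.H8.Glue
import Cfsg.Agent.S0243

/-! H8.XL34: `iso`: PSL(3,4) is isomorphic to `P` (generated certificate) -/

set_option autoImplicit false
set_option maxRecDepth 200000

open Matrix

namespace H8.L34

noncomputable def V : Tr ℕ := (.node (nat_lit 10) (.node (nat_lit 5) (.node (nat_lit 2) (.node (nat_lit 1) (.leaf (nat_lit 1)) (.leaf (nat_lit 4))) (.node (nat_lit 3) (.leaf (nat_lit 5)) (.node (nat_lit 4) (.leaf (nat_lit 9)) (.leaf (nat_lit 13)))))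
 (.node (nat_lit 7) (.node (nat_lit 6) (.leaf (nat_lit 16)) (.leaf (nat_lit 17))) (.node (nat_lit 8) (.leaf (nat_lit 20)) (.node (nat_lit 9) (.leaf (nat_lit 21)) (.leaf (nat_lit 25))))))
 (.node (nat_lit 15) (.node (nat_lit 12) (.node (nat_lit 11) (.leaf (nat_lit 29)) (.leaf (nat_lit 33))) (.node (nat_lit 13) (.leaf (nat_lit 36)) (.node (nat_lit 14) (.leaf (nat_lit 37)) (.leaf (nat_lit 41)))))
 (.node (nat_lit 18) (.node (nat_lit 16) (.leaf (nat_lit 45)) (.node (nat_lit 17) (.leaf (nat_lit 49)) (.leaf (nat_lit 52)))) (.node (nat_lit 19) (.leaf (nat_lit 53)) (.node (nat_lit 20) (.leaf (nat_lit 57)) (.leaf (nat_lit 61)))))))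
theorem pts : ptR C4 3 true V 21 0 21 = true := by decide +kernel
noncomputable def M0 : Sp := [[(nat_lit 0, nat_lit 1), (nat_lit 1, nat_lit 2), (nat_lit 2, nat_lit 3)],
  [(nat_lit 1, nat_lit 1), (nat_lit 2, nat_lit 1)],
  [(nat_lit 0, nat_lit 3), (nat_lit 1, nat_lit 2)]]
noncomputable def M1 : Sp := [[(nat_lit 0, nat_lit 1)],
  [(nat_lit 1, nat_lit 3), (nat_lit 2, nat_lit 1)],
  [(nat_lit 0, nat_lit 3), (nat_lit 1, nat_lit 1)]]
noncomputable def MT : Tr Sp := (.node (nat_lit 1) (.leaf M0) (.leaf M1))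
noncomputable def SC : Tr ℕ := (.node (nat_lit 1) (.leaf (nat_lit 0x35e6ee57aed)) (.leaf (nat_lit 0x1555555d559)))
theorem act : ActAll C4 3 true V 21 (nat_lit 5) (nat_lit 31) MT G0 SC 2 := actAll_of (by decide +kernel)
noncomputable def OT : Tr ℕ := (.node (nat_lit 1) (.leaf (nat_lit 7)) (.leaf (nat_lit 5)))
theorem pw : ∀ j < 2, powChk C4 3 (MT.get j) (OT.get j) = true ∧ 0 < OT.get j ∧ Nat.Coprime (OT.get j) 3 := by decide +kernel
theorem cen : Subgroup.center P = ⊥ := center_eq_bot lets base (nat_lit 0) [[nat_lit 3, nat_lit 6]] [[], [nat_lit 6, nat_lit 1, nat_lit 7], [nat_lit 5, nat_lit 6, nat_lit 3, nat_lit 7], [nat_lit 3, nat_lit 2, nat_lit 7]] (by decide +kernel)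
theorem iso {F : Type*} [Field F] [Fintype F] (hF : Fintype.card F = 4) :
    Nonempty (Matrix.ProjectiveSpecialLinearGroup (Fin 3) F ≃* P) := by
  haveI : CharP F 2 := charP_of_card (k := 2) (by norm_num) hF
  obtain ⟨ω, hω⟩ := exists_fm4 hF
  have h := fm4 hω
  refine iso_quot_center gen (h.pt_inj (ix_fin 3) (τSL (Fin 3) F) pts)
    (act.lets h (ix_fin 3) fun j hj => h.exists_SL (ix_fin 3) (pw j hj).1 (pw j hj).2.1 (by rw [hF]; exact (pw j hj).2.2)) cen ?_
  have := Cfsg.Agent.S0243.result hF 3 (by norm_num)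
  rw [card]
  simp only [Fin.prod_univ_succ, Fin.prod_univ_zero] at this
  norm_num at this
  show Nat.card (Matrix.ProjectiveSpecialLinearGroup (Fin 3) F) ≤ _
  omega

end H8.L34
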