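import Cfsg.Agent.H8.GS44
import Cfsg.Agent.H8.Glue
import Cfsg.Agent.S0245
import Cfsg.Agent.S0246

/-! H8.XS44: `iso`: PSp(4,4) is isomorphic to `P` (generated certificate) -/

set_option autoImplicit false
set_option maxRecDepth 200000

open Matrix

namespace H8.S44

noncomputable def V : Tr ℕ := (.node (nat_lit 42) (.node (nat_lit 21) (.node (nat_lit 10) (.node (nat_lit 5) (.node (nat_lit 2) (.node (nat_lit 1) (.leaf (nat_lit 1)) (.leaf (nat_lit 4))) (.node (nat_lit 3) (.leaf (nat_lit 5)) (.node (nat_lit 4) (.leaf (nat_lit 9)) (.leaf (nat_lit 13)))))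
 (.node (nat_lit 7) (.node (nat_lit 6) (.leaf (nat_lit 16)) (.leaf (nat_lit 17))) (.node (nat_lit 8) (.leaf (nat_lit 20)) (.node (nat_lit 9) (.leaf (nat_lit 21)) (.leaf (nat_lit 25))))))
 (.node (nat_lit 15) (.node (nat_lit 12) (.node (nat_lit 11) (.leaf (nat_lit 29)) (.leaf (nat_lit 33))) (.node (nat_lit 13) (.leaf (nat_lit 36)) (.node (nat_lit 14) (.leaf (nat_lit 37)) (.leaf (nat_lit 41)))))
 (.node (nat_lit 18) (.node (nat_lit 16) (.leaf (nat_lit 45)) (.node (nat_lit 17) (.leaf (nat_lit 49)) (.leaf (nat_lit 52)))) (.node (nat_lit 19) (.leaf (nat_lit 53)) (.node (nat_lit 20) (.leaf (nat_lit 57)) (.leaf (nat_lit 61)))))))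
 (.node (nat_lit 31) (.node (nat_lit 26) (.node (nat_lit 23) (.node (nat_lit 22) (.leaf (nat_lit 64)) (.leaf (nat_lit 65))) (.node (nat_lit 24) (.leaf (nat_lit 68)) (.node (nat_lit 25) (.leaf (nat_lit 69)) (.leaf (nat_lit 73)))))
 (.node (nat_lit 28) (.node (nat_lit 27) (.leaf (nat_lit 77)) (.leaf (nat_lit 80))) (.node (nat_lit 29) (.leaf (nat_lit 81)) (.node (nat_lit 30) (.leaf (nat_lit 84)) (.leaf (nat_lit 85))))))
 (.node (nat_lit 36) (.node (nat_lit 33) (.node (nat_lit 32) (.leaf (nat_lit 89)) (.leaf (nat_lit 93))) (.node (nat_lit 34) (.leaf (nat_lit 97)) (.node (nat_lit 35) (.leaf (nat_lit 100)) (.leaf (nat_lit 101)))))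
 (.node (nat_lit 39) (.node (nat_lit 37) (.leaf (nat_lit 105)) (.node (nat_lit 38) (.leaf (nat_lit 109)) (.leaf (nat_lit 113)))) (.node (nat_lit 40) (.leaf (nat_lit 116)) (.node (nat_lit 41) (.leaf (nat_lit 117)) (.leaf (nat_lit 121))))))))
 (.node (nat_lit 63) (.node (nat_lit 52) (.node (nat_lit 47) (.node (nat_lit 44) (.node (nat_lit 43) (.leaf (nat_lit 125)) (.leaf (nat_lit 129))) (.node (nat_lit 45) (.leaf (nat_lit 132)) (.node (nat_lit 46) (.leaf (nat_lit 133)) (.leaf (nat_lit 137)))))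
 (.node (nat_lit 49) (.node (nat_lit 48) (.leaf (nat_lit 141)) (.leaf (nat_lit 144))) (.node (nat_lit 50) (.leaf (nat_lit 145)) (.node (nat_lit 51) (.leaf (nat_lit 148)) (.leaf (nat_lit 149))))))
 (.node (nat_lit 57) (.node (nat_lit 54) (.node (nat_lit 53) (.leaf (nat_lit 153)) (.leaf (nat_lit 157))) (.node (nat_lit 55) (.leaf (nat_lit 161)) (.node (nat_lit 56) (.leaf (nat_lit 164)) (.leaf (nat_lit 165)))))
 (.node (nat_lit 60) (.node (nat_lit 58) (.leaf (nat_lit 169)) (.node (nat_lit 59) (.leaf (nat_lit 173)) (.leaf (nat_lit 177)))) (.node (nat_lit 61) (.leaf (nat_lit 180)) (.node (nat_lit 62) (.leaf (nat_lit 181)) (.leaf (nat_lit 185)))))))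
 (.node (nat_lit 74) (.node (nat_lit 68) (.node (nat_lit 65) (.node (nat_lit 64) (.leaf (nat_lit 189)) (.leaf (nat_lit 193))) (.node (nat_lit 66) (.leaf (nat_lit 196)) (.node (nat_lit 67) (.leaf (nat_lit 197)) (.leaf (nat_lit 201)))))
 (.node (nat_lit 71) (.node (nat_lit 69) (.leaf (nat_lit 205)) (.node (nat_lit 70) (.leaf (nat_lit 208)) (.leaf (nat_lit 209)))) (.node (nat_lit 72) (.leaf (nat_lit 212)) (.node (nat_lit 73) (.leaf (nat_lit 213)) (.leaf (nat_lit 217))))))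
 (.node (nat_lit 79) (.node (nat_lit 76) (.node (nat_lit 75) (.leaf (nat_lit 221)) (.leaf (nat_lit 225))) (.node (nat_lit 77) (.leaf (nat_lit 228)) (.node (nat_lit 78) (.leaf (nat_lit 229)) (.leaf (nat_lit 233)))))
 (.node (nat_lit 82) (.node (nat_lit 80) (.leaf (nat_lit 237)) (.node (nat_lit 81) (.leaf (nat_lit 241)) (.leaf (nat_lit 244)))) (.node (nat_lit 83) (.leaf (nat_lit 245)) (.node (nat_lit 84) (.leaf (nat_lit 249)) (.leaf (nat_lit 253)))))))))
theorem pts : ptR C4 4 true V 85 0 85 = true := by decide +kernel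
noncomputable def M0 : Sp := [[(nat_lit 0, nat_lit 1)],
  [(nat_lit 0, nat_lit 3), (nat_lit 1, nat_lit 1)],
  [(nat_lit 1, nat_lit 2), (nat_lit 2, nat_lit 1), (nat_lit 3, nat_lit 3)],
  [(nat_lit 0, nat_lit 2), (nat_lit 3, nat_lit 1)]]
noncomputable def M1 : Sp := [[(nat_lit 0, nat_lit 3), (nat_lit 2, nat_lit 1)],
  [(nat_lit 0, nat_lit 1), (nat_lit 1, nat_lit 3), (nat_lit 2, nat_lit 2), (nat_lit 3, nat_lit 3)],
  [(nat_lit 0, nat_lit 1), (nat_lit 3, nat_lit 3)],
  [(nat_lit 0, nat_lit 1), (nat_lit 1, nat_lit 3), (nat_lit 2, nat_lit 2), (nat_lit 3, nat_lit 1)]]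
noncomputable def MT : Tr Sp := (.node (nat_lit 1) (.leaf M0) (.leaf M1))
noncomputable def SC : Tr ℕ := (.node (nat_lit 1) (.leaf (nat_lit 0x15555555955555555575555555555d5595555555555)) (.leaf (nat_lit 0x29b577f76a6ae55dfddab9fa577f76aab69577f76aa)))
theorem act : ActAll C4 4 true V 85 (nat_lit 7) (nat_lit 127) MT G0 SC 2 := actAll_of (by decide +kernel)
noncomputable def BJ (i j : ℕ) : ℕ := ite' (Nat.beq j (i + 2)) 1 (ite' (Nat.beq i (j + 2)) 1 0)
theorem pw : ∀ j < 2, bilChk C4 4 BJ (fun a => a) (MT.get j) = true := by decide +kernel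
theorem cen : Subgroup.center P = ⊥ := center_eq_bot lets base (nat_lit 0) [[nat_lit 7, nat_lit 6]] [[], [nat_lit 8, nat_lit 7, nat_lit 4, nat_lit 8], [nat_lit 8, nat_lit 3, nat_lit 0, nat_lit 8], [nat_lit 8, nat_lit 6, nat_lit 4, nat_lit 8], [nat_lit 8, nat_lit 2, nat_lit 1, nat_lit 8], [nat_lit 8, nat_lit 5, nat_lit 2, nat_lit 8]] (by decide +kernel)
theorem iso {F : Type*} [Field F] [Fintype F] (hF : Fintype.card F = 4) :
    Nonempty (Cfsg.PSp 2 F ≃* P) := by
  haveI : CharP F 2 := charP_of_card (k := 2) (by norm_num) hF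
  obtain ⟨ω, hω⟩ := exists_fm4 hF
  have h := fm4 hω
  have t : (2 : F) = 0 := CharP.cast_eq_zero F 2
  have hx := ix_sum 2 2
  refine iso_quot_center gen (h.pt_inj hx (symplecticGroup (Fin 2) F).subtype pts)
    (act.lets h hx fun j hj => h.exists_Sp hx ?_ (pw j hj)) cen ?_
  · have n1 : φ4 ω 1 = (-1 : F) := by rw [← h.one]; exact eq_neg_of_add_eq_zero_left (by rw [← h.add, ← h.zero]; exact h.eqv.1 (by decide +kernel))
    ext (i | i) (j | j) <;> fin_cases i <;> fin_cases j <;>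
      first | exact h.zero | exact n1 | exact h.one.trans (neg_neg _).symm | exact h.one | exact h.zero.trans neg_zero.symm
  · refine (Nat.le_of_dvd Nat.card_pos (Subgroup.card_quotient_dvd_card _)).trans ?_
    rw [card, Cfsg.Agent.S0245.result hF]
    decide +kernel

end H8.S44
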