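import Cfsg.Agent.H8.GS62
import Cfsg.Agent.H8.Glue
import Cfsg.Agent.S0245

/-! H8.XS62: `iso`: PSp(6,2) is isomorphic to `P` (generated certificate) -/

set_option autoImplicit false
set_option maxRecDepth 200000

open Matrix

namespace H8.S62

noncomputable def V : Tr ℕ := (.node (nat_lit 31) (.node (nat_lit 15) (.node (nat_lit 7) (.node (nat_lit 3) (.node (nat_lit 1) (.leaf (nat_lit 1)) (.node (nat_lit 2) (.leaf (nat_lit 2)) (.leaf (nat_lit 3))))
 (.node (nat_lit 5) (.node (nat_lit 4) (.leaf (nat_lit 4)) (.leaf (nat_lit 5))) (.node (nat_lit 6) (.leaf (nat_lit 6)) (.leaf (nat_lit 7)))))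
 (.node (nat_lit 11) (.node (nat_lit 9) (.node (nat_lit 8) (.leaf (nat_lit 8)) (.leaf (nat_lit 9))) (.node (nat_lit 10) (.leaf (nat_lit 10)) (.leaf (nat_lit 11))))
 (.node (nat_lit 13) (.node (nat_lit 12) (.leaf (nat_lit 12)) (.leaf (nat_lit 13))) (.node (nat_lit 14) (.leaf (nat_lit 14)) (.leaf (nat_lit 15))))))
 (.node (nat_lit 23) (.node (nat_lit 19) (.node (nat_lit 17) (.node (nat_lit 16) (.leaf (nat_lit 16)) (.leaf (nat_lit 17))) (.node (nat_lit 18) (.leaf (nat_lit 18)) (.leaf (nat_lit 19))))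
 (.node (nat_lit 21) (.node (nat_lit 20) (.leaf (nat_lit 20)) (.leaf (nat_lit 21))) (.node (nat_lit 22) (.leaf (nat_lit 22)) (.leaf (nat_lit 23)))))
 (.node (nat_lit 27) (.node (nat_lit 25) (.node (nat_lit 24) (.leaf (nat_lit 24)) (.leaf (nat_lit 25))) (.node (nat_lit 26) (.leaf (nat_lit 26)) (.leaf (nat_lit 27))))
 (.node (nat_lit 29) (.node (nat_lit 28) (.leaf (nat_lit 28)) (.leaf (nat_lit 29))) (.node (nat_lit 30) (.leaf (nat_lit 30)) (.leaf (nat_lit 31)))))))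
 (.node (nat_lit 47) (.node (nat_lit 39) (.node (nat_lit 35) (.node (nat_lit 33) (.node (nat_lit 32) (.leaf (nat_lit 32)) (.leaf (nat_lit 33))) (.node (nat_lit 34) (.leaf (nat_lit 34)) (.leaf (nat_lit 35))))
 (.node (nat_lit 37) (.node (nat_lit 36) (.leaf (nat_lit 36)) (.leaf (nat_lit 37))) (.node (nat_lit 38) (.leaf (nat_lit 38)) (.leaf (nat_lit 39)))))
 (.node (nat_lit 43) (.node (nat_lit 41) (.node (nat_lit 40) (.leaf (nat_lit 40)) (.leaf (nat_lit 41))) (.node (nat_lit 42) (.leaf (nat_lit 42)) (.leaf (nat_lit 43))))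
 (.node (nat_lit 45) (.node (nat_lit 44) (.leaf (nat_lit 44)) (.leaf (nat_lit 45))) (.node (nat_lit 46) (.leaf (nat_lit 46)) (.leaf (nat_lit 47))))))
 (.node (nat_lit 55) (.node (nat_lit 51) (.node (nat_lit 49) (.node (nat_lit 48) (.leaf (nat_lit 48)) (.leaf (nat_lit 49))) (.node (nat_lit 50) (.leaf (nat_lit 50)) (.leaf (nat_lit 51))))
 (.node (nat_lit 53) (.node (nat_lit 52) (.leaf (nat_lit 52)) (.leaf (nat_lit 53))) (.node (nat_lit 54) (.leaf (nat_lit 54)) (.leaf (nat_lit 55)))))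
 (.node (nat_lit 59) (.node (nat_lit 57) (.node (nat_lit 56) (.leaf (nat_lit 56)) (.leaf (nat_lit 57))) (.node (nat_lit 58) (.leaf (nat_lit 58)) (.leaf (nat_lit 59))))
 (.node (nat_lit 61) (.node (nat_lit 60) (.leaf (nat_lit 60)) (.leaf (nat_lit 61))) (.node (nat_lit 62) (.leaf (nat_lit 62)) (.leaf (nat_lit 63))))))))
theorem pts : ptR C2 6 false V 63 0 63 = true := by decide +kernel
noncomputable def M0 : Sp := [[(nat_lit 3, nat_lit 1), (nat_lit 4, nat_lit 1)],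
  [(nat_lit 2, nat_lit 1)],
  [(nat_lit 0, nat_lit 1), (nat_lit 1, nat_lit 1)],
  [(nat_lit 1, nat_lit 1), (nat_lit 3, nat_lit 1), (nat_lit 4, nat_lit 1)],
  [(nat_lit 2, nat_lit 1), (nat_lit 5, nat_lit 1)],
  [(nat_lit 3, nat_lit 1)]]
noncomputable def M1 : Sp := [[(nat_lit 0, nat_lit 1), (nat_lit 1, nat_lit 1), (nat_lit 3, nat_lit 1), (nat_lit 5, nat_lit 1)],
  [(nat_lit 3, nat_lit 1), (nat_lit 4, nat_lit 1)],
  [(nat_lit 0, nat_lit 1), (nat_lit 1, nat_lit 1), (nat_lit 2, nat_lit 1), (nat_lit 5, nat_lit 1)],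
  [(nat_lit 0, nat_lit 1), (nat_lit 1, nat_lit 1), (nat_lit 3, nat_lit 1), (nat_lit 4, nat_lit 1)],
  [(nat_lit 1, nat_lit 1), (nat_lit 2, nat_lit 1), (nat_lit 4, nat_lit 1)],
  [(nat_lit 0, nat_lit 1), (nat_lit 1, nat_lit 1), (nat_lit 2, nat_lit 1), (nat_lit 3, nat_lit 1), (nat_lit 4, nat_lit 1)]]
noncomputable def MT : Tr Sp := (.node (nat_lit 1) (.leaf M0) (.leaf M1))
noncomputable def SC : Tr ℕ := (.node (nat_lit 1) (.leaf (nat_lit 0x7fffffffffffffff)) (.leaf (nat_lit 0x7fffffffffffffff)))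
theorem act : ActAll C2 6 false V 63 (nat_lit 6) (nat_lit 63) MT G0 SC 2 := actAll_of (by decide +kernel)
noncomputable def BJ (i j : ℕ) : ℕ := ite' (Nat.beq j (i + 3)) 1 (ite' (Nat.beq i (j + 3)) 1 0)
theorem pw : ∀ j < 2, bilChk C2 6 BJ (fun a => a) (MT.get j) = true := by decide +kernel
theorem cen : Subgroup.center P = ⊥ := center_eq_bot lets base (nat_lit 0) [[nat_lit 1, nat_lit 7]] [[], [nat_lit 7, nat_lit 5, nat_lit 7, nat_lit 8], [nat_lit 7, nat_lit 6, nat_lit 1, nat_lit 8], [nat_lit 8, nat_lit 7, nat_lit 1, nat_lit 8], [nat_lit 6, nat_lit 1, nat_lit 8], [nat_lit 5, nat_lit 7, nat_lit 8]] (by decide +kernel)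
theorem iso {F : Type*} [Field F] [Fintype F] (hF : Fintype.card F = 2) :
    Nonempty (Cfsg.PSp 3 F ≃* P) := by
  haveI : CharP F 2 := charP_of_card (k := 1) (by norm_num) hF
  have h := fm2 (F := F)
  have t : (2 : F) = 0 := CharP.cast_eq_zero F 2
  have hx := ix_sum 3 3
  refine iso_quot_center gen (h.pt_inj hx (symplecticGroup (Fin 3) F).subtype pts)
    (act.lets h hx fun j hj => h.exists_Sp hx ?_ (pw j hj)) cen ?_
  · have n1 : ((1 : ℕ) : F) = (-1 : F) := by rw [← h.one]; exact eq_neg_of_add_eq_zero_left (by rw [← h.add, ← h.zero]; exact h.eqv.1 (by decide +kernel))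
    ext (i | i) (j | j) <;> fin_cases i <;> fin_cases j <;>
      first | exact h.zero | exact n1 | exact h.one.trans (neg_neg _).symm | exact h.one | exact h.zero.trans neg_zero.symm
  · refine (Nat.le_of_dvd Nat.card_pos (Subgroup.card_quotient_dvd_card _)).trans ?_
    rw [card, Cfsg.Agent.S0245.result hF]
    decide +kernel

end H8.S62
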