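import Cfsg.Agent.H8.GSz8
import Cfsg.Agent.H8.Glue
import Cfsg.Agent.S1163

/-! H8.XSz8: `iso`: Sz(8) is isomorphic to `P` (generated certificate) -/

set_option autoImplicit false
set_option maxRecDepth 200000

open Matrix

namespace H8.Sz8

noncomputable def V : Tr ℕ := (.node (nat_lit 32) (.node (nat_lit 16) (.node (nat_lit 8) (.node (nat_lit 4) (.node (nat_lit 2) (.node (nat_lit 1) (.leaf (nat_lit 1)) (.leaf (nat_lit 512))) (.node (nat_lit 3) (.leaf (nat_lit 521)) (.leaf (nat_lit 577))))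
 (.node (nat_lit 6) (.node (nat_lit 5) (.leaf (nat_lit 585)) (.leaf (nat_lit 745))) (.node (nat_lit 7) (.leaf (nat_lit 761)) (.leaf (nat_lit 857)))))
 (.node (nat_lit 12) (.node (nat_lit 10) (.node (nat_lit 9) (.leaf (nat_lit 889)) (.leaf (nat_lit 985))) (.node (nat_lit 11) (.leaf (nat_lit 1001)) (.leaf (nat_lit 1065))))
 (.node (nat_lit 14) (.node (nat_lit 13) (.leaf (nat_lit 1121)) (.leaf (nat_lit 1145))) (.node (nat_lit 15) (.leaf (nat_lit 1185)) (.leaf (nat_lit 1201))))))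
 (.node (nat_lit 24) (.node (nat_lit 20) (.node (nat_lit 18) (.node (nat_lit 17) (.leaf (nat_lit 1281)) (.leaf (nat_lit 1321))) (.node (nat_lit 19) (.leaf (nat_lit 1521)) (.leaf (nat_lit 1529))))
 (.node (nat_lit 22) (.node (nat_lit 21) (.leaf (nat_lit 1585)) (.leaf (nat_lit 1817))) (.node (nat_lit 23) (.leaf (nat_lit 1825)) (.leaf (nat_lit 1857)))))
 (.node (nat_lit 28) (.node (nat_lit 26) (.node (nat_lit 25) (.leaf (nat_lit 1905)) (.leaf (nat_lit 1929))) (.node (nat_lit 27) (.leaf (nat_lit 1945)) (.leaf (nat_lit 1993))))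
 (.node (nat_lit 30) (.node (nat_lit 29) (.leaf (nat_lit 2017)) (.leaf (nat_lit 2105))) (.node (nat_lit 31) (.leaf (nat_lit 2137)) (.leaf (nat_lit 2161)))))))
 (.node (nat_lit 48) (.node (nat_lit 40) (.node (nat_lit 36) (.node (nat_lit 34) (.node (nat_lit 33) (.leaf (nat_lit 2257)) (.leaf (nat_lit 2265))) (.node (nat_lit 35) (.leaf (nat_lit 2321)) (.leaf (nat_lit 2353))))
 (.node (nat_lit 38) (.node (nat_lit 37) (.leaf (nat_lit 2433)) (.leaf (nat_lit 2489))) (.node (nat_lit 39) (.leaf (nat_lit 2577)) (.leaf (nat_lit 2697)))))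
 (.node (nat_lit 44) (.node (nat_lit 42) (.node (nat_lit 41) (.leaf (nat_lit 2729)) (.leaf (nat_lit 2761))) (.node (nat_lit 43) (.leaf (nat_lit 2801)) (.leaf (nat_lit 2985))))
 (.node (nat_lit 46) (.node (nat_lit 45) (.leaf (nat_lit 2993)) (.leaf (nat_lit 3009))) (.node (nat_lit 47) (.leaf (nat_lit 3025)) (.leaf (nat_lit 3097))))))
 (.node (nat_lit 56) (.node (nat_lit 52) (.node (nat_lit 50) (.node (nat_lit 49) (.leaf (nat_lit 3153)) (.leaf (nat_lit 3177))) (.node (nat_lit 51) (.leaf (nat_lit 3201)) (.leaf (nat_lit 3225))))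
 (.node (nat_lit 54) (.node (nat_lit 53) (.leaf (nat_lit 3425)) (.leaf (nat_lit 3433))) (.node (nat_lit 55) (.leaf (nat_lit 3473)) (.leaf (nat_lit 3489)))))
 (.node (nat_lit 60) (.node (nat_lit 58) (.node (nat_lit 57) (.leaf (nat_lit 3617)) (.leaf (nat_lit 3729))) (.node (nat_lit 59) (.leaf (nat_lit 3769)) (.leaf (nat_lit 3777))))
 (.node (nat_lit 62) (.node (nat_lit 61) (.leaf (nat_lit 3809)) (.leaf (nat_lit 3849))) (.node (nat_lit 63) (.leaf (nat_lit 3897)) (.node (nat_lit 64) (.leaf (nat_lit 3913)) (.leaf (nat_lit 3921)))))))))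
theorem pts : ptR C8 4 true V 65 0 65 = true := by decide +kernel
noncomputable def M0 : Sp := [[(nat_lit 3, nat_lit 1)],
  [(nat_lit 2, nat_lit 1), (nat_lit 3, nat_lit 6)],
  [(nat_lit 1, nat_lit 1), (nat_lit 2, nat_lit 4), (nat_lit 3, nat_lit 5)],
  [(nat_lit 0, nat_lit 1), (nat_lit 1, nat_lit 6), (nat_lit 3, nat_lit 3)]]
noncomputable def M1 : Sp := [[(nat_lit 0, nat_lit 1)],
  [(nat_lit 0, nat_lit 4), (nat_lit 1, nat_lit 1)],
  [(nat_lit 0, nat_lit 5), (nat_lit 1, nat_lit 2), (nat_lit 2, nat_lit 1)],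
  [(nat_lit 0, nat_lit 6), (nat_lit 1, nat_lit 6), (nat_lit 2, nat_lit 4), (nat_lit 3, nat_lit 1)]]
noncomputable def MT : Tr Sp := (.node (nat_lit 1) (.leaf M0) (.leaf M1))
noncomputable def SC : Tr ℕ := (.node (nat_lit 1) (.leaf (nat_lit 0x49249246db6db6924924bffffffedb6db6b6db6da49249249)) (.leaf (nat_lit 0x1249249249249249249249249249249249249249249249249)))
theorem act : ActAll C8 4 true V 65 (nat_lit 7) (nat_lit 127) MT G0 SC 2 := actAll_of (by decide +kernel)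
noncomputable def OT : Tr ℕ := (.node (nat_lit 1) (.leaf (nat_lit 13)) (.leaf (nat_lit 4)))
noncomputable def BJ (i j : ℕ) : ℕ := ite' (Nat.beq (i + j) 3) 1 0
theorem pw : ∀ j < 2, powChk C8 4 (MT.get j) (OT.get j) = true ∧ 0 < OT.get j ∧ bilChk C8 4 BJ (fun a => a) (MT.get j) = true ∧ ∀ p r : Fin 4,
    C8.eqv (C8.add (C8.mul (C8.ent (MT.get j) (Cfsg.Lie.pairOf p).1 (Cfsg.Lie.pairOf r).1) (C8.ent (MT.get j) (Cfsg.Lie.pairOf p).2 (Cfsg.Lie.pairOf r).2))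
      (C8.mul (C8.ent (MT.get j) (Cfsg.Lie.pairOf p).2 (Cfsg.Lie.pairOf r).1) (C8.ent (MT.get j) (Cfsg.Lie.pairOf p).1 (Cfsg.Lie.pairOf r).2))) (C8.pow (C8.ent (MT.get j) p r) 4) = true := by decide +kernel
theorem iso {F : Type*} [Field F] [Fintype F] (hF : Fintype.card F = 8) :
    Nonempty (Cfsg.Lie.Sz F 4 ≃* P) := by
  haveI : CharP F 2 := charP_of_card (k := 3) (by norm_num) hF
  obtain ⟨ω, hω⟩ := exists_fm8 hF
  have h := fm8 hω
  refine iso_of_card' gen (h.pt_inj (ix_fin 4) (τGL (Cfsg.Lie.Sz F 4)) pts) (act.lets h (ix_fin 4) fun j hj => ?_)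
    (((Cfsg.Agent.S1163.result (m := 1) le_rfl hF).1.trans (by rw [card]; norm_num)).le)
  obtain ⟨h1, h2, h3, h4⟩ := pw j hj
  obtain ⟨g, hg⟩ := exists_GL h2 (h.powChk (ix_fin 4) h1)
  have e := h.bilChk (ix_fin 4) (σ' := id) (fun _ => rfl) h3
  have b : ∀ u v : Fin 4 → F, Cfsg.Lie.altForm4 u v = u ⬝ᵥ decF (φ8 ω) Fin.val BJ *ᵥ v := fun u v => by
    simp [Cfsg.Lie.altForm4, dotProduct, mulVec, decF, Fin.sum_univ_succ, BJ, ite', Nat.beq, h.zero, h.one, add_assoc]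
  refine ⟨⟨g, Subgroup.subset_closure ⟨fun u v => ?_, ?_⟩⟩, hg⟩
  · rw [map_id] at e
    rw [b, b, Units.coeHom_apply, hg, mulVec_mulVec, dotProduct_mulVec, vecMul_mulVec, ← dotProduct_mulVec, ← Matrix.mul_assoc, e]
  · ext p r
    have := h.eqv.1 (h4 p r)
    rw [h.add, h.mul, h.mul, h.pow] at this
    rw [hg]
    exact (CharTwo.sub_eq_add _ _).trans this

end H8.Sz8
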